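import Cfsg.Agent.Helper89.FourPoint
import Cfsg.Agent.Helper41.BaerSuzuki

/-!
# Sets of involutions of width one (helper89)

If `W` is a set of involutions of a finite group, closed under conjugation by its members, in
which any two members satisfy the braid relation `u v u = v u v` (i.e. the product of two
different members has order 3), then the products of two members of `W` generate a 3-group.
(Baer–Suzuki, from `Helper41`, and the four point theorem.)
-/

set_option autoImplicit false

namespace Cfsg.Agent.Helper89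

/-- A finite group generated by elements of order dividing 3 whose order divides `2 * 3 ^ 10`
is a 3-group. -/
theorem isPGroup_three_of_gen {M : Type*} [Group M] [Finite M] (S : Set M)
    (hS : ∀ s ∈ S, s ^ 3 = 1) (hgen : Subgroup.closure S = ⊤) (hcard : Nat.card M ∣ 118098) :
    IsPGroup 3 M := by
  have h118 : (118098 : ℕ) = 2 * 3 ^ 10 := by norm_num
  rw [h118] at hcard
  obtain ⟨k₁, k₂, h1, h2, h12⟩ := dvd_mul.1 hcard
  obtain ⟨i, -, rfl⟩ := (Nat.dvd_prime_pow Nat.prime_three).1 h2
  rcases (Nat.dvd_prime Nat.prime_two).1 h1 with rfl | rfl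
  · exact IsPGroup.of_card (n := i) (by rw [h12, one_mul])
  · exfalso
    have : Fact (Nat.Prime 3) := ⟨Nat.prime_three⟩
    have P : Sylow 3 M := default
    have hidx : (P : Subgroup M).index = 2 := by
      have hc := (P : Subgroup M).card_mul_index
      obtain ⟨m, hm⟩ := IsPGroup.iff_card.1 P.isPGroup'
      have hnd := P.not_dvd_index
      rw [hm, h12] at hc
      have hcop : Nat.Coprime (P : Subgroup M).index (3 ^ i) :=
        Nat.Coprime.pow_right i ((Nat.Prime.coprime_iff_not_dvd Nat.prime_three).2 hnd).symm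
      have hdvd : (P : Subgroup M).index ∣ 2 :=
        hcop.dvd_of_dvd_mul_right (Dvd.intro_left _ hc)
      rcases (Nat.dvd_prime Nat.prime_two).1 hdvd with h | h
      · rw [h, mul_one] at hc
        have h2' : 2 ∣ 3 ^ m := Dvd.intro _ hc.symm
        have := Nat.Prime.dvd_of_dvd_pow Nat.prime_two h2'
        omega
      · exact h
    have hN : (P : Subgroup M).Normal := Subgroup.normal_of_index_eq_two hidx
    have hq : Nat.card (M ⧸ (P : Subgroup M)) = 2 := by
      rw [← Subgroup.index_eq_card]; exact hidx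
    have hle : Subgroup.closure S ≤ (P : Subgroup M) := by
      rw [Subgroup.closure_le]
      intro s hs
      have e1 : ((s : M ⧸ (P : Subgroup M))) ^ 3 = 1 := by
        rw [← QuotientGroup.mk_pow, hS s hs]; rfl
      have e2 : ((s : M ⧸ (P : Subgroup M))) ^ 2 = 1 := by
        rw [← hq]; exact pow_card_eq_one'
      have e3 : (s : M ⧸ (P : Subgroup M)) = 1 := by
        calc (s : M ⧸ (P : Subgroup M))
            = (s : M ⧸ (P : Subgroup M)) ^ 3 * ((s : M ⧸ (P : Subgroup M)) ^ 2)⁻¹ := by group
          _ = 1 := by rw [e1, e2]; simp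
      exact (QuotientGroup.eq_one_iff s).1 e3
    rw [hgen] at hle
    have htop : (P : Subgroup M) = ⊤ := top_le_iff.1 hle
    rw [htop, Subgroup.index_top] at hidx
    omega

/-- Global form: if `D` is invariant under all conjugations, every product of two members
lies in every Sylow 3-subgroup. -/
theorem mul_mem_sylowCore {G : Type*} [Group G] [Finite G] {D : Set G}
    (hsq : ∀ u ∈ D, u * u = 1) (hconj : ∀ g : G, ∀ u ∈ D, g * u * g⁻¹ ∈ D)
    (hbr : ∀ u ∈ D, ∀ v ∈ D, u * v * u = v * u * v) (u v : G) (hu : u ∈ D) (hv : v ∈ D) :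
    u * v ∈ Cfsg.Agent.Helper41.sylowCore 3 G := by
  have : Fact (Nat.Prime 3) := ⟨Nat.prime_three⟩
  have hinv : ∀ x ∈ D, x⁻¹ = x := fun x hx => inv_eq_of_mul_eq_one_left (hsq x hx)
  have hcj : ∀ u ∈ D, ∀ v ∈ D, u * v * u ∈ D := by
    intro u hu v hv
    have := hconj u v hv
    rwa [hinv u hu] at this
  have hK : ∀ x ∈ {x : G | ∃ u ∈ D, ∃ v ∈ D, x = u * v}, ∀ g : G,
      g * x * g⁻¹ ∈ {x : G | ∃ u ∈ D, ∃ v ∈ D, x = u * v} := by
    rintro _ ⟨u, hu, v, hv, rfl⟩ g
    exact ⟨g * u * g⁻¹, hconj g u hu, g * v * g⁻¹, hconj g v hv, by group⟩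
  have hcube : ∀ u ∈ D, ∀ v ∈ D, (u * v) ^ 3 = 1 := by
    intro u hu v hv
    have := cube hsq hbr u v hu hv
    simpa [pow_succ, mul_assoc] using this
  have hpair : ∀ x ∈ {x : G | ∃ u ∈ D, ∃ v ∈ D, x = u * v},
      ∀ y ∈ {x : G | ∃ u ∈ D, ∃ v ∈ D, x = u * v},
      IsPGroup 3 (Subgroup.closure ({x, y} : Set G)) := by
    rintro _ ⟨u, hu, v, hv, rfl⟩ _ ⟨u', hu', v', hv', rfl⟩
    have h4 := card_closure_four_dvd hsq hcj hbr u v u' v' hu hv hu' hv'
    have hle : Subgroup.closure ({u * v, u' * v'} : Set G) ≤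
        Subgroup.closure ({u, v, u', v'} : Set G) := by
      rw [Subgroup.closure_le]
      intro x hx
      rcases hx with rfl | rfl
      · exact mul_mem (Subgroup.subset_closure (by simp)) (Subgroup.subset_closure (by simp))
      · exact mul_mem (Subgroup.subset_closure (by simp)) (Subgroup.subset_closure (by simp))
    have hcard : Nat.card (Subgroup.closure ({u * v, u' * v'} : Set G)) ∣ 118098 :=
      (Subgroup.card_dvd_of_le hle).trans h4
    apply isPGroup_three_of_gen (Subtype.val ⁻¹' ({u * v, u' * v'} : Set G)) _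
      Subgroup.closure_closure_coe_preimage hcard
    rintro ⟨s, hs'⟩ hs
    apply Subtype.ext
    have hs2 : s = u * v ∨ s = u' * v' := hs
    rcases hs2 with rfl | rfl
    · simpa using hcube u hu v hv
    · simpa using hcube u' hu' v' hv'
  exact (Cfsg.Agent.Helper41.mem_sylowCore (u * v)).2 (fun P =>
    Cfsg.Agent.Helper41.baer_suzuki_mem _ hK hpair (u * v) ⟨u, hu, v, hv, rfl⟩ P)

/-- Local form: for a set `W` of involutions closed under conjugation by its members and
satisfying the braid relations, the products of two members of `W` generate a 3-group. -/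
theorem isPGroup_three_closure_mul {G : Type*} [Group G] [Finite G] (W : Set G)
    (hsq : ∀ u ∈ W, u * u = 1) (hcj : ∀ u ∈ W, ∀ v ∈ W, u * v * u ∈ W)
    (hbr : ∀ u ∈ W, ∀ v ∈ W, u * v * u = v * u * v) :
    IsPGroup 3 (Subgroup.closure {x : G | ∃ u ∈ W, ∃ v ∈ W, x = u * v}) := by
  have : Fact (Nat.Prime 3) := ⟨Nat.prime_three⟩
  have hinv : ∀ x ∈ W, x⁻¹ = x := fun x hx => inv_eq_of_mul_eq_one_left (hsq x hx)
  -- conjugation by elements of the subgroup generated by `W` preserves `W`
  have hconjH : ∀ h ∈ Subgroup.closure W, ∀ v ∈ W, h * v * h⁻¹ ∈ W ∧ h⁻¹ * v * h ∈ W := by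
    intro h hh
    induction hh using Subgroup.closure_induction with
    | mem u hu =>
      intro v hv
      rw [hinv u hu]
      exact ⟨hcj u hu v hv, hcj u hu v hv⟩
    | one => intro v hv; simpa using hv
    | mul x y _ _ ihx ihy =>
      intro v hv
      constructor
      · have := (ihx _ (ihy v hv).1).1
        have e : x * (y * v * y⁻¹) * x⁻¹ = x * y * v * (x * y)⁻¹ := by group
        rwa [e] at this
      · have := (ihy _ (ihx v hv).2).2
        have e : y⁻¹ * (x⁻¹ * v * x) * y = (x * y)⁻¹ * v * (x * y) := by group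
        rwa [e] at this
    | inv x _ ih =>
      intro v hv
      constructor
      · have := (ih v hv).2
        rwa [inv_inv]
      · have := (ih v hv).1
        rwa [inv_inv]
  -- work inside the subgroup generated by `W`
  have key : ∀ u ∈ W, ∀ v ∈ W, ∀ (hu' : u ∈ Subgroup.closure W) (hv' : v ∈ Subgroup.closure W),
      (⟨u, hu'⟩ * ⟨v, hv'⟩ : Subgroup.closure W) ∈
        Cfsg.Agent.Helper41.sylowCore 3 (Subgroup.closure W) := by
    intro u hu v hv hu' hv'
    apply mul_mem_sylowCore (D := (Subtype.val ⁻¹' W : Set (Subgroup.closure W)))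
    · intro a ha
      exact Subtype.ext (hsq a.1 ha)
    · intro g a ha
      exact (hconjH g.1 g.2 a.1 ha).1
    · intro a ha b hb
      exact Subtype.ext (hbr a.1 ha b.1 hb)
    · exact hu
    · exact hv
  have hM : IsPGroup 3 ((Cfsg.Agent.Helper41.sylowCore 3 (Subgroup.closure W)).map
      (Subgroup.closure W).subtype) :=
    (Cfsg.Agent.Helper41.sylowCore_isPGroup 3 (Subgroup.closure W)).map _
  apply hM.to_le
  rw [Subgroup.closure_le]
  rintro _ ⟨u, hu, v, hv, rfl⟩
  exact ⟨⟨u, Subgroup.subset_closure hu⟩ * ⟨v, Subgroup.subset_closure hv⟩,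
    key u hu v hv _ _, rfl⟩

end Cfsg.Agent.Helper89
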