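import Cfsg.Agent.Helper89.L34Cert
import Cfsg.Agent.Helper89.Gens3

/-!
# Uniqueness of the covering group `2^2.L3(4)` (helper89)

Let `S` be a group of order `20160` generated by three elements `x, y, u` satisfying the seven
relators of `L34.rels` (so `S ≅ PSL(3, 4)`).  Any two finite perfect groups whose centres are
elementary abelian of order 4 and whose central quotients are isomorphic to `S` are isomorphic.

Proof: the generators lift canonically to elements of odd order (7, 3, 7); the exact relators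
`h^7, k^3, k h k⁻¹ h⁻², t^7` hold for the lifts, the three other relators take central values.
The subgroup of `L₁ × L₂` generated by the pairs of lifts has order at most `80640` by the
labelled coset table of `L34Cert` (960 cosets of a subgroup of order dividing `21 * 4`), and
projects onto both factors.
-/

set_option autoImplicit false

namespace Cfsg.Agent.Helper89.L34

open scoped commutatorElement

/-! ### The Frobenius group of order 21 -/

def tab73 : ℕ := 0x4a2590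
def rels73 : List (List ℕ) := [[2, 2, 2], [2, 0, 3, 1, 1]]

theorem pre73 : CT2.preChk 3 4 (tbl 2 4 tab73) (vec 2 0) (vec 2 0x38) [0, 1] = some 0x48f := by
  decide +kernel

theorem run73 : CT2.runSteps (tbl 2 4 tab73) 4 rels73 0x48f [(0, 0, 1), (0, 1, 1), (1, 1, 1)] =
    some (2 ^ (3 * 4) - 1) := by
  decide +kernel

theorem card_frob {G : Type*} [Group G] [Finite G] (a b c : G) (ha : a ^ 7 = 1) (hb : b ^ 3 = 1)
    (hab : b * a * b⁻¹ = a ^ 2) :
    Nat.card (Subgroup.closure (gens3 a b c '' Set.Iio 4)) ∣ 21 := by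
  have hle : Subgroup.zpowers a ≤ Subgroup.closure (gens3 a b c '' Set.Iio 4) := by
    rw [Subgroup.zpowers_le]
    exact Subgroup.subset_closure ⟨0, by simp, by simp [gens3]⟩
  have h := CT2.card_closure_dvd (gens3 a b c) (gens3_inv a b c) 3 4 (tbl 2 4 tab73) (vec 2 0)
    (vec 2 0x38) [0, 1] rels73 [(0, 0, 1), (0, 1, 1), (1, 1, 1)] 0x48f pre73 run73
    (Subgroup.zpowers a) ?_ hle ?_
  · have h7 : Nat.card (Subgroup.zpowers a) ∣ 7 := by
      rw [Nat.card_zpowers]; exact orderOf_dvd_of_pow_eq_one ha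
    exact h.trans (by
      have := Nat.mul_dvd_mul_left 3 h7
      simpa using this)
  · intro j hj
    simp only [List.mem_cons, List.not_mem_nil, or_false] at hj
    rcases hj with rfl | rfl
    · simp [gens3]
    · simp [gens3]
  · intro ρ hρ
    simp only [rels73, List.mem_cons, List.not_mem_nil, or_false] at hρ
    rcases hρ with rfl | rfl
    · simp only [ev, gens3]
      simp only [OfNat.ofNat_ne_zero, OfNat.ofNat_ne_one, if_false, if_true, mul_one]
      rw [← hb]; simp only [pow_succ, pow_zero, one_mul, mul_assoc]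
    · simp only [ev, gens3]
      norm_num
      have : b * (a * (b⁻¹ * (a⁻¹ * a⁻¹))) = b * a * b⁻¹ * (a ^ 2)⁻¹ := by group
      rw [this, hab, mul_inv_cancel]

/-! ### Canonical lifts of elements of odd order -/

section lift

variable {S L : Type*} [Group S] [Group L]

theorem sq_pow_odd {z : L} (hz : z * z = 1) {n : ℕ} (hn : Odd n) : z ^ n = z := by
  obtain ⟨m, rfl⟩ := hn
  rw [pow_succ, pow_mul, sq, hz, one_pow, one_mul]

theorem odd_lift_unique (he : ∀ z ∈ Subgroup.center L, z * z = 1) (π : L →* S)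
    (hker : ∀ l, π l = 1 → l ∈ Subgroup.center L) {a b : L} {n : ℕ} (hn : Odd n)
    (ha : a ^ n = 1) (hb : b ^ n = 1) (hab : π a = π b) : a = b := by
  have hz : a⁻¹ * b ∈ Subgroup.center L := by
    apply hker
    rw [map_mul, map_inv, hab, inv_mul_cancel]
  have hcomm : Commute a (a⁻¹ * b) := Subgroup.mem_center_iff.1 hz a
  have h1 : (a * (a⁻¹ * b)) ^ n = a ^ n * (a⁻¹ * b) ^ n := hcomm.mul_pow n
  rw [mul_inv_cancel_left, hb, ha, one_mul, sq_pow_odd (he _ hz) hn] at h1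
  exact (inv_mul_eq_one.1 h1.symm)

theorem exists_odd_lift (he : ∀ z ∈ Subgroup.center L, z * z = 1) (π : L →* S)
    (hsurj : Function.Surjective π) (hker : ∀ l, π l = 1 → l ∈ Subgroup.center L) {s : S}
    {n : ℕ} (hn : Odd n) (hs : s ^ n = 1) : ∃ a : L, π a = s ∧ a ^ n = 1 := by
  obtain ⟨x, rfl⟩ := hsurj s
  have hz : x ^ n ∈ Subgroup.center L := by
    apply hker
    rw [map_pow, hs]
  have hcomm : Commute x (x ^ n) := Subgroup.mem_center_iff.1 hz x
  refine ⟨x * x ^ n, ?_, ?_⟩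
  · rw [map_mul, map_pow, hs, mul_one]
  · rw [hcomm.mul_pow, sq_pow_odd (he _ hz) hn]
    exact he _ hz

theorem mem_rels_iff (ρ : List ℕ × ℕ) : ρ ∈ rels ↔
    ρ = ([0, 0, 0, 0, 0, 0, 0], 0) ∨ ρ = ([2, 2, 2], 0) ∨ ρ = ([2, 0, 3, 1, 1], 0) ∨
    ρ = ([4, 4, 4, 4, 4, 4, 4], 0) ∨ ρ = ([0, 0, 4, 4, 0, 0, 4, 4], 1) ∨
    ρ = ([0, 0, 3, 4, 4, 4, 2, 0, 5], 2) ∨ ρ = ([0, 0, 4, 3, 5, 2, 4, 3, 5, 5], 4) := by
  simp [rels]

theorem ev_r0 (a b c : L) : ev (gens3 a b c) [0, 0, 0, 0, 0, 0, 0] = a ^ 7 := by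
  simp [ev, gens3, pow_succ, mul_assoc]

theorem ev_r1 (a b c : L) : ev (gens3 a b c) [2, 2, 2] = b ^ 3 := by
  simp [ev, gens3, pow_succ, mul_assoc]

theorem ev_r2 (a b c : L) : ev (gens3 a b c) [2, 0, 3, 1, 1] = b * a * b⁻¹ * (a ^ 2)⁻¹ := by
  simp only [ev, gens3]
  norm_num
  group

theorem ev_r3 (a b c : L) : ev (gens3 a b c) [4, 4, 4, 4, 4, 4, 4] = c ^ 7 := by
  simp [ev, gens3, pow_succ, mul_assoc]

/-- The canonical lifts of the generators. -/
theorem exists_lift (x y u : S) (hgen : Subgroup.closure {x, y, u} = ⊤)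
    (hrelS : ∀ ρ ∈ rels, ev (gens3 x y u) ρ.1 = 1) (hp : commutator L = ⊤)
    (he : ∀ z ∈ Subgroup.center L, z * z = 1) (π : L →* S) (hsurj : Function.Surjective π)
    (hker : ∀ l, π l = 1 → l ∈ Subgroup.center L) :
    ∃ a b c : L, Subgroup.closure {a, b, c} = ⊤ ∧ a ^ 7 = 1 ∧ b ^ 3 = 1 ∧ c ^ 7 = 1 ∧
      b * a * b⁻¹ = a ^ 2 ∧ ∀ ρ ∈ rels, ev (gens3 a b c) ρ.1 ∈ Subgroup.center L := by
  have hx : x ^ 7 = 1 := by
    rw [← ev_r0 x y u]; exact hrelS ([0, 0, 0, 0, 0, 0, 0], 0) ((mem_rels_iff _).2 (by simp))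
  have hy : y ^ 3 = 1 := by
    rw [← ev_r1 x y u]; exact hrelS ([2, 2, 2], 0) ((mem_rels_iff _).2 (by simp))
  have hu : u ^ 7 = 1 := by
    rw [← ev_r3 x y u]; exact hrelS ([4, 4, 4, 4, 4, 4, 4], 0) ((mem_rels_iff _).2 (by simp))
  have hxy : y * x * y⁻¹ = x ^ 2 := by
    have := hrelS ([2, 0, 3, 1, 1], 0) ((mem_rels_iff _).2 (by simp))
    rw [ev_r2] at this
    exact mul_inv_eq_one.1 this
  obtain ⟨a, ha, ha7⟩ := exists_odd_lift he π hsurj hker (by decide : Odd 7) hx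
  obtain ⟨b, hb, hb3⟩ := exists_odd_lift he π hsurj hker (by decide : Odd 3) hy
  obtain ⟨c, hc, hc7⟩ := exists_odd_lift he π hsurj hker (by decide : Odd 7) hu
  refine ⟨a, b, c, ?_, ha7, hb3, hc7, ?_, ?_⟩
  · -- generation: `L = T₀ * Z` and `L` is perfect
    have hT : ∀ l : L, ∃ t ∈ Subgroup.closure ({a, b, c} : Set L), ∃ z ∈ Subgroup.center L,
        l = t * z := by
      intro l
      have h1 : π l ∈ Subgroup.map π (Subgroup.closure ({a, b, c} : Set L)) := by
        rw [MonoidHom.map_closure]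
        have : (π '' ({a, b, c} : Set L)) = {x, y, u} := by
          simp [Set.image_insert_eq, ha, hb, hc]
        rw [this, hgen]
        trivial
      obtain ⟨t, ht, htl⟩ := h1
      refine ⟨t, ht, t⁻¹ * l, ?_, by group⟩
      apply hker
      rw [map_mul, map_inv, htl, inv_mul_cancel]
    rw [eq_top_iff, ← hp, commutator_eq_closure, Subgroup.closure_le]
    rintro _ ⟨l₁, l₂, rfl⟩
    obtain ⟨t₁, ht₁, z₁, hz₁, rfl⟩ := hT l₁
    obtain ⟨t₂, ht₂, z₂, hz₂, rfl⟩ := hT l₂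
    have c₁ := Subgroup.mem_center_iff.1 hz₁
    have c₂ := Subgroup.mem_center_iff.1 hz₂
    have e : ⁅t₁ * z₁, t₂ * z₂⁆ = ⁅t₁, t₂⁆ := by
      rw [commutatorElement_def, commutatorElement_def]
      have e1 : ∀ w : L, t₁ * z₁ * w * (t₁ * z₁)⁻¹ = t₁ * w * t₁⁻¹ := by
        intro w
        calc t₁ * z₁ * w * (t₁ * z₁)⁻¹ = t₁ * (z₁ * w) * z₁⁻¹ * t₁⁻¹ := by group
          _ = t₁ * (w * z₁) * z₁⁻¹ * t₁⁻¹ := by rw [c₁ w]
          _ = t₁ * w * t₁⁻¹ := by group
      have e2 : ∀ v : L, t₁ * (t₂ * z₂) * v * (t₂ * z₂)⁻¹ = t₁ * t₂ * v * t₂⁻¹ := by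
        intro v
        calc t₁ * (t₂ * z₂) * v * (t₂ * z₂)⁻¹ = t₁ * t₂ * (z₂ * v) * z₂⁻¹ * t₂⁻¹ := by group
          _ = t₁ * t₂ * (v * z₂) * z₂⁻¹ * t₂⁻¹ := by rw [c₂ v]
          _ = t₁ * t₂ * v * t₂⁻¹ := by group
      rw [e1, e2]
    rw [SetLike.mem_coe, e, commutatorElement_def]
    exact Subgroup.mul_mem _ (Subgroup.mul_mem _ (Subgroup.mul_mem _ ht₁ ht₂)
      (Subgroup.inv_mem _ ht₁)) (Subgroup.inv_mem _ ht₂)
  · apply odd_lift_unique he π hker (by decide : Odd 7)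
    · rw [conj_pow, ha7, mul_one, mul_inv_cancel]
    · rw [← pow_mul, mul_comm, pow_mul, ha7, one_pow]
    · rw [map_mul, map_mul, map_inv, map_pow, ha, hb, hxy]
  · intro ρ hρ
    apply hker
    rw [map_ev]
    have : ∀ j, π (gens3 a b c j) = gens3 x y u j := by
      intro j
      rw [map_gens3, ha, hb, hc]
    rw [ev_congr this]
    exact hrelS ρ hρ

end lift

/-! ### The order bound and the isomorphism -/

section main

theorem card_sup_dvd {G : Type*} [Group G] [Finite G] (H N : Subgroup G) [N.Normal] :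
    Nat.card (H ⊔ N : Subgroup G) ∣ Nat.card H * Nat.card N := by
  have e := QuotientGroup.quotientInfEquivProdNormalQuotient H N
  have h1 := Subgroup.card_eq_card_quotient_mul_card_subgroup (N.subgroupOf (H ⊔ N))
  have h2 : Nat.card (N.subgroupOf (H ⊔ N)) = Nat.card N :=
    Nat.card_congr (Subgroup.subgroupOfEquivOfLe le_sup_right).toEquiv
  have h3 : Nat.card (↥(H ⊔ N) ⧸ N.subgroupOf (H ⊔ N)) = Nat.card (↥H ⧸ N.subgroupOf H) :=
    (Nat.card_congr e.toEquiv).symm
  have h4 : Nat.card (↥H ⧸ N.subgroupOf H) ∣ Nat.card H := Subgroup.card_quotient_dvd_card _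
  rw [h1, h2, h3]
  exact Nat.mul_dvd_mul_right h4 _

theorem normal_of_central {G : Type*} [Group G] (N : Subgroup G)
    (h : ∀ n ∈ N, ∀ g : G, g * n = n * g) : N.Normal := by
  refine ⟨fun n hn g => ?_⟩
  rw [h n hn g, mul_inv_cancel_right]
  exact hn

/-- The three relators that are only known modulo the centre. -/
def zz {G : Type*} [Group G] (a b c : G) (i : ℕ) : G :=
  if i = 0 then ev (gens3 a b c) [0, 0, 4, 4, 0, 0, 4, 4]
  else if i = 1 then ev (gens3 a b c) [0, 0, 3, 4, 4, 4, 2, 0, 5]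
  else if i = 2 then ev (gens3 a b c) [0, 0, 4, 3, 5, 2, 4, 3, 5, 5] else 1

/-- The group generated by three elements satisfying the exact relators and, up to central
involutions, the three other relators has order dividing `4 * 20160`. -/
theorem card_lifts_dvd {G : Type*} [Group G] [Finite G] (a b c : G) (ha : a ^ 7 = 1)
    (hb : b ^ 3 = 1) (hc : c ^ 7 = 1) (hab : b * a * b⁻¹ = a ^ 2)
    (hcen : ∀ ρ ∈ rels, ∀ g : G, ev (gens3 a b c) ρ.1 * g = g * ev (gens3 a b c) ρ.1)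
    (hsq : ∀ ρ ∈ rels, ev (gens3 a b c) ρ.1 * ev (gens3 a b c) ρ.1 = 1) :
    Nat.card (Subgroup.closure ({a, b, c} : Set G)) ∣ 80640 := by
  have hinv := gens3_inv a b c
  have hzc : ∀ i x, zz a b c i * x = x * zz a b c i := by
    intro i x
    unfold zz
    split_ifs
    · exact hcen ([0, 0, 4, 4, 0, 0, 4, 4], 1) ((mem_rels_iff _).2 (by simp)) x
    · exact hcen ([0, 0, 3, 4, 4, 4, 2, 0, 5], 2) ((mem_rels_iff _).2 (by simp)) x
    · exact hcen ([0, 0, 4, 3, 5, 2, 4, 3, 5, 5], 4) ((mem_rels_iff _).2 (by simp)) x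
    · simp
  have hzs : ∀ i, zz a b c i * zz a b c i = 1 := by
    intro i
    unfold zz
    split_ifs
    · exact hsq ([0, 0, 4, 4, 0, 0, 4, 4], 1) ((mem_rels_iff _).2 (by simp))
    · exact hsq ([0, 0, 3, 4, 4, 4, 2, 0, 5], 2) ((mem_rels_iff _).2 (by simp))
    · exact hsq ([0, 0, 4, 3, 5, 2, 4, 3, 5, 5], 4) ((mem_rels_iff _).2 (by simp))
    · simp
  have hζ := LT.isLabel_zv (zz a b c) hzc hzs 3
  have hζ1 : LT.zv (zz a b c) 3 1 = zz a b c 0 := by
    simp [LT.zv, Nat.testBit]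
  have hζ2 : LT.zv (zz a b c) 3 2 = zz a b c 1 := by
    simp [LT.zv, Nat.testBit]
  have hζ4 : LT.zv (zz a b c) 3 4 = zz a b c 2 := by
    simp [LT.zv, Nat.testBit]
  have hrel : ∀ ρ ∈ rels, ev (gens3 a b c) ρ.1 = LT.zv (zz a b c) 3 ρ.2 := by
    intro ρ hρ
    rcases (mem_rels_iff ρ).1 hρ with rfl | rfl | rfl | rfl | rfl | rfl | rfl
    · rw [hζ.zero, ev_r0, ha]
    · rw [hζ.zero, ev_r1, hb]
    · rw [hζ.zero, ev_r2, hab, mul_inv_cancel]
    · rw [hζ.zero, ev_r3, hc]
    · rw [hζ1]; simp [zz]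
    · rw [hζ2]; simp [zz]
    · rw [hζ4]; simp [zz]
  have hS : ∀ j ∈ [0, 1, 2, 3], gens3 a b c j ∈ Subgroup.closure (gens3 a b c '' Set.Iio 4) := by
    intro j hj
    refine Subgroup.subset_closure ⟨j, ?_, rfl⟩
    simp only [List.mem_cons, List.not_mem_nil, or_false] at hj
    rcases hj with rfl | rfl | rfl | rfl <;> simp
  have hF := LT.facts (gens3 a b c) (LT.zv (zz a b c) 3) hζ hinv 960 6 (tbl 10 6 tab)
    (tbl 3 6 ltab) (vec 10 par) (vec 3 gam) [0, 1, 2, 3] rels steps E₀ pre_ok run_ok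
    (Subgroup.closure (gens3 a b c '' Set.Iio 4)) hS hrel
  have h21 := card_frob a b c ha hb hab
  -- the first central relator is trivial
  have hz0 : zz a b c 0 = 1 := by
    have hmem := LT.close_mem hζ hF hrel (25, 1) 1 close_ok
    rw [hζ1] at hmem
    have h1 : orderOf (zz a b c 0) ∣ 21 := (Subgroup.orderOf_dvd_natCard _ hmem).trans h21
    have h2 : orderOf (zz a b c 0) ∣ 2 := orderOf_dvd_of_pow_eq_one (by rw [sq]; exact hzs 0)
    have h3 : orderOf (zz a b c 0) ∣ 1 := by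
      have := Nat.dvd_gcd h1 h2
      simpa using this
    exact orderOf_eq_one_iff.1 (Nat.dvd_one.1 h3)
  -- the central subgroup
  have hn1 : (Subgroup.zpowers (zz a b c 2)).Normal :=
    normal_of_central _ (by
      intro n hn g
      obtain ⟨k, rfl⟩ := Subgroup.mem_zpowers_iff.1 hn
      exact ((Commute.zpow_right (hzc 2 g).symm k)).eq)
  have hZn : (Subgroup.zpowers (zz a b c 1) ⊔ Subgroup.zpowers (zz a b c 2)).Normal := by
    apply normal_of_central
    intro n hn g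
    have hle : Subgroup.zpowers (zz a b c 1) ⊔ Subgroup.zpowers (zz a b c 2) ≤
        Subgroup.centralizer {g} := by
      rw [sup_le_iff, Subgroup.zpowers_le, Subgroup.zpowers_le]
      constructor
      · rw [Subgroup.mem_centralizer_iff]
        intro h hh
        rw [Set.mem_singleton_iff] at hh
        rw [hh]; exact (hzc 1 g).symm
      · rw [Subgroup.mem_centralizer_iff]
        intro h hh
        rw [Set.mem_singleton_iff] at hh
        rw [hh]; exact (hzc 2 g).symm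
    have := hle hn
    rw [Subgroup.mem_centralizer_iff] at this
    exact this g rfl
  have hZ4 : Nat.card (Subgroup.zpowers (zz a b c 1) ⊔ Subgroup.zpowers (zz a b c 2) :
      Subgroup G) ∣ 4 := by
    refine (card_sup_dvd _ _).trans ?_
    rw [Nat.card_zpowers, Nat.card_zpowers]
    have h1 : orderOf (zz a b c 1) ∣ 2 := orderOf_dvd_of_pow_eq_one (by rw [sq]; exact hzs 1)
    have h2 : orderOf (zz a b c 2) ∣ 2 := orderOf_dvd_of_pow_eq_one (by rw [sq]; exact hzs 2)
    exact Nat.mul_dvd_mul h1 h2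
  have hζZ : ∀ m, LT.zv (zz a b c) 3 m ∈
      (Subgroup.zpowers (zz a b c 1) ⊔ Subgroup.zpowers (zz a b c 2) : Subgroup G) := by
    intro m
    simp only [LT.zv, one_mul, hz0]
    refine Subgroup.mul_mem _ (Subgroup.mul_mem _ ?_ ?_) ?_
    · split
      · exact Subgroup.one_mem _
      · exact Subgroup.one_mem _
    · split
      · exact (le_sup_left : Subgroup.zpowers (zz a b c 1) ≤ _) (Subgroup.mem_zpowers _)
      · exact Subgroup.one_mem _
    · split
      · exact (le_sup_right : Subgroup.zpowers (zz a b c 2) ≤ _) (Subgroup.mem_zpowers _)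
      · exact Subgroup.one_mem _
  -- everything lies in the group generated by the six symbols
  have hgK : ∀ j, gens3 a b c j ∈ Subgroup.closure (gens3 a b c '' Set.Iio 6) := by
    intro j
    rw [closure_gens3]
    exact gens3_mem _ (Subgroup.subset_closure (by simp)) (Subgroup.subset_closure (by simp))
      (Subgroup.subset_closure (by simp)) j
  have hHK : Subgroup.closure (gens3 a b c '' Set.Iio 4) ≤
      Subgroup.closure (gens3 a b c '' Set.Iio 6) := by
    apply Subgroup.closure_mono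
    apply Set.image_mono
    intro j hj
    simp only [Set.mem_Iio] at hj ⊢
    omega
  have hZK : (Subgroup.zpowers (zz a b c 1) ⊔ Subgroup.zpowers (zz a b c 2) : Subgroup G) ≤
      Subgroup.closure (gens3 a b c '' Set.Iio 6) := by
    rw [sup_le_iff, Subgroup.zpowers_le, Subgroup.zpowers_le]
    constructor
    · simp only [zz]; norm_num; exact ev_mem _ _ hgK _
    · simp only [zz]; norm_num; exact ev_mem _ _ hgK _
  have hdvd := LT.card_dvd hinv hF
    (Subgroup.closure (gens3 a b c '' Set.Iio 4) ⊔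
      (Subgroup.zpowers (zz a b c 1) ⊔ Subgroup.zpowers (zz a b c 2)))
    le_sup_left (fun m => Subgroup.mem_sup_right (hζZ m)) (sup_le hHK hZK)
  rw [closure_gens3] at hdvd
  refine hdvd.trans ?_
  have h84 : Nat.card (Subgroup.closure (gens3 a b c '' Set.Iio 4) ⊔
      (Subgroup.zpowers (zz a b c 1) ⊔ Subgroup.zpowers (zz a b c 2)) : Subgroup G) ∣ 21 * 4 :=
    (card_sup_dvd _ _).trans (Nat.mul_dvd_mul h21 hZ4)
  have := Nat.mul_dvd_mul_left 960 h84
  simpa using this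

theorem proj_facts {S L : Type*} [Group S] [Group L] (e : L ⧸ Subgroup.center L ≃* S) :
    Function.Surjective (e.toMonoidHom.comp (QuotientGroup.mk' (Subgroup.center L))) ∧
      ∀ l, (e.toMonoidHom.comp (QuotientGroup.mk' (Subgroup.center L))) l = 1 →
        l ∈ Subgroup.center L := by
  refine ⟨e.surjective.comp (QuotientGroup.mk'_surjective _), ?_⟩
  intro l hl
  have : e (QuotientGroup.mk l) = 1 := hl
  rw [MulEquiv.map_eq_one_iff] at this
  exact (QuotientGroup.eq_one_iff l).1 this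

theorem card_cover {S L : Type*} [Group S] [Group L] [Finite L] (hS : Nat.card S = 20160)
    (e : L ⧸ Subgroup.center L ≃* S) (h4 : Nat.card (Subgroup.center L) = 4) :
    Nat.card L = 80640 := by
  rw [Subgroup.card_eq_card_quotient_mul_card_subgroup (Subgroup.center L), h4,
    Nat.card_congr e.toEquiv, hS]

variable {S L₁ L₂ : Type*} [Group S] [Group L₁] [Group L₂] [Finite L₁] [Finite L₂]

/-- Uniqueness of the perfect central extension of `S` by an elementary abelian group of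
order 4, for a group `S` of order `20160` generated by three elements satisfying `rels`. -/
theorem cover_unique (x y u : S) (hgen : Subgroup.closure {x, y, u} = ⊤)
    (hS : Nat.card S = 20160) (hrelS : ∀ ρ ∈ rels, ev (gens3 x y u) ρ.1 = 1)
    (hp₁ : commutator L₁ = ⊤) (hp₂ : commutator L₂ = ⊤)
    (hc₁ : Nat.card (Subgroup.center L₁) = 4) (hc₂ : Nat.card (Subgroup.center L₂) = 4)
    (he₁ : ∀ z ∈ Subgroup.center L₁, z * z = 1) (he₂ : ∀ z ∈ Subgroup.center L₂, z * z = 1)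
    (e₁ : L₁ ⧸ Subgroup.center L₁ ≃* S) (e₂ : L₂ ⧸ Subgroup.center L₂ ≃* S) :
    Nonempty (L₁ ≃* L₂) := by
  obtain ⟨a₁, b₁, c₁, hg₁, ha₁, hb₁, hc₁', hab₁, hz₁⟩ :=
    exists_lift x y u hgen hrelS hp₁ he₁ _ (proj_facts e₁).1 (proj_facts e₁).2
  obtain ⟨a₂, b₂, c₂, hg₂, ha₂, hb₂, hc₂', hab₂, hz₂⟩ :=
    exists_lift x y u hgen hrelS hp₂ he₂ _ (proj_facts e₂).1 (proj_facts e₂).2
  have hev : ∀ w : List ℕ, ev (gens3 (a₁, a₂) (b₁, b₂) (c₁, c₂)) w =
      (ev (gens3 a₁ b₁ c₁) w, ev (gens3 a₂ b₂ c₂) w) := by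
    intro w
    rw [← ev_prod]
    exact ev_congr (gens3_prod a₁ b₁ c₁ a₂ b₂ c₂) w
  have hcard : Nat.card (Subgroup.closure ({(a₁, a₂), (b₁, b₂), (c₁, c₂)} : Set (L₁ × L₂))) ∣
      80640 := by
    apply card_lifts_dvd
    · rw [Prod.pow_mk, ha₁, ha₂]; rfl
    · rw [Prod.pow_mk, hb₁, hb₂]; rfl
    · rw [Prod.pow_mk, hc₁', hc₂']; rfl
    · rw [Prod.inv_mk, Prod.mk_mul_mk, Prod.mk_mul_mk, Prod.pow_mk, hab₁, hab₂]
    · intro ρ hρ g
      rw [hev]
      apply Prod.ext
      · exact (Subgroup.mem_center_iff.1 (hz₁ ρ hρ) g.1).symm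
      · exact (Subgroup.mem_center_iff.1 (hz₂ ρ hρ) g.2).symm
    · intro ρ hρ
      rw [hev, Prod.mk_mul_mk, he₁ _ (hz₁ ρ hρ), he₂ _ (hz₂ ρ hρ)]
      rfl
  have hle : Nat.card (Subgroup.closure ({(a₁, a₂), (b₁, b₂), (c₁, c₂)} : Set (L₁ × L₂))) ≤
      80640 := Nat.le_of_dvd (by norm_num) hcard
  -- the two projections
  have hs₁ : Function.Surjective ((MonoidHom.fst L₁ L₂).comp
      (Subgroup.closure ({(a₁, a₂), (b₁, b₂), (c₁, c₂)} : Set (L₁ × L₂))).subtype) := by
    intro l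
    have h1 : l ∈ Subgroup.map (MonoidHom.fst L₁ L₂)
        (Subgroup.closure ({(a₁, a₂), (b₁, b₂), (c₁, c₂)} : Set (L₁ × L₂))) := by
      rw [MonoidHom.map_closure]
      have : (MonoidHom.fst L₁ L₂) '' ({(a₁, a₂), (b₁, b₂), (c₁, c₂)} : Set (L₁ × L₂)) =
          {a₁, b₁, c₁} := by
        simp [Set.image_insert_eq]
      rw [this, hg₁]
      trivial
    obtain ⟨t, ht, htl⟩ := h1
    exact ⟨⟨t, ht⟩, htl⟩
  have hs₂ : Function.Surjective ((MonoidHom.snd L₁ L₂).comp
      (Subgroup.closure ({(a₁, a₂), (b₁, b₂), (c₁, c₂)} : Set (L₁ × L₂))).subtype) := by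
    intro l
    have h1 : l ∈ Subgroup.map (MonoidHom.snd L₁ L₂)
        (Subgroup.closure ({(a₁, a₂), (b₁, b₂), (c₁, c₂)} : Set (L₁ × L₂))) := by
      rw [MonoidHom.map_closure]
      have : (MonoidHom.snd L₁ L₂) '' ({(a₁, a₂), (b₁, b₂), (c₁, c₂)} : Set (L₁ × L₂)) =
          {a₂, b₂, c₂} := by
        simp [Set.image_insert_eq]
      rw [this, hg₂]
      trivial
    obtain ⟨t, ht, htl⟩ := h1
    exact ⟨⟨t, ht⟩, htl⟩
  have hb₁' := hs₁.bijective_of_nat_card_le (by rw [card_cover hS e₁ hc₁]; exact hle)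
  have hb₂' := hs₂.bijective_of_nat_card_le (by rw [card_cover hS e₂ hc₂]; exact hle)
  exact ⟨(MulEquiv.ofBijective _ hb₁').symm.trans (MulEquiv.ofBijective _ hb₂')⟩

end main

end Cfsg.Agent.Helper89.L34
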