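import Mathlib
import Cfsg.Prelude.Def_KGroupFacts

/-!
# Stem extensions: generic tools for trivial Schur multipliers (helper89)

* `Stem.mem_commutator_sylow`: transfer into a Sylow subgroup (central elements of the derived
  subgroup lying in a Sylow subgroup `P` lie in `P'`).
* `Stem.not_dvd_card_ker_of_sq`: primes whose square does not divide `|G|` do not divide the
  kernel of a stem extension of `G`.
* `Stem.not_dvd_card_ker_of_rank_two`: the same for an odd prime with elementary abelian Sylow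
  subgroup of rank two containing a generator inverted by an element centralising the other.
* `Stem.two_not_dvd_card_ker`: reduction of the 2-part to kernels of exponent 2.
* `Stem.hasCyclicSchurMultiplier_one`: packaging.
-/

set_option autoImplicit false

namespace Cfsg.Agent.Helper89.Stem

open Subgroup

universe u v

/-- Transfer: a central element of the commutator subgroup lying in a Sylow subgroup `P`
lies in the commutator subgroup of `P`. -/
theorem mem_commutator_sylow {Γ : Type*} [Group Γ] [Finite Γ] {p : ℕ} [Fact p.Prime]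
    (P : Sylow p Γ) {z : Γ} (hzc : z ∈ center Γ) (hzd : z ∈ commutator Γ)
    (hzP : z ∈ (P : Subgroup Γ)) :
    (⟨z, hzP⟩ : (P : Subgroup Γ)) ∈ commutator (P : Subgroup Γ) := by
  have key : ∀ (k : ℕ) (g₀ : Γ), g₀⁻¹ * z ^ k * g₀ ∈ (P : Subgroup Γ) →
      g₀⁻¹ * z ^ k * g₀ = z ^ k := by
    intro k g₀ _
    have hc : z ^ k ∈ center Γ := Subgroup.pow_mem _ hzc k
    rw [mul_assoc, ← Subgroup.mem_center_iff.1 hc g₀, inv_mul_cancel_left]
  have h1 := MonoidHom.transfer_eq_pow
    (Abelianization.of : (P : Subgroup Γ) →* Abelianization (P : Subgroup Γ)) z key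
  have h2 : MonoidHom.transfer
      (Abelianization.of : (P : Subgroup Γ) →* Abelianization (P : Subgroup Γ)) z = 1 :=
    (Abelianization.commutator_subset_ker _) hzd
  rw [h2] at h1
  have h3 : (⟨z ^ (P : Subgroup Γ).index, MonoidHom.transfer_eq_pow_aux z key⟩ :
      (P : Subgroup Γ)) ∈ commutator (P : Subgroup Γ) := by
    rw [← Abelianization.ker_of, MonoidHom.mem_ker]
    exact h1.symm
  -- `z` is a power of `z ^ index`
  have hcop : ((P : Subgroup Γ).index).Coprime (orderOf z) := by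
    obtain ⟨k, hk⟩ := P.isPGroup' (⟨z, hzP⟩ : (P : Subgroup Γ))
    have hk' : z ^ p ^ k = 1 := by
      have := congrArg Subtype.val hk
      simpa using this
    have h5 : orderOf z ∣ p ^ k := orderOf_dvd_of_pow_eq_one hk'
    have h6 : ((P : Subgroup Γ).index).Coprime (p ^ k) :=
      Nat.Prime.coprime_pow_of_not_dvd (Fact.out : p.Prime) P.not_dvd_index
    exact h6.coprime_dvd_right h5
  obtain ⟨m, hm⟩ := exists_pow_eq_self_of_coprime hcop
  have h4 : (⟨z, hzP⟩ : (P : Subgroup Γ)) =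
      (⟨z ^ (P : Subgroup Γ).index, MonoidHom.transfer_eq_pow_aux z key⟩ : (P : Subgroup Γ)) ^ m :=
    Subtype.ext hm.symm
  rw [h4]
  exact Subgroup.pow_mem _ h3 m

/-- If the commutator subgroup of every Sylow `p`-subgroup meets the (central, derived) kernel
trivially, then `p` does not divide the order of the kernel. -/
theorem not_dvd_card_ker {Γ G : Type*} [Group Γ] [Finite Γ] [Group G] (σ : Γ →* G)
    (hc : σ.ker ≤ center Γ) (hd : σ.ker ≤ commutator Γ) (p : ℕ) [Fact p.Prime]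
    (h : ∀ P : Sylow p Γ, ∀ z : (P : Subgroup Γ), z ∈ commutator (P : Subgroup Γ) →
      σ (z : Γ) = 1 → z = 1) :
    ¬ p ∣ Nat.card σ.ker := by
  intro hdvd
  obtain ⟨z, hz⟩ := exists_prime_orderOf_dvd_card' p hdvd
  have hzo : orderOf (z : Γ) = p := by rw [Subgroup.orderOf_coe]; exact hz
  have hpg : IsPGroup p (zpowers (z : Γ)) :=
    IsPGroup.of_card (n := 1) (by rw [Nat.card_zpowers, hzo, pow_one])
  obtain ⟨Q, hQ⟩ := hpg.exists_le_sylow
  have hzQ : (z : Γ) ∈ (Q : Subgroup Γ) := hQ (mem_zpowers _)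
  have h0 := mem_commutator_sylow Q (hc z.2) (hd z.2) hzQ
  have h1 := h Q ⟨z, hzQ⟩ h0 (MonoidHom.mem_ker.1 z.2)
  have h2 : (z : Γ) = 1 := congrArg Subtype.val h1
  rw [h2, orderOf_one] at hzo
  exact (Fact.out : p.Prime).one_lt.ne hzo

theorem not_dvd_card_ker_of_comm {Γ G : Type*} [Group Γ] [Finite Γ] [Group G] (σ : Γ →* G)
    (hc : σ.ker ≤ center Γ) (hd : σ.ker ≤ commutator Γ) (p : ℕ) [Fact p.Prime]
    (h : ∀ P : Sylow p Γ, ∀ x ∈ (P : Subgroup Γ), ∀ y ∈ (P : Subgroup Γ), x * y = y * x) :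
    ¬ p ∣ Nat.card σ.ker := by
  apply not_dvd_card_ker σ hc hd p
  intro P z hz _
  have hbot : commutator (P : Subgroup Γ) = ⊥ := by
    rw [commutator_eq_bot_iff_center_eq_top, eq_top_iff]
    intro x _
    rw [Subgroup.mem_center_iff]
    intro g
    exact Subtype.ext (h P g g.2 x x.2)
  rw [hbot] at hz
  exact (Subgroup.mem_bot.1 hz)

/-- A prime whose square does not divide the order of `G` does not divide the order of the
kernel of a stem extension of `G`. -/
theorem not_dvd_card_ker_of_sq {Γ G : Type*} [Group Γ] [Finite Γ] [Group G] [Finite G]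
    (σ : Γ →* G) (hc : σ.ker ≤ center Γ) (hd : σ.ker ≤ commutator Γ) (p : ℕ) [Fact p.Prime]
    (hG : ¬ p ^ 2 ∣ Nat.card G) : ¬ p ∣ Nat.card σ.ker := by
  apply not_dvd_card_ker_of_comm σ hc hd p
  intro P x hx y hy
  let f : (P : Subgroup Γ) →* (σ.comp (P : Subgroup Γ).subtype).range :=
    (σ.comp (P : Subgroup Γ).subtype).rangeRestrict
  have hpg : IsPGroup p (σ.comp (P : Subgroup Γ).subtype).range :=
    P.isPGroup'.of_surjective f (MonoidHom.rangeRestrict_surjective _)
  obtain ⟨n, hn⟩ := IsPGroup.iff_card.1 hpg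
  have hdvd : p ^ n ∣ Nat.card G := hn ▸ Subgroup.card_subgroup_dvd_card _
  have hn1 : n ≤ 1 := by
    by_contra hcon
    exact hG ((pow_dvd_pow p (by omega : 2 ≤ n)).trans hdvd)
  have hcyc : IsCyclic (σ.comp (P : Subgroup Γ).subtype).range := by
    interval_cases n
    · rw [pow_zero] at hn
      have : Subsingleton (σ.comp (P : Subgroup Γ).subtype).range :=
        (Nat.card_eq_one_iff_unique.1 hn).1
      exact isCyclic_of_subsingleton
    · rw [pow_one] at hn
      exact isCyclic_of_prime_card hn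
  have hker : f.ker ≤ center (P : Subgroup Γ) := by
    intro w hw
    have h1 : σ (w : Γ) = 1 := by
      have := congrArg Subtype.val (MonoidHom.mem_ker.1 hw)
      simpa [f] using this
    have h2 : (w : Γ) ∈ center Γ := hc (MonoidHom.mem_ker.2 h1)
    rw [Subgroup.mem_center_iff]
    intro g
    exact Subtype.ext (Subgroup.mem_center_iff.1 h2 g)
  have := (MonoidHom.isMulCommutative_of_isCyclic_of_ker_le_center f hker).is_comm.comm ⟨x, hx⟩ ⟨y, hy⟩
  exact congrArg Subtype.val this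

theorem closure_comm {G : Type*} [Group G] {S : Set G} (h : ∀ x ∈ S, ∀ y ∈ S, x * y = y * x) :
    ∀ x ∈ closure S, ∀ y ∈ closure S, x * y = y * x := by
  have h1 : closure S ≤ centralizer S :=
    (closure_le _).2 (fun x hx => mem_centralizer_iff.2 (fun y hy => h y hy x hx))
  have h2 : closure S ≤ centralizer (closure S : Set G) :=
    (closure_le _).2 (fun x hx => mem_centralizer_iff.2
      (fun y hy => (mem_centralizer_iff.1 (h1 hy) x hx).symm))
  intro x hx y hy
  exact mem_centralizer_iff.1 (h2 hy) x hx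

/-- Commutators are unchanged by central factors. -/
theorem comm_central_mul {Γ : Type*} [Group Γ] {x y k₁ k₂ : Γ} (h₁ : ∀ g, k₁ * g = g * k₁)
    (h₂ : ∀ g, k₂ * g = g * k₂) :
    (x * k₁) * (y * k₂) * (x * k₁)⁻¹ * (y * k₂)⁻¹ = x * y * x⁻¹ * y⁻¹ := by
  have e1 : (x * k₁) * (y * k₂) = x * y * (k₁ * k₂) := by
    rw [mul_assoc x k₁, ← mul_assoc k₁ y, h₁ y]; group
  have e2 : (x * k₁)⁻¹ * (y * k₂)⁻¹ = (k₁ * k₂)⁻¹ * (x⁻¹ * y⁻¹) := by
    have : (y * k₂) * (x * k₁) = y * x * (k₁ * k₂) := by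
      rw [mul_assoc y k₂, ← mul_assoc k₂ x, h₂ x, ← h₂ k₁]; group
    rw [← mul_inv_rev, this]; group
  rw [mul_assoc, mul_assoc, e2, ← mul_assoc, e1]
  group

/-- Lifts of commuting elements of odd prime order `p`, one inverted and the other centralised
by a further element, commute. -/
theorem lift_comm {Γ G : Type*} [Group Γ] [Group G] (σ : Γ →* G) (hc : σ.ker ≤ center Γ)
    {p : ℕ} (hp : Odd p) {a b t : G} (ha : a ^ p = 1) (hab : a * b = b * a)
    (hta : t * a * t⁻¹ = a⁻¹) (htb : t * b * t⁻¹ = b) {a' b' t' : Γ} (hA : σ a' = a)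
    (hB : σ b' = b) (hT : σ t' = t) : a' * b' = b' * a' := by
  have cen : ∀ {k : Γ}, σ k = 1 → ∀ g, k * g = g * k := fun hk g =>
    (Subgroup.mem_center_iff.1 (hc (MonoidHom.mem_ker.2 hk)) g).symm
  set w := a' * b' * a'⁻¹ * b'⁻¹ with hw
  have hwK : σ w = 1 := by
    rw [hw, map_mul, map_mul, map_mul, map_inv, map_inv, hA, hB, hab]; group
  have hwc := cen hwK
  have hwn : ∀ (n : ℕ) (g : Γ), w ^ n * g = g * w ^ n := fun n g =>
    ((Commute.pow_left (show Commute w g from hwc g) n)).eq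
  -- (i) `w ^ p = 1`
  have hwb : a' * b' * a'⁻¹ = w * b' := by rw [hw]; group
  have key : ∀ n : ℕ, a' ^ n * b' * (a' ^ n)⁻¹ = w ^ n * b' := by
    intro n
    induction n with
    | zero => simp
    | succ n ih =>
      calc a' ^ (n + 1) * b' * (a' ^ (n + 1))⁻¹
          = a' * (a' ^ n * b' * (a' ^ n)⁻¹) * a'⁻¹ := by rw [pow_succ']; group
        _ = a' * (w ^ n * b') * a'⁻¹ := by rw [ih]
        _ = w ^ n * (a' * b' * a'⁻¹) := by rw [← mul_assoc a', ← hwn n a']; group
        _ = w ^ (n + 1) * b' := by rw [hwb, ← mul_assoc, ← pow_succ]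
  have hap : σ (a' ^ p) = 1 := by rw [map_pow, hA, ha]
  have hwp : w ^ p = 1 := by
    have h1 := key p
    rw [cen hap b', mul_inv_cancel_right] at h1
    exact (mul_eq_right.1 h1.symm)
  -- (ii) `w * w = 1`
  have hk₁ : σ (a' * (t' * a' * t'⁻¹)) = 1 := by
    rw [map_mul, map_mul, map_mul, map_inv, hA, hT, hta, mul_inv_cancel]
  have hk₂ : σ (b'⁻¹ * (t' * b' * t'⁻¹)) = 1 := by
    rw [map_mul, map_mul, map_mul, map_inv, map_inv, hB, hT, htb, inv_mul_cancel]
  have e1 : t' * a' * t'⁻¹ = a'⁻¹ * (a' * (t' * a' * t'⁻¹)) := by group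
  have e2 : t' * b' * t'⁻¹ = b' * (b'⁻¹ * (t' * b' * t'⁻¹)) := by group
  have h3 : t' * w * t'⁻¹ = (t' * a' * t'⁻¹) * (t' * b' * t'⁻¹) * (t' * a' * t'⁻¹)⁻¹ *
      (t' * b' * t'⁻¹)⁻¹ := by rw [hw]; group
  have h4 : t' * w * t'⁻¹ = w := by rw [← hwc t', mul_inv_cancel_right]
  have h5 : a'⁻¹ * b' * a'⁻¹⁻¹ * b'⁻¹ = w⁻¹ := by
    have : a'⁻¹ * w⁻¹ * a' = a'⁻¹ * b' * a'⁻¹⁻¹ * b'⁻¹ := by rw [hw]; group
    rw [← this]
    have hc' : w⁻¹ * a' = a' * w⁻¹ := by
      rw [eq_mul_inv_iff_mul_eq, mul_assoc, ← hwc a', inv_mul_cancel_left]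
    rw [mul_assoc, hc', inv_mul_cancel_left]
  have hww : w * w = 1 := by
    rw [e1, e2, comm_central_mul (cen hk₁) (cen hk₂), h5] at h3
    rw [h4] at h3
    nth_rewrite 2 [h3]
    exact mul_inv_cancel w
  -- (iii)
  have h1 : orderOf w ∣ p := orderOf_dvd_of_pow_eq_one hwp
  have h2 : orderOf w ∣ 2 := orderOf_dvd_of_pow_eq_one (by rw [sq]; exact hww)
  have h6 : orderOf w ∣ 1 := by
    have := Nat.dvd_gcd h1 h2
    rwa [Nat.Coprime.gcd_eq_one (Nat.Coprime.symm (Nat.coprime_two_left.2 hp))] at this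
  have hw1 : w = 1 := orderOf_eq_one_iff.1 (Nat.dvd_one.1 h6)
  rw [hw] at hw1
  calc a' * b' = a' * b' * a'⁻¹ * b'⁻¹ * (b' * a') := by group
    _ = b' * a' := by rw [hw1, one_mul]

/-- A subgroup whose image lies in the group generated by `a, b` is commutative. -/
theorem comm_of_map_le {Γ G : Type*} [Group Γ] [Group G] (σ : Γ →* G)
    (hσ : Function.Surjective σ) (hc : σ.ker ≤ center Γ)
    {p : ℕ} (hp : Odd p) {a b t : G} (ha : a ^ p = 1) (hab : a * b = b * a)
    (hta : t * a * t⁻¹ = a⁻¹) (htb : t * b * t⁻¹ = b) (P : Subgroup Γ)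
    (hP : P.map σ ≤ closure {a, b}) : ∀ x ∈ P, ∀ y ∈ P, x * y = y * x := by
  obtain ⟨a', hA⟩ := hσ a
  obtain ⟨b', hB⟩ := hσ b
  obtain ⟨t', hT⟩ := hσ t
  have hab' := lift_comm σ hc hp ha hab hta htb hA hB hT
  have hcl : ∀ x ∈ closure ({a', b'} : Set Γ), ∀ y ∈ closure ({a', b'} : Set Γ),
      x * y = y * x := by
    apply closure_comm
    intro x hx y hy
    simp only [Set.mem_insert_iff, Set.mem_singleton_iff] at hx hy
    rcases hx with rfl | rfl <;> rcases hy with rfl | rfl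
    · rfl
    · exact hab'
    · exact hab'.symm
    · rfl
  have hdec : ∀ x ∈ P, ∃ y ∈ closure ({a', b'} : Set Γ), ∃ k : Γ, σ k = 1 ∧ x = y * k := by
    intro x hx
    have h1 : σ x ∈ (closure ({a', b'} : Set Γ)).map σ := by
      rw [MonoidHom.map_closure, Set.image_pair, hA, hB]
      exact hP (Subgroup.mem_map_of_mem σ hx)
    obtain ⟨y, hy, hyx⟩ := h1
    refine ⟨y, hy, y⁻¹ * x, ?_, by group⟩
    rw [map_mul, map_inv, hyx, inv_mul_cancel]
  have cen : ∀ {k : Γ}, σ k = 1 → ∀ g, k * g = g * k := fun hk g =>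
    (Subgroup.mem_center_iff.1 (hc (MonoidHom.mem_ker.2 hk)) g).symm
  intro x hx y hy
  obtain ⟨x₁, hx₁, k₁, hk₁, rfl⟩ := hdec x hx
  obtain ⟨y₁, hy₁, k₂, hk₂, rfl⟩ := hdec y hy
  have c := hcl x₁ hx₁ y₁ hy₁
  calc x₁ * k₁ * (y₁ * k₂) = x₁ * (k₁ * y₁) * k₂ := by group
    _ = x₁ * (y₁ * k₁) * k₂ := by rw [cen hk₁ y₁]
    _ = (x₁ * y₁) * (k₁ * k₂) := by group
    _ = (y₁ * x₁) * (k₂ * k₁) := by rw [c, cen hk₁ k₂]
    _ = y₁ * (x₁ * k₂) * k₁ := by group
    _ = y₁ * (k₂ * x₁) * k₁ := by rw [cen hk₂ x₁]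
    _ = y₁ * k₂ * (x₁ * k₁) := by group

/-- Sylow `p`-subgroup of `G` elementary abelian of rank two (`p` odd), with an element
inverting one generator and centralising the other: `p` does not divide the order of the kernel
of a stem extension of `G`. -/
theorem not_dvd_card_ker_of_rank_two {Γ G : Type*} [Group Γ] [Finite Γ] [Group G] [Finite G]
    (σ : Γ →* G) (hσ : Function.Surjective σ) (hc : σ.ker ≤ center Γ)
    (hd : σ.ker ≤ commutator Γ) (p : ℕ) [Fact p.Prime] (hp : Odd p) (a b t : G)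
    (ha : a ^ p = 1) (hb : b ^ p = 1) (ha1 : a ≠ 1) (hba : b ∉ zpowers a)
    (hab : a * b = b * a) (hta : t * a * t⁻¹ = a⁻¹) (htb : t * b * t⁻¹ = b)
    (hG : ¬ p ^ 3 ∣ Nat.card G) : ¬ p ∣ Nat.card σ.ker := by
  have hpp : p.Prime := Fact.out
  apply not_dvd_card_ker_of_comm σ hc hd p
  intro P
  -- the subgroup generated by `a, b` is a Sylow subgroup
  have hcl : ∀ x ∈ closure ({a, b} : Set G), ∀ y ∈ closure ({a, b} : Set G), x * y = y * x := by
    apply closure_comm
    intro x hx y hy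
    simp only [Set.mem_insert_iff, Set.mem_singleton_iff] at hx hy
    rcases hx with rfl | rfl <;> rcases hy with rfl | rfl
    · rfl
    · exact hab
    · exact hab.symm
    · rfl
  have hexp : ∀ x ∈ closure ({a, b} : Set G), x ^ p = 1 := by
    intro x hx
    induction hx using Subgroup.closure_induction with
    | mem x hx =>
      simp only [Set.mem_insert_iff, Set.mem_singleton_iff] at hx
      rcases hx with rfl | rfl
      · exact ha
      · exact hb
    | one => exact one_pow p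
    | mul x y hx hy ihx ihy =>
      rw [(show Commute x y from hcl x hx y hy).mul_pow, ihx, ihy, one_mul]
    | inv x hx ih => rw [inv_pow, ih, inv_one]
  have hpg : IsPGroup p (closure ({a, b} : Set G)) := by
    intro g
    refine ⟨1, ?_⟩
    rw [pow_one]
    exact Subtype.ext (hexp g g.2)
  obtain ⟨k, hk⟩ := IsPGroup.iff_card.1 hpg
  have hza : Nat.card (zpowers a) = p := by
    rw [Nat.card_zpowers]
    have h1 : orderOf a ∣ p := orderOf_dvd_of_pow_eq_one ha
    rcases (Nat.dvd_prime hpp).1 h1 with h | h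
    · exact absurd (orderOf_eq_one_iff.1 h) ha1
    · exact h
  have hle : zpowers a ≤ closure ({a, b} : Set G) := by
    rw [zpowers_le]; exact subset_closure (by simp)
  have hk2 : 2 ≤ k := by
    by_contra hcon
    have h1 : Nat.card (closure ({a, b} : Set G)) ≤ Nat.card (zpowers a) := by
      rw [hk, hza]
      have : k ≤ 1 := by omega
      calc p ^ k ≤ p ^ 1 := Nat.pow_le_pow_right hpp.pos this
        _ = p := pow_one p
    have h2 := Subgroup.eq_of_le_of_card_ge hle h1
    exact hba (h2 ▸ subset_closure (by simp))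
  obtain ⟨Q₀, hQ₀⟩ := hpg.exists_le_sylow
  obtain ⟨m, hm⟩ := IsPGroup.iff_card.1 Q₀.isPGroup'
  have hm2 : m ≤ 2 := by
    by_contra hcon
    have h1 : p ^ m ∣ Nat.card G := hm ▸ Subgroup.card_subgroup_dvd_card _
    exact hG ((pow_dvd_pow p (by omega : 3 ≤ m)).trans h1)
  have hQeq : closure ({a, b} : Set G) = (Q₀ : Subgroup G) := by
    apply Subgroup.eq_of_le_of_card_ge hQ₀
    rw [hk, hm]
    exact Nat.pow_le_pow_right hpp.pos (by omega)
  -- the image of `P` lies in a conjugate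
  have hpgP : IsPGroup p ((P : Subgroup Γ).map σ) := P.isPGroup'.map σ
  obtain ⟨Q, hQ⟩ := hpgP.exists_le_sylow
  obtain ⟨g, hg⟩ := MulAction.exists_smul_eq G Q₀ Q
  have hmap : (P : Subgroup Γ).map σ ≤ closure {g * a * g⁻¹, g * b * g⁻¹} := by
    intro y hy
    have h1 : y ∈ (Q : Subgroup G) := hQ hy
    rw [← hg, Sylow.coe_subgroup_smul, Subgroup.mem_pointwise_smul_iff_inv_smul_mem,
      ← hQeq] at h1
    have h2 : (MulAut.conj g).toMonoidHom ((MulAut.conj g)⁻¹ • y) ∈
        (closure ({a, b} : Set G)).map (MulAut.conj g).toMonoidHom :=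
      Subgroup.mem_map_of_mem _ h1
    rw [MonoidHom.map_closure, Set.image_pair] at h2
    have e : g * (g⁻¹ * y * g) * g⁻¹ = y := by group
    have h3 : g * (g⁻¹ * y * g) * g⁻¹ ∈ closure {g * a * g⁻¹, g * b * g⁻¹} := by
      simpa [MulAut.smul_def] using h2
    rwa [e] at h3
  apply comm_of_map_le σ hσ hc hp (a := g * a * g⁻¹) (b := g * b * g⁻¹) (t := g * t * g⁻¹)
    (by rw [conj_pow, ha, mul_one, mul_inv_cancel])
    (by
      calc g * a * g⁻¹ * (g * b * g⁻¹) = g * (a * b) * g⁻¹ := by group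
        _ = g * (b * a) * g⁻¹ := by rw [hab]
        _ = g * b * g⁻¹ * (g * a * g⁻¹) := by group)
    (by
      calc g * t * g⁻¹ * (g * a * g⁻¹) * (g * t * g⁻¹)⁻¹ = g * (t * a * t⁻¹) * g⁻¹ := by group
        _ = (g * a * g⁻¹)⁻¹ := by rw [hta]; group)
    (by
      calc g * t * g⁻¹ * (g * b * g⁻¹) * (g * t * g⁻¹)⁻¹ = g * (t * b * t⁻¹) * g⁻¹ := by group
        _ = g * b * g⁻¹ := by rw [htb])
    (P : Subgroup Γ) hmap

/-- Reduction of the 2-part to central extensions with kernel of exponent 2. -/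
theorem two_not_dvd_card_ker {Γ : Type u} {G : Type v} [Group Γ] [Finite Γ] [Group G]
    (σ : Γ →* G) (hσ : Function.Surjective σ) (hc : σ.ker ≤ center Γ)
    (hd : σ.ker ≤ commutator Γ)
    (H : ∀ (X : Type u) [Group X] [Finite X] (τ : X →* G), Function.Surjective τ →
      (∀ x, τ x = 1 → x ∈ center X ∧ x * x = 1) → τ.ker ≤ commutator X →
      ∀ x, τ x = 1 → x = 1) : ¬ 2 ∣ Nat.card σ.ker := by
  have cen : ∀ {k : Γ}, k ∈ σ.ker → ∀ g, k * g = g * k := fun hk g =>
    (Subgroup.mem_center_iff.1 (hc hk) g).symm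
  -- the subgroup of squares
  have hsq : ∀ x ∈ closure ((fun z : Γ => z * z) '' (σ.ker : Set Γ)),
      ∃ z ∈ σ.ker, x = z * z := by
    intro x hx
    induction hx using Subgroup.closure_induction with
    | mem x hx =>
      obtain ⟨z, hz, rfl⟩ := hx
      exact ⟨z, hz, rfl⟩
    | one => exact ⟨1, Subgroup.one_mem _, (one_mul 1).symm⟩
    | mul x y _ _ ihx ihy =>
      obtain ⟨z₁, hz₁, rfl⟩ := ihx
      obtain ⟨z₂, hz₂, rfl⟩ := ihy
      refine ⟨z₁ * z₂, Subgroup.mul_mem _ hz₁ hz₂, ?_⟩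
      calc z₁ * z₁ * (z₂ * z₂) = z₁ * (z₁ * z₂) * z₂ := by group
        _ = z₁ * (z₂ * z₁) * z₂ := by rw [cen hz₁ z₂]
        _ = z₁ * z₂ * (z₁ * z₂) := by group
    | inv x _ ih =>
      obtain ⟨z, hz, rfl⟩ := ih
      exact ⟨z⁻¹, Subgroup.inv_mem _ hz, by group⟩
  set N : Subgroup Γ := closure ((fun z : Γ => z * z) '' (σ.ker : Set Γ)) with hN
  have hNK : N ≤ σ.ker := by
    rw [hN, closure_le]
    rintro _ ⟨z, hz, rfl⟩
    exact Subgroup.mul_mem _ hz hz
  have hNn : N.Normal := by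
    refine ⟨fun n hn g => ?_⟩
    rw [← cen (hNK hn) g, mul_inv_cancel_right]
    exact hn
  let τ : Γ ⧸ N →* G := QuotientGroup.lift N σ (fun x hx => MonoidHom.mem_ker.1 (hNK hx))
  have hτ : ∀ x : Γ, τ (QuotientGroup.mk x) = σ x := fun x => rfl
  have h1 : ∀ x : Γ ⧸ N, τ x = 1 → x = 1 := by
    apply H (Γ ⧸ N) τ
    · intro g
      obtain ⟨x, rfl⟩ := hσ g
      exact ⟨QuotientGroup.mk x, rfl⟩
    · intro x hx
      induction x using QuotientGroup.induction_on with
      | H x =>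
        rw [hτ] at hx
        have hxK : x ∈ σ.ker := MonoidHom.mem_ker.2 hx
        constructor
        · rw [Subgroup.mem_center_iff]
          intro g
          induction g using QuotientGroup.induction_on with
          | H g =>
            rw [← QuotientGroup.mk_mul, ← QuotientGroup.mk_mul, cen hxK g]
        · rw [← QuotientGroup.mk_mul, QuotientGroup.eq_one_iff]
          exact subset_closure ⟨x, hxK, rfl⟩
    · intro x hx
      induction x using QuotientGroup.induction_on with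
      | H x =>
        have hxK : x ∈ σ.ker := MonoidHom.mem_ker.2 (by rw [← hτ]; exact MonoidHom.mem_ker.1 hx)
        have h2 : x ∈ commutator Γ := hd hxK
        have h3 : (QuotientGroup.mk' N) x ∈ (commutator Γ).map (QuotientGroup.mk' N) :=
          Subgroup.mem_map_of_mem _ h2
        rw [commutator_def, Subgroup.map_commutator, ← MonoidHom.range_eq_map,
          MonoidHom.range_eq_top.2 (QuotientGroup.mk'_surjective N)] at h3
        exact h3
  -- hence every element of the kernel is a square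
  have h2 : ∀ x ∈ σ.ker, ∃ z ∈ σ.ker, x = z * z := by
    intro x hx
    have h3 : (QuotientGroup.mk x : Γ ⧸ N) = 1 := h1 _ (by rw [hτ]; exact MonoidHom.mem_ker.1 hx)
    exact hsq x ((QuotientGroup.eq_one_iff x).1 h3)
  intro hdvd
  have : Fact (Nat.Prime 2) := ⟨Nat.prime_two⟩
  obtain ⟨z, hz⟩ := exists_prime_orderOf_dvd_card' 2 hdvd
  -- squaring is surjective, hence injective, on the kernel
  have hsurj : Function.Surjective (fun y : σ.ker => y * y) := by
    intro y
    obtain ⟨w, hw, hyw⟩ := h2 y y.2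
    exact ⟨⟨w, hw⟩, Subtype.ext hyw.symm⟩
  have hinj := Finite.injective_iff_surjective.2 hsurj
  have h3 : z * z = 1 := by rw [← sq, ← hz, pow_orderOf_eq_one]
  have h4 : z = 1 := hinj (by simpa using h3)
  rw [h4, orderOf_one] at hz
  exact absurd hz (by norm_num)

/-- A finite subgroup whose order is divisible by no prime is trivial. -/
theorem ker_eq_bot_of_primes {Γ G : Type*} [Group Γ] [Finite Γ] [Group G] (σ : Γ →* G)
    (h : ∀ p : ℕ, p.Prime → ¬ p ∣ Nat.card σ.ker) : σ.ker = ⊥ := by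
  apply (Subgroup.card_eq_one).1
  by_contra hne
  obtain ⟨p, hp, hdvd⟩ := Nat.exists_prime_and_dvd hne
  exact h p hp hdvd

/-- Trivial Schur multiplier from the triviality of all finite stem extensions. -/
theorem hasCyclicSchurMultiplier_one {G : Type u} [Group G] [Finite G]
    (h : ∀ (Γ : Type u) [Group Γ] [Finite Γ] (σ : Γ →* G), IsStemExtension σ → σ.ker = ⊥) :
    HasCyclicSchurMultiplier G 1 := by
  constructor
  · refine ⟨G, inferInstance, inferInstance, MonoidHom.id G, ⟨Function.surjective_id, ?_, ?_⟩, ?_⟩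
    · rw [MonoidHom.ker_id]; exact bot_le
    · rw [MonoidHom.ker_id]; exact bot_le
    · rw [MonoidHom.ker_id]
      exact ⟨MulEquiv.ofUnique⟩
  · intro Γ _ _ σ hσ
    have hbot := h Γ σ hσ
    refine ⟨1, ?_⟩
    intro x
    refine ⟨1, ?_⟩
    have : (x : Γ) = 1 := Subgroup.mem_bot.1 ((le_of_eq hbot) x.2)
    exact Subtype.ext (by simpa using this.symm)

end Cfsg.Agent.Helper89.Stem
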