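import Cfsg.Agent.Helper89.Stem
import Cfsg.Agent.Helper89.Level

/-!
# Stem extensions: extraspecial Sylow 3-subgroups of order 27 (helper89)

`Stem.not_dvd_card_ker_of_extraspecial`: if `G` has elements `a, b` of order 3 whose commutator
`c` is non-trivial and commutes with `a` and `b`, an element inverting both `a` and `b`, and
`81 ∤ |G|`, then 3 does not divide the order of the kernel of a stem extension of `G`.
-/

set_option autoImplicit false

namespace Cfsg.Agent.Helper89.Stem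

open Subgroup
open scoped commutatorElement

theorem pow_conj {Γ : Type*} [Group Γ] {x y w : Γ} (hwx : w * x = x * w)
    (h : x * y * x⁻¹ = w * y) (n : ℕ) : x ^ n * y * (x ^ n)⁻¹ = w ^ n * y := by
  induction n with
  | zero => simp
  | succ n ih =>
    have hc : w ^ n * x = x * w ^ n := (Commute.pow_left (show Commute w x from hwx) n).eq
    calc x ^ (n + 1) * y * (x ^ (n + 1))⁻¹
        = x * (x ^ n * y * (x ^ n)⁻¹) * x⁻¹ := by rw [pow_succ']; group
      _ = x * (w ^ n * y) * x⁻¹ := by rw [ih]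
      _ = w ^ n * (x * y * x⁻¹) := by rw [← mul_assoc x, ← hc]; group
      _ = w ^ (n + 1) * y := by rw [h, ← mul_assoc, ← pow_succ]

/-- If the commutators of the generators lie in a subgroup `N` centralised by the generators,
then all commutators of the generated subgroup lie in `N`. -/
theorem commutator_mem_of_central {Γ : Type*} [Group Γ] (S : Set Γ) (N : Subgroup Γ)
    (hN : ∀ n ∈ N, ∀ s ∈ S, n * s = s * n)
    (hS : ∀ s ∈ S, ∀ s' ∈ S, s * s' * s⁻¹ * s'⁻¹ ∈ N) :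
    ∀ x ∈ closure S, ∀ y ∈ closure S, x * y * x⁻¹ * y⁻¹ ∈ N := by
  have hN' : ∀ n ∈ N, ∀ x ∈ closure S, n * x = x * n := by
    intro n hn x hx
    induction hx using Subgroup.closure_induction with
    | mem x hx => exact hN n hn x hx
    | one => rw [mul_one, one_mul]
    | mul x y _ _ ihx ihy => rw [← mul_assoc, ihx, mul_assoc, ihy, mul_assoc]
    | inv x _ ih =>
      calc n * x⁻¹ = x⁻¹ * (x * n) * x⁻¹ := by group
        _ = x⁻¹ * (n * x) * x⁻¹ := by rw [ih]
        _ = x⁻¹ * n := by group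
  have hA : ∀ s ∈ S, ∀ x ∈ closure S, x * s * x⁻¹ * s⁻¹ ∈ N := by
    intro s hs x hx
    induction hx using Subgroup.closure_induction with
    | mem x hx => exact hS x hx s hs
    | one => simpa using N.one_mem
    | mul x y hx _ ihx ihy =>
      have e : x * y * s * (x * y)⁻¹ * s⁻¹ = x * (y * s * y⁻¹ * s⁻¹) * x⁻¹ * (x * s * x⁻¹ * s⁻¹) := by
        group
      have h1 : x * (y * s * y⁻¹ * s⁻¹) * x⁻¹ = y * s * y⁻¹ * s⁻¹ := by
        rw [← hN' _ ihy x hx, mul_inv_cancel_right]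
      rw [e, h1]
      exact N.mul_mem ihy ihx
    | inv x hx ih =>
      have e : x⁻¹ * s * x⁻¹⁻¹ * s⁻¹ = x⁻¹ * (x * s * x⁻¹ * s⁻¹)⁻¹ * x := by group
      have hc := hN' _ (N.inv_mem ih) x hx
      rw [e, mul_assoc, hc, inv_mul_cancel_left]
      exact N.inv_mem ih
  intro x hx y hy
  induction hy using Subgroup.closure_induction with
  | mem y hy => exact hA y hy x hx
  | one => simpa using N.one_mem
  | mul y z hy _ ihy ihz =>
    have e : x * (y * z) * x⁻¹ * (y * z)⁻¹ = x * y * x⁻¹ * y⁻¹ * (y * (x * z * x⁻¹ * z⁻¹) * y⁻¹) := by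
      group
    have h1 : y * (x * z * x⁻¹ * z⁻¹) * y⁻¹ = x * z * x⁻¹ * z⁻¹ := by
      rw [← hN' _ ihz y hy, mul_inv_cancel_right]
    rw [e, h1]
    exact N.mul_mem ihy ihz
  | inv y hy ih =>
    have e : x * y⁻¹ * x⁻¹ * y⁻¹⁻¹ = y⁻¹ * (x * y * x⁻¹ * y⁻¹)⁻¹ * y := by group
    have hc := hN' _ (N.inv_mem ih) y hy
    rw [e, mul_assoc, hc, inv_mul_cancel_left]
    exact N.inv_mem ih

theorem extraspecial_core {Γ G : Type*} [Group Γ] [Group G] (σ : Γ →* G)
    (hσ : Function.Surjective σ) (hc : σ.ker ≤ center Γ) {a b n : G} (ha : a ^ 3 = 1)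
    (hb : b ^ 3 = 1) (hne : a * b ≠ b * a)
    (hca : (a * b * a⁻¹ * b⁻¹) * a = a * (a * b * a⁻¹ * b⁻¹))
    (hcb : (a * b * a⁻¹ * b⁻¹) * b = b * (a * b * a⁻¹ * b⁻¹))
    (hna : n * a * n⁻¹ = a⁻¹) (hnb : n * b * n⁻¹ = b⁻¹) (P : Subgroup Γ)
    (hP : P.map σ ≤ closure {a, b}) :
    ∀ z : P, z ∈ commutator P → σ (z : Γ) = 1 → z = 1 := by
  obtain ⟨a', hA⟩ := hσ a
  obtain ⟨b', hB⟩ := hσ b
  obtain ⟨n', hN⟩ := hσ n
  have cen : ∀ {k : Γ}, σ k = 1 → ∀ g, k * g = g * k := fun hk g =>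
    (Subgroup.mem_center_iff.1 (hc (MonoidHom.mem_ker.2 hk)) g).symm
  have hC : σ (a' * b' * a'⁻¹ * b'⁻¹) = a * b * a⁻¹ * b⁻¹ := by
    rw [map_mul, map_mul, map_mul, map_inv, map_inv, hA, hB]
  have hnc : n * (a * b * a⁻¹ * b⁻¹) * n⁻¹ = a * b * a⁻¹ * b⁻¹ := by
    have e1 : n * (a * b * a⁻¹ * b⁻¹) * n⁻¹ =
        (n * a * n⁻¹) * (n * b * n⁻¹) * (n * a * n⁻¹)⁻¹ * (n * b * n⁻¹)⁻¹ := by group
    have e2 : a⁻¹ * b⁻¹ * a⁻¹⁻¹ * b⁻¹⁻¹ = b⁻¹ * (a⁻¹ * (a * b * a⁻¹ * b⁻¹) * a) * b := by group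
    have e3 : a⁻¹ * (a * b * a⁻¹ * b⁻¹) * a = a * b * a⁻¹ * b⁻¹ := by
      rw [mul_assoc, hca, inv_mul_cancel_left]
    rw [e1, hna, hnb, e2, e3, mul_assoc, hcb, inv_mul_cancel_left]
  have hac : a' * (a' * b' * a'⁻¹ * b'⁻¹) = (a' * b' * a'⁻¹ * b'⁻¹) * a' :=
    lift_comm σ hc (by decide : Odd 3) ha hca.symm hna hnc hA hC hN
  have hbc : b' * (a' * b' * a'⁻¹ * b'⁻¹) = (a' * b' * a'⁻¹ * b'⁻¹) * b' :=
    lift_comm σ hc (by decide : Odd 3) hb hcb.symm hnb hnc hB hC hN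
  -- the cube of the commutator
  have hc3' : (a' * b' * a'⁻¹ * b'⁻¹) ^ 3 = 1 := by
    have h1 := pow_conj hac.symm (show a' * b' * a'⁻¹ = (a' * b' * a'⁻¹ * b'⁻¹) * b' by group) 3
    have h2 : σ (a' ^ 3) = 1 := by rw [map_pow, hA, ha]
    rw [cen h2 b', mul_inv_cancel_right] at h1
    exact mul_eq_right.1 h1.symm
  have hc3 : (a * b * a⁻¹ * b⁻¹) ^ 3 = 1 := by
    have h1 := pow_conj hca (show a * b * a⁻¹ = (a * b * a⁻¹ * b⁻¹) * b by group) 3
    rw [ha, one_mul, inv_one, mul_one] at h1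
    exact mul_eq_right.1 h1.symm
  have hc1 : a * b * a⁻¹ * b⁻¹ ≠ 1 := by
    intro h
    apply hne
    calc a * b = a * b * a⁻¹ * b⁻¹ * (b * a) := by group
      _ = b * a := by rw [h, one_mul]
  have hord : orderOf (a * b * a⁻¹ * b⁻¹) = 3 :=
    orderOf_eq_prime hc3 hc1
  -- commutators of the preimage
  have hcomm : ∀ x ∈ closure ({a', b'} : Set Γ), ∀ y ∈ closure ({a', b'} : Set Γ),
      x * y * x⁻¹ * y⁻¹ ∈ zpowers (a' * b' * a'⁻¹ * b'⁻¹) := by
    apply commutator_mem_of_central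
    · intro m hm s hs
      obtain ⟨k, rfl⟩ := mem_zpowers_iff.1 hm
      simp only [Set.mem_insert_iff, Set.mem_singleton_iff] at hs
      rcases hs with rfl | rfl
      · exact (Commute.zpow_left (show Commute _ s from hac.symm) k).eq
      · exact (Commute.zpow_left (show Commute _ s from hbc.symm) k).eq
    · intro s hs s' hs'
      simp only [Set.mem_insert_iff, Set.mem_singleton_iff] at hs hs'
      rcases hs with rfl | rfl <;> rcases hs' with rfl | rfl
      · simpa using Subgroup.one_mem _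
      · exact mem_zpowers _
      · have e : s * s' * s⁻¹ * s'⁻¹ = (s' * s * s'⁻¹ * s⁻¹)⁻¹ := by group
        rw [e]
        exact inv_mem (mem_zpowers _)
      · simpa using Subgroup.one_mem _
  have hdec : ∀ x ∈ P, ∃ y ∈ closure ({a', b'} : Set Γ), ∃ k : Γ, σ k = 1 ∧ x = y * k := by
    intro x hx
    have h1 : σ x ∈ (closure ({a', b'} : Set Γ)).map σ := by
      rw [MonoidHom.map_closure, Set.image_pair, hA, hB]
      exact hP (Subgroup.mem_map_of_mem σ hx)
    obtain ⟨y, hy, hyx⟩ := h1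
    refine ⟨y, hy, y⁻¹ * x, ?_, by group⟩
    rw [map_mul, map_inv, hyx, inv_mul_cancel]
  have hle : commutator P ≤ (zpowers (a' * b' * a'⁻¹ * b'⁻¹)).comap P.subtype := by
    rw [commutator_eq_closure, closure_le]
    rintro _ ⟨x, y, rfl⟩
    obtain ⟨x₁, hx₁, k₁, hk₁, hx⟩ := hdec x x.2
    obtain ⟨y₁, hy₁, k₂, hk₂, hy⟩ := hdec y y.2
    show (P.subtype ⁅x, y⁆) ∈ zpowers (a' * b' * a'⁻¹ * b'⁻¹)
    rw [commutatorElement_def]
    simp only [map_mul, map_inv, Subgroup.subtype_apply]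
    rw [hx, hy, comm_central_mul (cen hk₁) (cen hk₂)]
    exact hcomm x₁ hx₁ y₁ hy₁
  intro z hz hz1
  have h1 : (z : Γ) ∈ zpowers (a' * b' * a'⁻¹ * b'⁻¹) := hle hz
  obtain ⟨k, hk⟩ := mem_zpowers_iff.1 h1
  have h2 : (a * b * a⁻¹ * b⁻¹) ^ k = 1 := by
    rw [← hC, ← map_zpow, hk, hz1]
  have h3 : ((3 : ℕ) : ℤ) ∣ k := by
    rw [← hord]; exact orderOf_dvd_iff_zpow_eq_one.2 h2
  obtain ⟨m, rfl⟩ := h3
  apply Subtype.ext
  rw [← hk, zpow_mul, zpow_natCast, hc3', one_zpow]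
  rfl

/-! ### The group of order 27 -/

def tab27 : ℕ := 0x548863773752482685317614106502432100
def rels27 : List (List ℕ) :=
  [[2, 2, 2], [0, 2, 1, 3, 0, 2, 0, 3, 1, 1], [0, 2, 1, 3, 2, 2, 0, 3, 1, 3], [0, 0, 0]]

theorem pre27 : CT2.preChk 9 4 (tbl 4 4 tab27) (vec 4 0x432211000) (vec 2 0x3d138) [0, 1] =
    some 0x44129a7bf := by
  decide +kernel

theorem run27 : CT2.runSteps (tbl 4 4 tab27) 4 rels27 0x44129a7bf
    [(0, 0, 1), (1, 3, 1), (2, 3, 1), (0, 1, 4), (8, 1, 4), (6, 2, 9), (7, 2, 7), (8, 2, 5),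
      (4, 0, 1)] = some (2 ^ (9 * 4) - 1) := by
  decide +kernel

theorem closure_gl_pair {G : Type*} [Group G] (a b : G) :
    closure (gl [a, b] '' Set.Iio 4) = closure {a, b} := by
  apply le_antisymm
  · rw [closure_le]
    rintro _ ⟨j, hj, rfl⟩
    exact gl_mem _ _ (by
      intro x hx
      simp only [List.mem_cons, List.not_mem_nil, or_false] at hx
      rcases hx with rfl | rfl
      · exact subset_closure (by simp)
      · exact subset_closure (by simp)) j
  · rw [closure_le]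
    intro x hx
    simp only [Set.mem_insert_iff, Set.mem_singleton_iff] at hx
    rcases hx with rfl | rfl
    · exact subset_closure ⟨0, by simp, rfl⟩
    · exact subset_closure ⟨2, by simp, rfl⟩

theorem card_pair_dvd {G : Type*} [Group G] [Finite G] (a b : G) (ha : a ^ 3 = 1)
    (hb : b ^ 3 = 1) (hca : (a * b * a⁻¹ * b⁻¹) * a = a * (a * b * a⁻¹ * b⁻¹))
    (hcb : (a * b * a⁻¹ * b⁻¹) * b = b * (a * b * a⁻¹ * b⁻¹)) :
    Nat.card (closure ({a, b} : Set G)) ∣ 27 := by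
  rw [← closure_gl_pair]
  have hle : zpowers a ≤ closure (gl [a, b] '' Set.Iio 4) := by
    rw [zpowers_le]
    exact subset_closure ⟨0, by simp, rfl⟩
  have h := CT2.card_closure_dvd (gl [a, b]) (gl_inv _) 9 4 (tbl 4 4 tab27) (vec 4 0x432211000)
    (vec 2 0x3d138) [0, 1] rels27
    [(0, 0, 1), (1, 3, 1), (2, 3, 1), (0, 1, 4), (8, 1, 4), (6, 2, 9), (7, 2, 7), (8, 2, 5),
      (4, 0, 1)] 0x44129a7bf pre27 run27 (zpowers a) ?_ hle ?_
  · have h3 : Nat.card (zpowers a) ∣ 3 := by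
      rw [Nat.card_zpowers]; exact orderOf_dvd_of_pow_eq_one ha
    exact h.trans (by
      have := Nat.mul_dvd_mul_left 9 h3
      simpa using this)
  · intro j hj
    simp only [List.mem_cons, List.not_mem_nil, or_false] at hj
    rcases hj with rfl | rfl
    · exact mem_zpowers a
    · exact inv_mem (mem_zpowers a)
  · intro ρ hρ
    simp only [rels27, List.mem_cons, List.not_mem_nil, or_false] at hρ
    rcases hρ with rfl | rfl | rfl | rfl
    · show b * (b * (b * 1)) = 1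
      have e : b * (b * (b * 1)) = b ^ 3 := by rw [mul_one, pow_succ, pow_two, mul_assoc]
      rw [e, hb]
    · show a * (b * (a⁻¹ * (b⁻¹ * (a * (b * (a * (b⁻¹ * (a⁻¹ * (a⁻¹ * 1))))))))) = 1
      have e : a * (b * (a⁻¹ * (b⁻¹ * (a * (b * (a * (b⁻¹ * (a⁻¹ * (a⁻¹ * 1))))))))) =
          (a * b * a⁻¹ * b⁻¹) * a * (a * b * a⁻¹ * b⁻¹)⁻¹ * a⁻¹ := by group
      rw [e, hca]; group
    · show a * (b * (a⁻¹ * (b⁻¹ * (b * (b * (a * (b⁻¹ * (a⁻¹ * (b⁻¹ * 1))))))))) = 1
      have e : a * (b * (a⁻¹ * (b⁻¹ * (b * (b * (a * (b⁻¹ * (a⁻¹ * (b⁻¹ * 1))))))))) =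
          (a * b * a⁻¹ * b⁻¹) * b * (a * b * a⁻¹ * b⁻¹)⁻¹ * b⁻¹ := by group
      rw [e, hcb]; group
    · show a * (a * (a * 1)) = 1
      have e : a * (a * (a * 1)) = a ^ 3 := by rw [mul_one, pow_succ, pow_two, mul_assoc]
      rw [e, ha]

/-- Extraspecial Sylow 3-subgroup of order 27 with an element inverting both generators: 3 does
not divide the order of the kernel of a stem extension. -/
theorem not_dvd_card_ker_of_extraspecial {Γ G : Type*} [Group Γ] [Finite Γ] [Group G] [Finite G]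
    (σ : Γ →* G) (hσ : Function.Surjective σ) (hc : σ.ker ≤ center Γ)
    (hd : σ.ker ≤ commutator Γ) (a b n : G) (ha : a ^ 3 = 1) (hb : b ^ 3 = 1)
    (hne : a * b ≠ b * a)
    (hca : (a * b * a⁻¹ * b⁻¹) * a = a * (a * b * a⁻¹ * b⁻¹))
    (hcb : (a * b * a⁻¹ * b⁻¹) * b = b * (a * b * a⁻¹ * b⁻¹))
    (hna : n * a * n⁻¹ = a⁻¹) (hnb : n * b * n⁻¹ = b⁻¹) (hG : ¬ 3 ^ 4 ∣ Nat.card G) :
    ¬ 3 ∣ Nat.card σ.ker := by
  have hfact : Fact (Nat.Prime 3) := ⟨Nat.prime_three⟩
  apply not_dvd_card_ker σ hc hd 3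
  intro P
  -- the subgroup generated by `a, b` has order 27 and is a Sylow subgroup
  have h27 := card_pair_dvd a b ha hb hca hcb
  have haP : a ∈ closure ({a, b} : Set G) := subset_closure (by simp)
  have hbP : b ∈ closure ({a, b} : Set G) := subset_closure (by simp)
  have hncomm : ¬ ∀ x y : closure ({a, b} : Set G), x * y = y * x := by
    intro h
    exact hne (congrArg Subtype.val (h ⟨a, haP⟩ ⟨b, hbP⟩))
  have hcard : Nat.card (closure ({a, b} : Set G)) = 3 ^ 3 := by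
    have h27' : Nat.card (closure ({a, b} : Set G)) ∣ 3 ^ 3 := h27
    obtain ⟨k, hk, hk'⟩ := (Nat.dvd_prime_pow Nat.prime_three).1 h27'
    interval_cases k
    · exfalso
      apply hncomm
      have : Subsingleton (closure ({a, b} : Set G)) :=
        (Nat.card_eq_one_iff_unique.1 (by simpa using hk')).1
      intro x y
      rw [Subsingleton.elim x y]
    · exfalso
      apply hncomm
      have : IsCyclic (closure ({a, b} : Set G)) :=
        isCyclic_of_prime_card (p := 3) (by simpa using hk')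
      intro x y
      exact (IsCyclic.commGroup (α := closure ({a, b} : Set G))).mul_comm x y
    · exfalso
      apply hncomm
      intro x y
      exact IsPGroup.commutative_of_card_eq_prime_sq (p := 3) hk' x y
    · exact hk'
  have hpg : IsPGroup 3 (closure ({a, b} : Set G)) := IsPGroup.of_card hcard
  obtain ⟨Q₀, hQ₀⟩ := hpg.exists_le_sylow
  obtain ⟨m, hm⟩ := IsPGroup.iff_card.1 Q₀.isPGroup'
  have hm3 : m ≤ 3 := by
    by_contra hcon
    have h1 : 3 ^ m ∣ Nat.card G := hm ▸ Subgroup.card_subgroup_dvd_card _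
    exact hG ((pow_dvd_pow 3 (by omega : 4 ≤ m)).trans h1)
  have hQeq : closure ({a, b} : Set G) = (Q₀ : Subgroup G) := by
    apply Subgroup.eq_of_le_of_card_ge hQ₀
    rw [hcard, hm]
    exact Nat.pow_le_pow_right (by norm_num) hm3
  have hpgP : IsPGroup 3 ((P : Subgroup Γ).map σ) := P.isPGroup'.map σ
  obtain ⟨Q, hQ⟩ := hpgP.exists_le_sylow
  obtain ⟨g, hg⟩ := MulAction.exists_smul_eq G Q₀ Q
  have hmap : (P : Subgroup Γ).map σ ≤
      closure {MulAut.conj g a, MulAut.conj g b} := by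
    intro y hy
    have h1 : y ∈ (Q : Subgroup G) := hQ hy
    rw [← hg, Sylow.coe_subgroup_smul, Subgroup.mem_pointwise_smul_iff_inv_smul_mem,
      ← hQeq] at h1
    have h2 : (MulAut.conj g).toMonoidHom ((MulAut.conj g)⁻¹ • y) ∈
        (closure ({a, b} : Set G)).map (MulAut.conj g).toMonoidHom :=
      Subgroup.mem_map_of_mem _ h1
    rw [MonoidHom.map_closure, Set.image_pair] at h2
    have e : (MulAut.conj g).toMonoidHom ((MulAut.conj g)⁻¹ • y) = y := by
      simp only [MulAut.smul_def, MulEquiv.coe_toMonoidHom, MulAut.conj_apply,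
        MulAut.conj_inv_apply]
      group
    rw [e] at h2
    exact h2
  have hφ : ∀ {x y : G}, x = y → MulAut.conj g x = MulAut.conj g y := fun h => by rw [h]
  apply extraspecial_core σ hσ hc (a := MulAut.conj g a) (b := MulAut.conj g b)
    (n := MulAut.conj g n)
    (by rw [← map_pow, ha, map_one]) (by rw [← map_pow, hb, map_one])
    (by
      intro h
      apply hne
      apply (MulAut.conj g).injective
      rw [map_mul, map_mul, h])
    (by simpa only [map_mul, map_inv] using hφ hca)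
    (by simpa only [map_mul, map_inv] using hφ hcb)
    (by simpa only [map_mul, map_inv] using hφ hna)
    (by simpa only [map_mul, map_inv] using hφ hnb)
    (P : Subgroup Γ) hmap

end Cfsg.Agent.Helper89.Stem
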