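import Cfsg.Agent.Helper89.StemCover
import Cfsg.Agent.Helper89.Level
import Mathlib.GroupTheory.Abelianization.Defs

/-!
# Schur multipliers from explicit universal covers (helper89)

* `Stem.exists_surj_ker_of_cover`: if `π : Γ₀ →* G` is a surjection from a finite perfect group
  all of whose finite stem extensions are trivial, then the kernel of every finite stem extension
  of `G` is a homomorphic image of `ker π` (fibre-product argument).
* `Stem.hasSchurMultiplier_of_cover`, `Stem.cover_cyclic`: the resulting statements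
  `HasSchurMultiplier G A`.
* `Stem.perfect_of_conj`: perfectness from conjugation relations `x g x⁻¹ = g ^ k`.
-/

set_option autoImplicit false

namespace Cfsg.Agent.Helper89.Stem

open Subgroup Cfsg
open scoped commutatorElement

universe u v

section cover

variable {Γ Γ₀ : Type u} {G : Type v} [Group Γ] [Group Γ₀] [Group G]

theorem exists_surj_ker_of_cover [Finite Γ] [Finite Γ₀]
    (σ : Γ →* G) (hσ : Function.Surjective σ) (hσc : σ.ker ≤ center Γ)
    (hσd : σ.ker ≤ commutator Γ)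
    (π : Γ₀ →* G) (hπ : Function.Surjective π) (hperf : commutator Γ₀ = ⊤)
    (huniv : ∀ (X : Type u) [Group X] [Finite X] (τ : X →* Γ₀), Function.Surjective τ →
      τ.ker ≤ center X → τ.ker ≤ commutator X → τ.ker = ⊥) :
    ∃ f : π.ker →* σ.ker, Function.Surjective f := by
  classical
  have hG : commutator G = ⊤ := perfect_of_surjective π hπ hperf
  have hΓ : commutator Γ = ⊤ := perfect_of_stem σ hσ hσd hG
  obtain ⟨P, hP⟩ : ∃ P : Subgroup (Γ × Γ₀), P = pull σ π := ⟨_, rfl⟩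
  have hPmem : ∀ x : Γ × Γ₀, x ∈ P → σ x.1 = π x.2 := fun x hx => by
    rw [hP] at hx; exact hx
  obtain ⟨D, hD⟩ : ∃ D : Subgroup (Γ × Γ₀), D = ⁅P, P⁆ := ⟨_, rfl⟩
  have hDP : D ≤ P := by
    rw [hD, Subgroup.commutator_le]
    intro g₁ h₁ g₂ h₂
    rw [commutatorElement_def]
    exact P.mul_mem (P.mul_mem (P.mul_mem h₁ h₂) (P.inv_mem h₁)) (P.inv_mem h₂)
  have hPsnd : P.map (MonoidHom.snd Γ Γ₀) = ⊤ := by
    rw [eq_top_iff]
    intro y _
    obtain ⟨x, hx⟩ := hσ (π y)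
    exact ⟨(x, y), by rw [hP]; exact hx, rfl⟩
  have hPfst : P.map (MonoidHom.fst Γ Γ₀) = ⊤ := by
    rw [eq_top_iff]
    intro x _
    obtain ⟨y, hy⟩ := hπ (σ x)
    exact ⟨(x, y), by rw [hP]; exact hy.symm, rfl⟩
  have hDsnd : D.map (MonoidHom.snd Γ Γ₀) = ⊤ := by
    rw [hD, Subgroup.map_commutator, hPsnd, ← commutator_def, hperf]
  have hDfst : D.map (MonoidHom.fst Γ Γ₀) = ⊤ := by
    rw [hD, Subgroup.map_commutator, hPfst, ← commutator_def, hΓ]
  obtain ⟨τ, hτdef⟩ : ∃ τ : ↥D →* Γ₀, ∀ d : ↥D, τ d = d.1.2 :=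
    ⟨(MonoidHom.snd Γ Γ₀).comp D.subtype, fun _ => rfl⟩
  obtain ⟨ρ, hρdef⟩ : ∃ ρ : ↥D →* Γ, ∀ d : ↥D, ρ d = d.1.1 :=
    ⟨(MonoidHom.fst Γ Γ₀).comp D.subtype, fun _ => rfl⟩
  have hτ : Function.Surjective τ := by
    intro y
    have : y ∈ D.map (MonoidHom.snd Γ Γ₀) := by rw [hDsnd]; trivial
    obtain ⟨d, hd, hdy⟩ := this
    exact ⟨⟨d, hd⟩, by rw [hτdef]; exact hdy⟩
  have hρ : Function.Surjective ρ := by
    intro x
    have : x ∈ D.map (MonoidHom.fst Γ Γ₀) := by rw [hDfst]; trivial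
    obtain ⟨d, hd, hdx⟩ := this
    exact ⟨⟨d, hd⟩, by rw [hρdef]; exact hdx⟩
  have hkerσ : ∀ d : ↥D, τ d = 1 → σ d.1.1 = 1 := by
    intro d hd
    rw [hPmem d.1 (hDP d.2), ← hτdef, hd, map_one]
  have cen : ∀ k : Γ, σ k = 1 → ∀ g, k * g = g * k := fun k hk g =>
    (Subgroup.mem_center_iff.1 (hσc (MonoidHom.mem_ker.2 hk)) g).symm
  have hτc : τ.ker ≤ center ↥D := by
    intro d hd
    rw [Subgroup.mem_center_iff]
    intro g
    have h2' : d.1.2 = 1 := by rw [← hτdef]; exact MonoidHom.mem_ker.1 hd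
    apply Subtype.ext
    apply Prod.ext
    · exact (cen d.1.1 (hkerσ d (MonoidHom.mem_ker.1 hd)) g.1.1).symm
    · show g.1.2 * d.1.2 = d.1.2 * g.1.2
      rw [h2', mul_one, one_mul]
  have hle : D ≤ ⁅D, D⁆ := by
    have h0 : ⁅P, P⁆ ≤ ⁅D, D⁆ := by
      rw [Subgroup.commutator_le]
      intro g₁ h₁ g₂ h₂
      have m1 : g₁.2 ∈ D.map (MonoidHom.snd Γ Γ₀) := by rw [hDsnd]; trivial
      have m2 : g₂.2 ∈ D.map (MonoidHom.snd Γ Γ₀) := by rw [hDsnd]; trivial
      obtain ⟨d₁, hd₁, e₁⟩ := m1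
      obtain ⟨d₂, hd₂, e₂⟩ := m2
      have e₁' : d₁.2 = g₁.2 := e₁
      have e₂' : d₂.2 = g₂.2 := e₂
      have k1 : σ (d₁.1⁻¹ * g₁.1) = 1 := by
        rw [map_mul, map_inv, hPmem d₁ (hDP hd₁), hPmem g₁ h₁, e₁', inv_mul_cancel]
      have k2 : σ (d₂.1⁻¹ * g₂.1) = 1 := by
        rw [map_mul, map_inv, hPmem d₂ (hDP hd₂), hPmem g₂ h₂, e₂', inv_mul_cancel]
      have key : ⁅g₁, g₂⁆ = ⁅d₁, d₂⁆ := by
        rw [commutatorElement_def, commutatorElement_def]
        apply Prod.ext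
        · show g₁.1 * g₂.1 * g₁.1⁻¹ * g₂.1⁻¹ = d₁.1 * d₂.1 * d₁.1⁻¹ * d₂.1⁻¹
          have := comm_central_mul (x := d₁.1) (y := d₂.1) (cen _ k1) (cen _ k2)
          rw [mul_inv_cancel_left, mul_inv_cancel_left] at this
          exact this
        · show g₁.2 * g₂.2 * g₁.2⁻¹ * g₂.2⁻¹ = d₁.2 * d₂.2 * d₁.2⁻¹ * d₂.2⁻¹
          rw [e₁', e₂']
      rw [key]
      exact Subgroup.commutator_mem_commutator hd₁ hd₂
    rw [hD] at h0 ⊢
    exact h0
  have hDperf : commutator ↥D = ⊤ := by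
    rw [eq_top_iff]
    intro d _
    have : (d : Γ × Γ₀) ∈ (commutator ↥D).map D.subtype := by
      rw [Subgroup.map_subtype_commutator]; exact hle d.2
    obtain ⟨c, hc, hcd⟩ := this
    have : c = d := Subtype.ext hcd
    rwa [← this]
  have hτd : τ.ker ≤ commutator ↥D := by rw [hDperf]; exact le_top
  have hτker : τ.ker = ⊥ := huniv ↥D τ hτ hτc hτd
  have hτinj : Function.Injective τ := (MonoidHom.ker_eq_bot_iff τ).1 hτker
  obtain ⟨e, he⟩ : ∃ e : ↥D ≃* Γ₀, ∀ d, e d = τ d :=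
    ⟨MulEquiv.ofBijective τ ⟨hτinj, hτ⟩, fun _ => rfl⟩
  have hes : ∀ d, e.symm (τ d) = d := fun d => by rw [← he, MulEquiv.symm_apply_apply]
  obtain ⟨φ, hφdef⟩ : ∃ φ : Γ₀ →* Γ, ∀ y, φ y = ρ (e.symm y) :=
    ⟨ρ.comp e.symm.toMonoidHom, fun _ => rfl⟩
  have hφ : ∀ y, σ (φ y) = π y := by
    intro y
    obtain ⟨d, rfl⟩ := hτ y
    rw [hφdef, hes, hρdef, hτdef]
    exact hPmem d.1 (hDP d.2)
  refine ⟨(φ.comp π.ker.subtype).codRestrict σ.ker (fun y => MonoidHom.mem_ker.2 (by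
    show σ (φ y.1) = 1
    rw [hφ]; exact MonoidHom.mem_ker.1 y.2)), ?_⟩
  intro k
  obtain ⟨d, hd⟩ := hρ k.1
  have hy : τ d ∈ π.ker := by
    rw [MonoidHom.mem_ker, hτdef, ← hPmem d.1 (hDP d.2), ← hρdef, hd]
    exact MonoidHom.mem_ker.1 k.2
  refine ⟨⟨τ d, hy⟩, Subtype.ext ?_⟩
  show φ (τ d) = k.1
  rw [hφdef, hes, hd]

end cover

/-- The Schur multiplier from an explicit perfect cover with trivial multiplier. -/
theorem hasSchurMultiplier_of_cover {G Γ₀ : Type u} [Group G] [Group Γ₀] [Finite Γ₀]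
    {A : Type v} [CommGroup A]
    (π : Γ₀ →* G) (hπ : Function.Surjective π) (hc : π.ker ≤ center Γ₀)
    (hperf : commutator Γ₀ = ⊤)
    (huniv : ∀ (X : Type u) [Group X] [Finite X] (τ : X →* Γ₀), Function.Surjective τ →
      τ.ker ≤ center X → τ.ker ≤ commutator X → τ.ker = ⊥)
    (e : π.ker ≃* A) : HasSchurMultiplier G A := by
  refine ⟨⟨Γ₀, inferInstance, inferInstance, π, ⟨hπ, hc, by rw [hperf]; exact le_top⟩, ⟨e⟩⟩, ?_⟩
  intro Γ _ _ σ hσ
  obtain ⟨hs, hcσ, hd⟩ := hσ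
  obtain ⟨f, hf⟩ := exists_surj_ker_of_cover σ hs hcσ hd π hπ hperf huniv
  exact ⟨f.comp e.symm.toMonoidHom, hf.comp e.symm.surjective⟩

/-- Cyclic Schur multiplier of order `m` from an explicit cover: the kernel contains a central
element of order `m` and the cover has at most `m * |G|` elements. -/
theorem cover_cyclic {G Γ₀ : Type u} [Group G] [Finite G] [Group Γ₀] [Finite Γ₀]
    (π : Γ₀ →* G) (hπ : Function.Surjective π) (m : ℕ)
    (hcard : Nat.card Γ₀ ∣ m * Nat.card G)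
    (ζ : Γ₀) (hζker : π ζ = 1) (hζord : orderOf ζ = m) (hζc : ∀ x, ζ * x = x * ζ)
    (hperf : commutator Γ₀ = ⊤)
    (huniv : ∀ (X : Type u) [Group X] [Finite X] (τ : X →* Γ₀), Function.Surjective τ →
      τ.ker ≤ center X → τ.ker ≤ commutator X → τ.ker = ⊥) :
    HasCyclicSchurMultiplier G m := by
  have h1 := card_ker_mul π hπ
  have hle : zpowers ζ ≤ π.ker := by
    rw [zpowers_le]; exact MonoidHom.mem_ker.2 hζker
  have hz : Nat.card (zpowers ζ) = m := by rw [Nat.card_zpowers, hζord]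
  have h2 : m ∣ Nat.card π.ker := hz ▸ Subgroup.card_dvd_of_le hle
  have h3 : Nat.card π.ker ∣ m := by
    have : Nat.card π.ker * Nat.card G ∣ m * Nat.card G := by rw [h1]; exact hcard
    exact Nat.dvd_of_mul_dvd_mul_right Nat.card_pos this
  have h4 : Nat.card π.ker = m := Nat.dvd_antisymm h3 h2
  have heq : zpowers ζ = π.ker :=
    Subgroup.eq_of_le_of_card_ge hle (by rw [hz, h4])
  have hc : π.ker ≤ center Γ₀ := by
    rw [← heq, zpowers_le, Subgroup.mem_center_iff]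
    intro x
    exact (hζc x).symm
  have hcyc : IsCyclic ↥π.ker := by
    apply isCyclic_of_orderOf_eq_card (⟨ζ, MonoidHom.mem_ker.2 hζker⟩ : ↥π.ker)
    rw [Subgroup.orderOf_mk, hζord, h4]
  obtain ⟨e⟩ := nonempty_mulEquiv_of_card ↥π.ker m h4 hcyc
  exact hasSchurMultiplier_of_cover π hπ hc hperf huniv e

/-! ### Perfectness from conjugation relations -/

theorem mem_commutator_of_conj {Γ : Type*} [Group Γ] {x g : Γ} {k o : ℕ}
    (h : x * g * x⁻¹ = g ^ k) (ho : g ^ o = 1) (hk : 1 ≤ k) (hco : Nat.Coprime (k - 1) o) :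
    g ∈ commutator Γ := by
  rw [← Abelianization.ker_of, MonoidHom.mem_ker]
  have h1 : Abelianization.of g = Abelianization.of g ^ k := by
    have := congrArg Abelianization.of h
    rw [map_mul, map_mul, map_inv, map_pow, mul_comm (Abelianization.of x), mul_assoc,
      mul_inv_cancel, mul_one] at this
    exact this
  have h2 : Abelianization.of g ^ (k - 1) = 1 := by
    obtain ⟨j, rfl⟩ : ∃ j, k = j + 1 := ⟨k - 1, by omega⟩
    rw [pow_succ] at h1
    simpa using h1.symm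
  have h3 : Abelianization.of g ^ o = 1 := by rw [← map_pow, ho, map_one]
  have h4 := Nat.dvd_gcd (orderOf_dvd_of_pow_eq_one h2) (orderOf_dvd_of_pow_eq_one h3)
  rw [Nat.Coprime] at hco
  rw [hco, Nat.dvd_one] at h4
  exact orderOf_eq_one_iff.1 h4

section words
variable {Γ : Type*} [Group Γ]

theorem g_iv (g : ℕ → Γ) (hinv : ∀ j, g j * g (CT2.iv j) = 1) (i : ℕ) :
    g (2 * i + 1) = (g (2 * i))⁻¹ := by
  have h := hinv (2 * i)
  rw [iv_eq, if_pos (by omega)] at h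
  exact eq_inv_of_mul_eq_one_right h

/-- The conjugation word `x g_i x⁻¹ g_i⁻ᵏ`. -/
def conjWord (c : ℕ × List ℕ × ℕ × ℕ) : List ℕ :=
  c.2.1 ++ [2 * c.1] ++ CT2.invw c.2.1 ++ List.replicate c.2.2.1 (2 * c.1 + 1)

theorem conj_of_word (g : ℕ → Γ) (hinv : ∀ j, g j * g (CT2.iv j) = 1)
    (c : ℕ × List ℕ × ℕ × ℕ) (h : ev g (conjWord c) = 1) :
    ev g c.2.1 * g (2 * c.1) * (ev g c.2.1)⁻¹ = g (2 * c.1) ^ c.2.2.1 := by
  unfold conjWord at h
  rw [ev_append, ev_append, ev_append, CT2.ev_invw g hinv, ev_replicate, g_iv g hinv] at h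
  have e : ev g [2 * c.1] = g (2 * c.1) := by simp [ev]
  rw [e, inv_pow] at h
  exact mul_inv_eq_one.1 h

/-- numeric side conditions of the conjugation data and coverage of the generators `i < n` -/
def conjOK (n : ℕ) (cj : List (ℕ × List ℕ × ℕ × ℕ)) : Bool :=
  cj.all (fun c => decide (1 ≤ c.2.2.1) && (Nat.gcd (c.2.2.1 - 1) c.2.2.2 == 1)) &&
    (List.range n).all (fun i => cj.any (fun c => c.1 == i))

/-- Perfectness: every generator `g_i`, `i < n`, is conjugate to a power `g_i ^ k` with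
`k - 1` prime to its order. -/
theorem perfect_of_conj (g : ℕ → Γ) (hinv : ∀ j, g j * g (CT2.iv j) = 1) (n : ℕ)
    (hgen : closure (g '' Set.Iio (2 * n)) = ⊤) (cj : List (ℕ × List ℕ × ℕ × ℕ))
    (hok : conjOK n cj = true) (hcj : ∀ w ∈ cj.map conjWord, ev g w = 1)
    (hpow : ∀ w ∈ cj.map (fun c => List.replicate c.2.2.2 (2 * c.1)), ev g w = 1) :
    commutator Γ = ⊤ := by
  rw [conjOK, Bool.and_eq_true] at hok
  obtain ⟨hok1, hok2⟩ := hok
  have key : ∀ i < n, g (2 * i) ∈ commutator Γ := by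
    intro i hi
    obtain ⟨c, hc, hci⟩ := List.any_eq_true.1 (List.all_eq_true.1 hok2 i (List.mem_range.2 hi))
    have hci' : c.1 = i := by simpa using hci
    have h1 := List.all_eq_true.1 hok1 c hc
    rw [Bool.and_eq_true, decide_eq_true_eq, beq_iff_eq] at h1
    have h2 := conj_of_word g hinv c (hcj _ (List.mem_map.2 ⟨c, hc, rfl⟩))
    have h3 := hpow _ (List.mem_map.2 ⟨c, hc, rfl⟩)
    rw [ev_replicate] at h3
    rw [hci'] at h2 h3
    exact mem_commutator_of_conj h2 h3 h1.1 h1.2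
  rw [eq_top_iff, ← hgen, closure_le]
  rintro _ ⟨j, hj, rfl⟩
  have hj' : j < 2 * n := hj
  by_cases hpar : j % 2 = 0
  · have e : 2 * (j / 2) = j := by omega
    rw [← e]
    exact key (j / 2) (by omega)
  · have e : 2 * (j / 2) + 1 = j := by omega
    rw [SetLike.mem_coe, ← e, g_iv g hinv]
    exact (commutator Γ).inv_mem (key (j / 2) (by omega))

/-- A defining word: `ev g (w ++ [2 i + 1]) = 1` means `g (2 i) = ev g w`. -/
theorem def_of_word (g : ℕ → Γ) (hinv : ∀ j, g j * g (CT2.iv j) = 1) (w : List ℕ) (i : ℕ)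
    (h : ev g (w ++ [2 * i + 1]) = 1) : g (2 * i) = ev g w := by
  rw [ev_append] at h
  have e : ev g [2 * i + 1] = g (2 * i + 1) := by simp [ev]
  rw [e, g_iv g hinv] at h
  exact (mul_inv_eq_one.1 h).symm

end words

end Cfsg.Agent.Helper89.Stem
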