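import Cfsg.Agent.Helper89.ChainGen
import Cfsg.Agent.Helper89.StemCover2

/-!
# The `p`-part of the Schur multiplier from relators of conjugation type (helper89)

Let `p` be a prime and let `G` be generated by elements of order prime to `p` which satisfy
relators of the form `u a u⁻¹ b` (for instance the Coxeter relators between involutions), such that a
chain certificate bounds the order of any group generated by elements satisfying these relators by
`c * |G|` with `c` prime to `p`.  In a central extension of `G` with kernel of exponent `p` the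
generators have unique lifts of the same order, and these satisfy the same relators; hence the
extension splits and no stem extension of `G` has a kernel of order divisible by `p`.

* `Stem.p_not_dvd_card_ker`: reduction of the `p`-part to kernels of exponent `p`.
* `Stem.p_cover`: transfer of the splitting property to a central extension of `G` with kernel of
  order prime to `p`.
* `Chain.p_of_chain`: the splitting property from a chain certificate.
-/

set_option autoImplicit false

namespace Cfsg.Agent.Helper89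

open Subgroup

namespace Stem

universe u v

/-- Reduction of the `p`-part to central extensions with kernel of exponent `p`. -/
theorem p_not_dvd_card_ker {Γ : Type u} {G : Type v} [Group Γ] [Finite Γ] [Group G]
    (p : ℕ) (hp : p.Prime)
    (σ : Γ →* G) (hσ : Function.Surjective σ) (hc : σ.ker ≤ center Γ)
    (hd : σ.ker ≤ commutator Γ)
    (H : ∀ (X : Type u) [Group X] [Finite X] (τ : X →* G), Function.Surjective τ →
      (∀ x, τ x = 1 → x ∈ center X ∧ x ^ p = 1) → τ.ker ≤ commutator X →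
      ∀ x, τ x = 1 → x = 1) : ¬ p ∣ Nat.card σ.ker := by
  have cen : ∀ {k : Γ}, k ∈ σ.ker → ∀ g, k * g = g * k := fun hk g =>
    (Subgroup.mem_center_iff.1 (hc hk) g).symm
  have hsq : ∀ x ∈ closure ((fun z : Γ => z ^ p) '' (σ.ker : Set Γ)),
      ∃ z ∈ σ.ker, x = z ^ p := by
    intro x hx
    induction hx using Subgroup.closure_induction with
    | mem x hx =>
      obtain ⟨z, hz, rfl⟩ := hx
      exact ⟨z, hz, rfl⟩
    | one => exact ⟨1, Subgroup.one_mem _, (one_pow p).symm⟩
    | mul x y _ _ ihx ihy =>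
      obtain ⟨z₁, hz₁, rfl⟩ := ihx
      obtain ⟨z₂, hz₂, rfl⟩ := ihy
      refine ⟨z₁ * z₂, Subgroup.mul_mem _ hz₁ hz₂, ?_⟩
      have hcomm : Commute z₁ z₂ := cen hz₁ z₂
      exact (hcomm.mul_pow p).symm
    | inv x _ ih =>
      obtain ⟨z, hz, rfl⟩ := ih
      exact ⟨z⁻¹, Subgroup.inv_mem _ hz, (inv_pow z p).symm⟩
  set N : Subgroup Γ := closure ((fun z : Γ => z ^ p) '' (σ.ker : Set Γ)) with hN
  have hNK : N ≤ σ.ker := by
    rw [hN, closure_le]
    rintro _ ⟨z, hz, rfl⟩
    exact Subgroup.pow_mem _ hz p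
  have hNn : N.Normal := by
    refine ⟨fun n hn g => ?_⟩
    rw [← cen (hNK hn) g, mul_inv_cancel_right]
    exact hn
  let τ : Γ ⧸ N →* G := QuotientGroup.lift N σ (fun x hx => MonoidHom.mem_ker.1 (hNK hx))
  have hτ : ∀ x : Γ, τ (QuotientGroup.mk x) = σ x := fun x => rfl
  have h1 : ∀ x : Γ ⧸ N, τ x = 1 → x = 1 := by
    apply H (Γ ⧸ N) τ
    · intro g
      obtain ⟨x, rfl⟩ := hσ g
      exact ⟨QuotientGroup.mk x, rfl⟩
    · intro x hx
      induction x using QuotientGroup.induction_on with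
      | H x =>
        rw [hτ] at hx
        have hxK : x ∈ σ.ker := MonoidHom.mem_ker.2 hx
        constructor
        · rw [Subgroup.mem_center_iff]
          intro g
          induction g using QuotientGroup.induction_on with
          | H g =>
            rw [← QuotientGroup.mk_mul, ← QuotientGroup.mk_mul, cen hxK g]
        · rw [← QuotientGroup.mk_pow, QuotientGroup.eq_one_iff]
          exact subset_closure ⟨x, hxK, rfl⟩
    · intro x hx
      induction x using QuotientGroup.induction_on with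
      | H x =>
        have hxK : x ∈ σ.ker := MonoidHom.mem_ker.2 (by rw [← hτ]; exact MonoidHom.mem_ker.1 hx)
        have h2 : x ∈ commutator Γ := hd hxK
        have h3 : (QuotientGroup.mk' N) x ∈ (commutator Γ).map (QuotientGroup.mk' N) :=
          Subgroup.mem_map_of_mem _ h2
        rw [commutator_def, Subgroup.map_commutator, ← MonoidHom.range_eq_map,
          MonoidHom.range_eq_top.2 (QuotientGroup.mk'_surjective N)] at h3
        exact h3
  have h2 : ∀ x ∈ σ.ker, ∃ z ∈ σ.ker, x = z ^ p := by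
    intro x hx
    have h3 : (QuotientGroup.mk x : Γ ⧸ N) = 1 := h1 _ (by rw [hτ]; exact MonoidHom.mem_ker.1 hx)
    exact hsq x ((QuotientGroup.eq_one_iff x).1 h3)
  intro hdvd
  have : Fact (Nat.Prime p) := ⟨hp⟩
  obtain ⟨z, hz⟩ := exists_prime_orderOf_dvd_card' p hdvd
  have hsurj : Function.Surjective (fun y : σ.ker => y ^ p) := by
    intro y
    obtain ⟨w, hw, hyw⟩ := h2 y y.2
    exact ⟨⟨w, hw⟩, Subtype.ext hyw.symm⟩
  have hinj := Finite.injective_iff_surjective.2 hsurj
  have h3 : z ^ p = 1 := by rw [← hz, pow_orderOf_eq_one]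
  have h4 : z = 1 := hinj (by
    show z ^ p = 1 ^ p
    rw [one_pow, h3])
  rw [h4, orderOf_one] at hz
  exact hp.one_lt.ne hz

/-- Transfer of the splitting property to a central extension with kernel of exponent `n` prime
to `p`. -/
theorem p_cover {Γ₀ : Type u} {G : Type v} [Group Γ₀] [Group G] (p n : ℕ) (hp : p.Prime)
    (hnp : Nat.Coprime n p)
    (π : Γ₀ →* G) (hπ : Function.Surjective π)
    (hπk : ∀ y, π y = 1 → y ∈ center Γ₀ ∧ y ^ n = 1)
    (H : ∀ (X : Type u) [Group X] [Finite X] (τ : X →* G), Function.Surjective τ →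
      (∀ x, τ x = 1 → x ∈ center X ∧ x ^ p = 1) → τ.ker ≤ commutator X →
      ∀ x, τ x = 1 → x = 1)
    (X : Type u) [Group X] [Finite X] (τ : X →* Γ₀) (hτ : Function.Surjective τ)
    (hker : ∀ x, τ x = 1 → x ∈ center X ∧ x ^ p = 1) (hd : τ.ker ≤ commutator X) :
    ∀ x, τ x = 1 → x = 1 := by
  have one_of : ∀ c : X, c ^ n = 1 → c ^ p = 1 → c = 1 := by
    intro c h1 h2
    have h3 : c ^ Nat.gcd n p = 1 := pow_gcd_eq_one.2 ⟨h1, h2⟩
    rwa [Nat.Coprime.gcd_eq_one hnp, pow_one] at h3
  -- the kernel of the composite is central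
  have hcen : ∀ k : X, π (τ k) = 1 → ∀ x, k * x = x * k := by
    intro k hk x
    obtain ⟨hk1, hk2⟩ := hπk (τ k) hk
    have hkn : k ^ n ∈ center X := (hker (k ^ n) (by rw [map_pow, hk2])).1
    obtain ⟨c, hc⟩ : ∃ c : X, c = k * x * k⁻¹ * x⁻¹ := ⟨_, rfl⟩
    have hτc : τ c = 1 := by
      rw [hc, map_mul, map_mul, map_mul, map_inv, map_inv,
        (Subgroup.mem_center_iff.1 hk1 (τ x)).symm]
      group
    obtain ⟨hc1, hc2⟩ := hker c hτc
    have hcc : ∀ y, c * y = y * c := fun y => (Subgroup.mem_center_iff.1 hc1 y).symm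
    have hcx : k * x * k⁻¹ = c * x := by rw [hc]; group
    have key : ∀ m : ℕ, k ^ m * x * (k ^ m)⁻¹ = c ^ m * x := by
      intro m
      induction m with
      | zero => simp
      | succ m ih =>
        have e1 : k ^ (m + 1) * x * (k ^ (m + 1))⁻¹ = k * (k ^ m * x * (k ^ m)⁻¹) * k⁻¹ := by
          rw [pow_succ']; group
        have e2 : k * (c ^ m * x) * k⁻¹ = k * c ^ m * k⁻¹ * (k * x * k⁻¹) := by group
        have hcm : Commute (c ^ m) k := (show Commute c k from hcc k).pow_left m
        rw [e1, ih, e2, hcx, ← hcm.eq, mul_inv_cancel_right, pow_succ, mul_assoc]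
    have h1 := key n
    have h2 : k ^ n * x * (k ^ n)⁻¹ = x := by
      rw [← (Subgroup.mem_center_iff.1 hkn x), mul_inv_cancel_right]
    rw [h2] at h1
    have h3 : c ^ n = 1 := by
      have := congrArg (· * x⁻¹) h1
      simpa using this.symm
    have h4 : c = 1 := one_of c h3 hc2
    have h5 : k * x = c * (x * k) := by rw [hc]; group
    rw [h5, h4, one_mul]
  -- the part of the kernel of exponent `n`
  let N : Subgroup X :=
    { carrier := {k | π (τ k) = 1 ∧ k ^ n = 1}
      mul_mem' := by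
        rintro a b ⟨ha1, ha2⟩ ⟨hb1, hb2⟩
        refine ⟨by rw [map_mul, map_mul, ha1, hb1, one_mul], ?_⟩
        have hcomm : Commute a b := hcen a ha1 b
        rw [hcomm.mul_pow, ha2, hb2, one_mul]
      one_mem' := ⟨by rw [map_one, map_one], one_pow n⟩
      inv_mem' := by
        rintro a ⟨ha1, ha2⟩
        exact ⟨by rw [map_inv, map_inv, ha1, inv_one], by rw [inv_pow, ha2, inv_one]⟩ }
  have hNmem : ∀ k : X, k ∈ N ↔ π (τ k) = 1 ∧ k ^ n = 1 := fun k => Iff.rfl
  have hNn : N.Normal := by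
    refine ⟨fun k hk g => ?_⟩
    rw [← hcen k ((hNmem k).1 hk).1 g, mul_inv_cancel_right]
    exact hk
  let ρ : X →* G := π.comp τ
  let τ' : X ⧸ N →* G := QuotientGroup.lift N ρ (fun x hx => ((hNmem x).1 hx).1)
  have hτ' : ∀ x : X, τ' (QuotientGroup.mk x) = π (τ x) := fun x => rfl
  -- `p`-th powers of elements of the kernel lie in `N`
  have hpN : ∀ x : X, π (τ x) = 1 → x ^ p ∈ N := by
    intro x hx
    rw [hNmem]
    refine ⟨by rw [map_pow, map_pow, hx, one_pow], ?_⟩
    have h1 : τ (x ^ n) = 1 := by rw [map_pow, (hπk (τ x) hx).2]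
    rw [← pow_mul, mul_comm, pow_mul]
    exact (hker _ h1).2
  have h1 : ∀ x : X ⧸ N, τ' x = 1 → x = 1 := by
    apply H (X ⧸ N) τ'
    · intro g
      obtain ⟨y, rfl⟩ := hπ g
      obtain ⟨x, rfl⟩ := hτ y
      exact ⟨QuotientGroup.mk x, rfl⟩
    · intro x hx
      induction x using QuotientGroup.induction_on with
      | H x =>
        rw [hτ'] at hx
        constructor
        · rw [Subgroup.mem_center_iff]
          intro g
          induction g using QuotientGroup.induction_on with
          | H g =>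
            rw [← QuotientGroup.mk_mul, ← QuotientGroup.mk_mul, hcen x hx g]
        · rw [← QuotientGroup.mk_pow, QuotientGroup.eq_one_iff]
          exact hpN x hx
    · intro x hx
      induction x using QuotientGroup.induction_on with
      | H x =>
        have hx' : π (τ x) = 1 := by rw [← hτ']; exact MonoidHom.mem_ker.1 hx
        obtain ⟨m, -, hm⟩ := Nat.exists_mul_mod_eq_one_of_coprime hnp hp.one_lt
        have hnm : n * m = p * (n * m / p) + 1 := by
          have := Nat.div_add_mod (n * m) p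
          omega
        have hxn : x ^ n ∈ commutator X :=
          hd (MonoidHom.mem_ker.2 (by rw [map_pow, (hπk (τ x) hx').2]))
        have h2 : (x ^ n) ^ m ∈ commutator X := Subgroup.pow_mem _ hxn m
        have h3 : (QuotientGroup.mk' N) ((x ^ n) ^ m) ∈
            (commutator X).map (QuotientGroup.mk' N) := Subgroup.mem_map_of_mem _ h2
        rw [commutator_def, Subgroup.map_commutator, ← MonoidHom.range_eq_map,
          MonoidHom.range_eq_top.2 (QuotientGroup.mk'_surjective N)] at h3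
        have h4 : (QuotientGroup.mk ((x ^ n) ^ m) : X ⧸ N) = QuotientGroup.mk x := by
          rw [← pow_mul, hnm, pow_succ, pow_mul, QuotientGroup.mk_mul,
            (QuotientGroup.eq_one_iff _).2 (Subgroup.pow_mem _ (hpN x hx') _), one_mul]
        rw [← h4]
        exact h3
  intro x hx
  have h2 : (QuotientGroup.mk x : X ⧸ N) = 1 := h1 _ (by rw [hτ', hx, map_one])
  have h3 : x ∈ N := (QuotientGroup.eq_one_iff x).1 h2
  exact one_of x ((hNmem x).1 h3).2 (hker x hx).2

/-- The kernel of a cover with a central element of order `m` in the kernel and at most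
`m * |G|` elements is central of exponent `m`. -/
theorem ker_of_cyclic {G Γ₀ : Type*} [Group G] [Finite G] [Group Γ₀] [Finite Γ₀]
    (π : Γ₀ →* G) (hπ : Function.Surjective π) (m : ℕ)
    (hcard : Nat.card Γ₀ ∣ m * Nat.card G)
    (ζ : Γ₀) (hζker : π ζ = 1) (hζord : orderOf ζ = m) (hζc : ∀ x, ζ * x = x * ζ) :
    ∀ y, π y = 1 → y ∈ center Γ₀ ∧ y ^ m = 1 := by
  have h1 := card_ker_mul π hπ
  have hle : zpowers ζ ≤ π.ker := by
    rw [zpowers_le]; exact MonoidHom.mem_ker.2 hζker
  have hz : Nat.card (zpowers ζ) = m := by rw [Nat.card_zpowers, hζord]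
  have h2 : m ∣ Nat.card π.ker := hz ▸ Subgroup.card_dvd_of_le hle
  have h3 : Nat.card π.ker ∣ m := by
    have : Nat.card π.ker * Nat.card G ∣ m * Nat.card G := by rw [h1]; exact hcard
    exact Nat.dvd_of_mul_dvd_mul_right Nat.card_pos this
  have h4 : Nat.card π.ker = m := Nat.dvd_antisymm h3 h2
  have heq : zpowers ζ = π.ker :=
    Subgroup.eq_of_le_of_card_ge hle (by rw [hz, h4])
  intro y hy
  have hy' : y ∈ zpowers ζ := by rw [heq]; exact MonoidHom.mem_ker.2 hy
  obtain ⟨k, rfl⟩ := Subgroup.mem_zpowers_iff.1 hy'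
  constructor
  · rw [Subgroup.mem_center_iff]
    intro x
    have hc : Commute ζ x := hζc x
    exact (hc.zpow_left k).eq.symm
  · rw [← zpow_natCast, ← zpow_mul, mul_comm, zpow_mul, zpow_natCast, ← hζord, pow_orderOf_eq_one,
      one_zpow]

end Stem

namespace Lift

open scoped commutatorElement

variable {X G : Type*} [Group X] [Group G]

/-- If the kernel lies in the commutator subgroup and a subgroup `Y` with `τ Y = G` has order
dividing `c * |G|` with `c` prime to `p`, then `τ` is injective. -/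
theorem ker_trivial_of_lifts_p [Finite X] [Finite G] (p c : ℕ) (hp : p.Prime)
    (hcp : Nat.Coprime c p) (τ : X →* G)
    (hker : ∀ x, τ x = 1 → x ∈ center X ∧ x ^ p = 1) (hd : τ.ker ≤ commutator X)
    (Y : Subgroup X) (hY : Y.map τ = ⊤) (hcard : Nat.card Y ∣ c * Nat.card G) :
    ∀ x, τ x = 1 → x = 1 := by
  have hdec : ∀ x : X, ∃ y ∈ Y, ∃ z ∈ center X, x = y * z := by
    intro x
    have h1 : τ x ∈ Y.map τ := by rw [hY]; trivial
    obtain ⟨y, hy, hyx⟩ := h1
    refine ⟨y, hy, y⁻¹ * x, (hker _ ?_).1, by group⟩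
    rw [map_mul, map_inv, hyx, inv_mul_cancel]
  have hcomm : commutator X ≤ Y := by
    rw [commutator_eq_closure, closure_le]
    rintro _ ⟨l₁, l₂, rfl⟩
    obtain ⟨t₁, ht₁, z₁, hz₁, rfl⟩ := hdec l₁
    obtain ⟨t₂, ht₂, z₂, hz₂, rfl⟩ := hdec l₂
    have c₁ := Subgroup.mem_center_iff.1 hz₁
    have c₂ := Subgroup.mem_center_iff.1 hz₂
    have e : ⁅t₁ * z₁, t₂ * z₂⁆ = ⁅t₁, t₂⁆ := by
      rw [commutatorElement_def, commutatorElement_def]
      have e1 : ∀ w : X, t₁ * z₁ * w * (t₁ * z₁)⁻¹ = t₁ * w * t₁⁻¹ := by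
        intro w
        calc t₁ * z₁ * w * (t₁ * z₁)⁻¹ = t₁ * (z₁ * w) * z₁⁻¹ * t₁⁻¹ := by group
          _ = t₁ * (w * z₁) * z₁⁻¹ * t₁⁻¹ := by rw [c₁ w]
          _ = t₁ * w * t₁⁻¹ := by group
      have e2 : ∀ v : X, t₁ * (t₂ * z₂) * v * (t₂ * z₂)⁻¹ = t₁ * t₂ * v * t₂⁻¹ := by
        intro v
        calc t₁ * (t₂ * z₂) * v * (t₂ * z₂)⁻¹ = t₁ * t₂ * (z₂ * v) * z₂⁻¹ * t₂⁻¹ := by group
          _ = t₁ * t₂ * (v * z₂) * z₂⁻¹ * t₂⁻¹ := by rw [c₂ v]
          _ = t₁ * t₂ * v * t₂⁻¹ := by group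
      rw [e1, e2]
    rw [SetLike.mem_coe, e, commutatorElement_def]
    exact Y.mul_mem (Y.mul_mem (Y.mul_mem ht₁ ht₂) (Y.inv_mem ht₁)) (Y.inv_mem ht₂)
  intro x hx
  by_contra hx1
  have : Fact p.Prime := ⟨hp⟩
  have hxY : x ∈ Y := hcomm (hd (MonoidHom.mem_ker.2 hx))
  let f : Y →* Y.map τ := τ.subgroupMap Y
  have hsurj : Function.Surjective f := τ.subgroupMap_surjective Y
  have h1 : Nat.card f.ker * Nat.card (Y.map τ) = Nat.card Y := Stem.card_ker_mul f hsurj
  have h2 : Nat.card (Y.map τ) = Nat.card G := by rw [hY, Subgroup.card_top]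
  have hxk : (⟨x, hxY⟩ : Y) ∈ f.ker := by
    rw [MonoidHom.mem_ker]
    apply Subtype.ext
    exact hx
  have hord : orderOf (⟨x, hxY⟩ : Y) = p := by
    rw [Subgroup.orderOf_mk]
    exact orderOf_eq_prime (hker x hx).2 hx1
  have h3 : p ∣ Nat.card f.ker := by
    have h4 := orderOf_dvd_natCard (⟨⟨x, hxY⟩, hxk⟩ : f.ker)
    rwa [Subgroup.orderOf_mk, hord] at h4
  have h5 : Nat.card f.ker ∣ c := by
    have : Nat.card f.ker * Nat.card G ∣ c * Nat.card G := by
      rw [← h2, h1]; rw [h2]; exact hcard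
    exact Nat.dvd_of_mul_dvd_mul_right Nat.card_pos this
  have h6 : p ∣ c := h3.trans h5
  have h7 : p ∣ Nat.gcd c p := Nat.dvd_gcd h6 dvd_rfl
  rw [Nat.Coprime.gcd_eq_one hcp] at h7
  exact hp.one_lt.ne' (Nat.dvd_one.1 h7)

end Lift

namespace Chain

section
variable {G X : Type*} [Group G] [Group X]

/-- The relator `u a u⁻¹ b`. -/
def cxForm (u : List ℕ) (a b : ℕ) : List ℕ := u ++ a :: (CT2.invw u ++ [b])

/-- Check that a word has the form `u a u⁻¹ b`. -/
def cxOK (w : List ℕ) : Bool :=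
  decide (w = cxForm (w.take ((w.length - 2) / 2)) (w.getD ((w.length - 2) / 2) 0)
    (w.getD (w.length - 1) 0))

/-- A relator of conjugation type between elements of order prime to `p` lifts to a central
extension with kernel of exponent `p`. -/
theorem ev_cxForm_lift (τ : X →* G) (p N : ℕ) (hNp : Nat.Coprime N p)
    (hker : ∀ x, τ x = 1 → x ∈ center X ∧ x ^ p = 1)
    (g : ℕ → X) (gG : ℕ → G) (hinv : ∀ j, g j * g (CT2.iv j) = 1) (hg : ∀ j, τ (g j) = gG j)
    (hN : ∀ j, g j ^ N = 1) (u : List ℕ) (a b : ℕ) (h : ev gG (cxForm u a b) = 1) :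
    ev g (cxForm u a b) = 1 := by
  set k : X := ev g (cxForm u a b) with hk
  have hτk : τ k = 1 := by rw [hk, Lift.map_ev' τ g gG hg, h]
  obtain ⟨hk1, hk2⟩ := hker k hτk
  have hkc : ∀ y, k * y = y * k := fun y => (Subgroup.mem_center_iff.1 hk1 y).symm
  have hkeq : k = ev g u * g a * (ev g u)⁻¹ * g b := by
    rw [hk, cxForm, ev_append]
    show ev g u * (g a * ev g (CT2.invw u ++ [b])) = _
    rw [ev_append, CT2.ev_invw g hinv]
    show ev g u * (g a * ((ev g u)⁻¹ * (g b * 1))) = _
    rw [mul_one]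
    group
  have hy : ev g u * g a * (ev g u)⁻¹ = k * (g b)⁻¹ := by rw [hkeq]; group
  have h1 : (ev g u * g a * (ev g u)⁻¹) ^ N = 1 := by
    rw [conj_pow, hN, mul_one, mul_inv_cancel]
  rw [hy] at h1
  have hcomm : Commute k (g b)⁻¹ := hkc _
  rw [hcomm.mul_pow, inv_pow, hN, inv_one, mul_one] at h1
  have h3 : k ^ Nat.gcd N p = 1 := pow_gcd_eq_one.2 ⟨h1, hk2⟩
  rwa [Nat.Coprime.gcd_eq_one hNp, pow_one] at h3

/-- Lifts of a list of elements, preserving orders prime to `p`. -/
theorem exists_lifts_p [Finite G] (p : ℕ) (hp : p.Prime) (τ : X →* G)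
    (hτ : Function.Surjective τ) (hker : ∀ x, τ x = 1 → x ∈ center X ∧ x ^ p = 1) :
    ∀ l : List G, ∃ l' : List X, l'.map τ = l ∧
      ∀ i o, Nat.Coprime o p → (l.getD i 1) ^ o = 1 → (l'.getD i 1) ^ o = 1 := by
  have hx : ∀ s : G, ∃ x' : X, τ x' = s ∧ ∀ o, Nat.Coprime o p → s ^ o = 1 → x' ^ o = 1 := by
    intro s
    obtain ⟨x, rfl⟩ := hτ s
    by_cases hco : Nat.Coprime (orderOf (τ x)) p
    · obtain ⟨m, -, hm⟩ := Nat.exists_mul_mod_eq_one_of_coprime hco hp.one_lt
      set o₀ := orderOf (τ x) with ho₀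
      have hom : o₀ * m = p * (o₀ * m / p) + 1 := by
        have := Nat.div_add_mod (o₀ * m) p
        omega
      have hz : (x ^ o₀) ^ p = 1 :=
        (hker (x ^ o₀) (by rw [map_pow, ho₀, pow_orderOf_eq_one])).2
      have hτz : τ (x ^ o₀) = 1 := by rw [map_pow, ho₀, pow_orderOf_eq_one]
      refine ⟨x * ((x ^ o₀) ^ m)⁻¹, by rw [map_mul, map_inv, map_pow, hτz, one_pow, inv_one,
        mul_one], ?_⟩
      intro o _ ho
      obtain ⟨c, hc⟩ := orderOf_dvd_of_pow_eq_one ho
      have hcomm : Commute x ((x ^ o₀) ^ m)⁻¹ :=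
        (((Commute.refl x).pow_right o₀).pow_right m).inv_right
      have h1 : (x * ((x ^ o₀) ^ m)⁻¹) ^ o₀ = 1 := by
        rw [hcomm.mul_pow, inv_pow, ← pow_mul (x ^ o₀) m o₀, mul_comm m o₀, hom, pow_succ,
          pow_mul, hz, one_pow, one_mul, mul_inv_cancel]
      rw [hc, pow_mul, h1, one_pow]
    · refine ⟨x, rfl, fun o ho1 ho => ?_⟩
      exact absurd (Nat.Coprime.coprime_dvd_left (orderOf_dvd_of_pow_eq_one ho) ho1) hco
  intro l
  induction l with
  | nil => exact ⟨[], rfl, fun i o _ _ => by simp⟩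
  | cons s l ih =>
    obtain ⟨l', hl', hpw⟩ := ih
    obtain ⟨x', hx1, hx2⟩ := hx s
    refine ⟨x' :: l', by rw [List.map_cons, hx1, hl'], ?_⟩
    intro i o ho h
    cases i with
    | zero => exact hx2 o ho h
    | succ i => exact hpw i o ho h

/-- A central extension with kernel of exponent `p` inside the commutator subgroup of a group
generated by elements of order prime to `p` satisfying relators of conjugation type, with a chain
certificate for these relators of total index `c * |G|`, `c` prime to `p`, is trivial. -/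
theorem p_of_chain [Finite G] [Finite X] (p N c : ℕ) (hp : p.Prime) (hNp : Nat.Coprime N p)
    (hcp : Nat.Coprime c p) (l : List G) (E : List (List ℕ)) (ps : List (ℕ × ℕ)) (Ls : List LD)
    (hps : ∀ q ∈ ps, q.2 ∣ N) (hN : ∀ i, (l.getD i 1) ^ N = 1)
    (hEok : ∀ w ∈ E, w ∈ powW ps ∨ cxOK w = true)
    (hvalid : ∀ d ∈ Ls, d.Valid) (hchain : Chained E [] 0 Ls) (hws : ∀ d ∈ Ls, d.ws = [])
    (hcard : prodN Ls = c * Nat.card G) (hgen : closure (gl l '' Set.Iio (lastK 0 Ls)) = ⊤)
    (hE : ∀ w ∈ E, ev (gl l) w = 1)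
    (τ : X →* G) (hτ : Function.Surjective τ)
    (hker : ∀ x, τ x = 1 → x ∈ center X ∧ x ^ p = 1) (hd : τ.ker ≤ commutator X) :
    ∀ x, τ x = 1 → x = 1 := by
  obtain ⟨l', hl', hpw⟩ := exists_lifts_p p hp τ hτ hker l
  have hg : ∀ j, τ (gl l' j) = gl l j := by
    intro j
    rw [map_gl, hl']
  have hN' : ∀ j, gl l' j ^ N = 1 := by
    intro j
    unfold gl
    split
    · exact hpw _ N hNp (hN _)
    · rw [inv_pow, hpw _ N hNp (hN _), inv_one]
  have hE' : ∀ w ∈ E, ev (gl l') w = 1 := by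
    intro w hw
    rcases hEok w hw with h | h
    · obtain ⟨q, hqm, rfl⟩ := List.mem_map.1 h
      have h1 := hE _ hw
      rw [ev_replicate, gl_two_mul] at h1 ⊢
      exact hpw q.1 q.2 (Nat.Coprime.coprime_dvd_left (hps q hqm) hNp) h1
    · have h1 := of_decide_eq_true h
      have h2 := hE w hw
      rw [h1] at h2 ⊢
      exact ev_cxForm_lift τ p N hNp hker (gl l') (gl l) (gl_inv _) hg hN' _ _ _ h2
  have h0 : Nat.card (closure (gl l' '' Set.Iio 0)) = 1 := by
    have : (gl l' '' Set.Iio 0) = ∅ := by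
      ext x; simp
    rw [this, Subgroup.closure_empty, Subgroup.card_bot]
  have hX := gchain (gl l') (gl_inv _) E hE' Ls [] 0 hvalid hchain (by simp)
    (fun d hd w hw => by rw [hws d hd] at hw; exact absurd hw (by simp))
  rw [h0, mul_one, hcard] at hX
  exact Lift.ker_trivial_of_lifts_p p c hp hcp τ hker hd (closure (gl l' '' Set.Iio (lastK 0 Ls)))
    (by rw [Lift.map_closure_image τ _ _ hg, hgen]) hX

end

end Chain

end Cfsg.Agent.Helper89
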