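import Cfsg.Agent.Helper89.MathieuTwo
import Cfsg.Agent.Helper89.Stem

/-!
# Chains of labelled coset enumerations, generic form (helper89)

A chain is a list of level certificates `Chain.LD` (labelled coset tables, see `Level.level`).
The exact relators are power relators `g_i ^ o = 1` with `o` odd (`Chain.powW`); level `i` may use
as exact relators the power relators and the relators of the earlier levels.

* `Chain.card_dvd`: a group generated by elements satisfying all the relators has order dividing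
  the product of the numbers of rows.
* `Chain.two_of_chain`: if `G` has exactly that order, then a central extension of `G` with
  kernel of exponent 2 inside the commutator subgroup is trivial.
* `Chain.two_universal`: hence no stem extension of `G` has a kernel of even order.
-/

set_option autoImplicit false

namespace Cfsg.Agent.Helper89.Chain

open Subgroup

/-- The data of one level. -/
structure LD where
  n : ℕ
  k : ℕ
  k₀ : ℕ
  T : ℕ → ℕ → ℕ
  Lb : ℕ → ℕ → ℕ
  par : ℕ → ℕ
  gam : ℕ → ℕ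
  S : List ℕ
  ex : List (List ℕ)
  ws : List (List ℕ)
  steps : List (ℕ × ℕ × ℕ)
  E₀ : ℕ
  cl : List (List (ℕ × ℕ))

/-- The certificate checks of one level. -/
def LD.Valid (d : LD) : Prop :=
  LT.preChk d.n d.k d.T d.Lb d.par d.gam d.S = some d.E₀ ∧
  LT.runSteps d.T d.Lb d.k (Level.relsOf d.ex d.ws) d.E₀ d.steps = some (2 ^ (d.n * d.k) - 1) ∧
  Level.closeAll d.T d.Lb d.k d.n (Level.relsOf d.ex d.ws) d.cl d.ws.length = true ∧
  (∀ j ∈ d.S, j < d.k₀) ∧ d.k₀ ≤ d.k ∧ 0 < d.n

/-- The levels fit together: each level sits over the previous one, and its exact relators are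
among the global exact relators `E` and the relators `pw` of the earlier levels. -/
def Chained (E : List (List ℕ)) : List (List ℕ) → ℕ → List LD → Prop
  | _, _, [] => True
  | pw, k, d :: Ls => d.k₀ = k ∧ (∀ w ∈ d.ex, w ∈ E ∨ w ∈ pw) ∧ Chained E (pw ++ d.ws) d.k Ls

/-- The number of symbols of the last level. -/
def lastK : ℕ → List LD → ℕ
  | k, [] => k
  | _, d :: Ls => lastK d.k Ls

/-- The product of the numbers of rows. -/
def prodN : List LD → ℕ
  | [] => 1
  | d :: Ls => d.n * prodN Ls

theorem prodN_pos : ∀ Ls : List LD, (∀ d ∈ Ls, d.Valid) → 0 < prodN Ls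
  | [], _ => Nat.one_pos
  | d :: Ls, h => Nat.mul_pos (h d List.mem_cons_self).2.2.2.2.2
      (prodN_pos Ls fun d' hd' => h d' (List.mem_cons_of_mem _ hd'))

/-- Power relators: `(i, o)` stands for `g_i ^ o = 1`. -/
def powW (ps : List (ℕ × ℕ)) : List (List ℕ) := ps.map fun p => List.replicate p.2 (2 * p.1)

section
variable {G X : Type*} [Group G] [Group X]

/-- A group generated by elements satisfying all relators: bound on the order. -/
theorem gchain [Finite G] (g : ℕ → G) (hinv : ∀ j, g j * g (CT2.iv j) = 1)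
    (E : List (List ℕ)) (hE : ∀ w ∈ E, ev g w = 1) :
    ∀ (Ls : List LD) (pw : List (List ℕ)) (k : ℕ), (∀ d ∈ Ls, d.Valid) → Chained E pw k Ls →
      (∀ w ∈ pw, ev g w = 1) → (∀ d ∈ Ls, ∀ w ∈ d.ws, ev g w = 1) →
      Nat.card (closure (g '' Set.Iio (lastK k Ls))) ∣
        prodN Ls * Nat.card (closure (g '' Set.Iio k)) := by
  intro Ls
  induction Ls with
  | nil =>
    intro pw k _ _ _ _
    simp [lastK, prodN]
  | cons d Ls ih =>
    intro pw k hv hc hpw hW
    obtain ⟨hk0, hex, hrest⟩ := hc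
    obtain ⟨hpre, hrun, hcl, hS, hk, _⟩ := hv d List.mem_cons_self
    have hWd := hW d List.mem_cons_self
    have hE' : ∀ w ∈ d.ex, ev g w = 1 := by
      intro w hw
      rcases hex w hw with h | h
      · exact hE w h
      · exact hpw w h
    obtain ⟨_, h2⟩ := Level.level g hinv ⊥ Mathieu.bot_c Mathieu.bot_s d.n d.k d.k₀ d.T d.Lb
      d.par d.gam d.S d.ex d.ws d.steps d.E₀ d.cl hpre hrun hcl hS hk hE'
      (Mathieu.mem_bot_of g hWd) (fun c _ hc => Subgroup.mem_bot.1 hc)
    rw [hk0] at h2
    have h3 := ih (pw ++ d.ws) d.k (fun d' hd' => hv d' (List.mem_cons_of_mem _ hd')) hrest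
      (by
        intro w hw
        rcases List.mem_append.1 hw with h | h
        · exact hpw w h
        · exact hWd w h)
      (fun d' hd' => hW d' (List.mem_cons_of_mem _ hd'))
    show Nat.card (closure (g '' Set.Iio (lastK d.k Ls))) ∣
      d.n * prodN Ls * Nat.card (closure (g '' Set.Iio k))
    refine h3.trans ?_
    have := Nat.mul_dvd_mul_left (prodN Ls) h2
    rwa [← mul_assoc, mul_comm (prodN Ls) d.n] at this

/-- The side of the central extension. -/
theorem xchain [Finite X] [Finite G] (τ : X →* G)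
    (hker : ∀ x, τ x = 1 → x ∈ center X ∧ x * x = 1) (g : ℕ → X) (gG : ℕ → G)
    (hinv : ∀ j, g j * g (CT2.iv j) = 1) (hinvG : ∀ j, gG j * gG (CT2.iv j) = 1)
    (hg : ∀ j, τ (g j) = gG j)
    (E : List (List ℕ)) (hE : ∀ w ∈ E, ev g w = 1) :
    ∀ (Ls : List LD) (pw : List (List ℕ)) (k N : ℕ), (∀ d ∈ Ls, d.Valid) → Chained E pw k Ls →
      (∀ w ∈ pw, ev g w = 1) → (∀ d ∈ Ls, ∀ w ∈ d.ws, ev gG w = 1) →
      Nat.card (closure (g '' Set.Iio k)) ∣ N → 0 < N →
      N * prodN Ls ∣ Nat.card (closure (gG '' Set.Iio (lastK k Ls))) →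
      Nat.card (closure (g '' Set.Iio (lastK k Ls))) ∣ N * prodN Ls := by
  have hEG : ∀ w ∈ E, ev gG w = 1 := fun w hw => by
    rw [← Lift.map_ev' τ g gG hg, hE w hw, map_one]
  intro Ls
  induction Ls with
  | nil =>
    intro pw k N _ _ _ _ h _ _
    simpa [lastK, prodN] using h
  | cons d Ls ih =>
    intro pw k N hv hc hpw hW hcard hN htop
    have hc' := hc
    obtain ⟨hk0, hex, hrest⟩ := hc
    obtain ⟨hpre, hrun, hcl, hS, hk, hn⟩ := hv d List.mem_cons_self
    have hWd := hW d List.mem_cons_self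
    have hpwG : ∀ w ∈ pw, ev gG w = 1 := fun w hw => by
      rw [← Lift.map_ev' τ g gG hg, hpw w hw, map_one]
    -- the order of the subgroup of `G` at this level is a multiple of `N`
    have hG := gchain gG hinvG E hEG (d :: Ls) pw k hv hc' hpwG hW
    have hP : 0 < prodN (d :: Ls) := prodN_pos _ hv
    have hNdvd : N ∣ Nat.card (closure (gG '' Set.Iio k)) := by
      have h1 : prodN (d :: Ls) * N ∣
          prodN (d :: Ls) * Nat.card (closure (gG '' Set.Iio k)) := by
        rw [mul_comm (prodN (d :: Ls)) N]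
        exact htop.trans hG
      exact Nat.dvd_of_mul_dvd_mul_left hP h1
    have hinj := Mathieu.inj_level τ hker g gG hinv hg k N hcard hN hNdvd
    have hE' : ∀ w ∈ d.ex, ev g w = 1 := by
      intro w hw
      rcases hex w hw with h | h
      · exact hE w h
      · exact hpw w h
    obtain ⟨h1, h2⟩ := Level.level g hinv τ.ker (Mathieu.kc τ hker g gG hinv hg)
      (Mathieu.ks τ hker g gG hinv hg) d.n d.k d.k₀ d.T d.Lb d.par d.gam d.S d.ex d.ws d.steps
      d.E₀ d.cl hpre hrun hcl hS hk hE' (Mathieu.mem_ker_of τ hker g gG hinv hg hWd)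
      (by rw [hk0]; exact hinj)
    rw [hk0] at h2
    have h3 : Nat.card (closure (g '' Set.Iio d.k)) ∣ N * d.n := by
      refine h2.trans ?_
      rw [mul_comm N d.n]
      exact Nat.mul_dvd_mul_left d.n hcard
    have h4 := ih (pw ++ d.ws) d.k (N * d.n)
      (fun d' hd' => hv d' (List.mem_cons_of_mem _ hd')) hrest
      (by
        intro w hw
        rcases List.mem_append.1 hw with h | h
        · exact hpw w h
        · exact h1 w h)
      (fun d' hd' => hW d' (List.mem_cons_of_mem _ hd')) h3 (Nat.mul_pos hN hn)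
      (by
        have : N * d.n * prodN Ls = N * prodN (d :: Ls) := by
          show N * d.n * prodN Ls = N * (d.n * prodN Ls)
          rw [mul_assoc]
        rw [this]; exact htop)
    show Nat.card (closure (g '' Set.Iio (lastK d.k Ls))) ∣ N * (d.n * prodN Ls)
    rw [← mul_assoc]
    exact h4

theorem gl_two_mul (l : List G) (i : ℕ) : gl l (2 * i) = l.getD i 1 := by
  unfold gl
  rw [if_pos (by omega)]
  congr 1
  omega

/-- Lifts of a list of elements, preserving odd orders. -/
theorem exists_lifts [Finite G] (τ : X →* G) (hτ : Function.Surjective τ)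
    (hker : ∀ x, τ x = 1 → x ∈ center X ∧ x * x = 1) :
    ∀ l : List G, ∃ l' : List X, l'.map τ = l ∧
      ∀ i o, Odd o → (l.getD i 1) ^ o = 1 → (l'.getD i 1) ^ o = 1 := by
  intro l
  induction l with
  | nil => exact ⟨[], rfl, fun i o _ _ => by simp⟩
  | cons x l ih =>
    obtain ⟨l', hl', hp⟩ := ih
    have hx : ∃ x' : X, τ x' = x ∧ ∀ o, Odd o → x ^ o = 1 → x' ^ o = 1 := by
      by_cases hodd : Odd (orderOf x)
      · obtain ⟨x', h1, h2⟩ := Lift.exists_odd_lift τ hτ hker hodd (pow_orderOf_eq_one x)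
        refine ⟨x', h1, fun o _ ho => ?_⟩
        obtain ⟨c, hc⟩ := orderOf_dvd_of_pow_eq_one ho
        rw [hc, pow_mul, h2, one_pow]
      · obtain ⟨x', h1⟩ := hτ x
        refine ⟨x', h1, fun o ho1 ho => ?_⟩
        exfalso
        apply hodd
        obtain ⟨c, hc⟩ := orderOf_dvd_of_pow_eq_one ho
        rw [hc] at ho1
        exact (Nat.odd_mul.1 ho1).1
    obtain ⟨x', hx1, hx2⟩ := hx
    refine ⟨x' :: l', by rw [List.map_cons, hx1, hl'], ?_⟩
    intro i o ho h
    cases i with
    | zero => exact hx2 o ho h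
    | succ i => exact hp i o ho h

/-- A central extension with kernel of exponent 2 inside the commutator subgroup of a group
with a chain certificate is trivial. -/
theorem two_of_chain [Finite G] [Finite X] (l : List G) (ps : List (ℕ × ℕ)) (Ls : List LD)
    (hps : ∀ p ∈ ps, Odd p.2) (hvalid : ∀ d ∈ Ls, d.Valid) (hchain : Chained (powW ps) [] 0 Ls)
    (hcard : Nat.card G = prodN Ls) (hgen : closure (gl l '' Set.Iio (lastK 0 Ls)) = ⊤)
    (hE : ∀ w ∈ powW ps, ev (gl l) w = 1) (hW : ∀ d ∈ Ls, ∀ w ∈ d.ws, ev (gl l) w = 1)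
    (τ : X →* G) (hτ : Function.Surjective τ)
    (hker : ∀ x, τ x = 1 → x ∈ center X ∧ x * x = 1) (hd : τ.ker ≤ commutator X) :
    ∀ x, τ x = 1 → x = 1 := by
  obtain ⟨l', hl', hp⟩ := exists_lifts τ hτ hker l
  have hg : ∀ j, τ (gl l' j) = gl l j := by
    intro j
    rw [map_gl, hl']
  have hE' : ∀ w ∈ powW ps, ev (gl l') w = 1 := by
    intro w hw
    obtain ⟨p, hpm, rfl⟩ := List.mem_map.1 hw
    have h1 := hE _ hw
    rw [ev_replicate, gl_two_mul] at h1 ⊢
    exact hp p.1 p.2 (hps p hpm) h1
  have h0 : Nat.card (closure (gl l' '' Set.Iio 0)) ∣ 1 := by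
    have : (gl l' '' Set.Iio 0) = ∅ := by
      ext x; simp
    rw [this, Subgroup.closure_empty, Subgroup.card_bot]
  have hX := xchain τ hker (gl l') (gl l) (gl_inv _) (gl_inv _) hg (powW ps) hE' Ls [] 0 1
    hvalid hchain (by simp) hW h0 Nat.one_pos
    (by rw [one_mul, hgen, Subgroup.card_top, hcard])
  rw [one_mul] at hX
  exact Lift.ker_trivial_of_lifts τ hker hd (closure (gl l' '' Set.Iio (lastK 0 Ls)))
    (by rw [Lift.map_closure_image τ _ _ hg, hgen])
    (by rw [hcard]; exact Nat.le_of_dvd (prodN_pos Ls hvalid) hX)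

/-- Bound on the order of a group generated by elements satisfying the relators of a chain. -/
theorem card_dvd [Finite G] (l : List G) (ps : List (ℕ × ℕ)) (Ls : List LD)
    (hvalid : ∀ d ∈ Ls, d.Valid) (hchain : Chained (powW ps) [] 0 Ls)
    (hE : ∀ w ∈ powW ps, ev (gl l) w = 1) (hW : ∀ d ∈ Ls, ∀ w ∈ d.ws, ev (gl l) w = 1) :
    Nat.card (closure (gl l '' Set.Iio (lastK 0 Ls))) ∣ prodN Ls := by
  have h := gchain (gl l) (gl_inv _) (powW ps) hE Ls [] 0 hvalid hchain (by simp) hW
  have h0 : Nat.card (closure (gl l '' Set.Iio 0)) = 1 := by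
    have : (gl l '' Set.Iio 0) = ∅ := by
      ext x; simp
    rw [this, Subgroup.closure_empty, Subgroup.card_bot]
  rwa [h0, mul_one] at h

end

universe u

/-- No stem extension of a group with a chain certificate has a kernel of even order. -/
theorem two_universal {G : Type u} [Group G] [Finite G] (l : List G) (ps : List (ℕ × ℕ))
    (Ls : List LD) (hps : ∀ p ∈ ps, Odd p.2) (hvalid : ∀ d ∈ Ls, d.Valid)
    (hchain : Chained (powW ps) [] 0 Ls) (hcard : Nat.card G = prodN Ls)
    (hgen : closure (gl l '' Set.Iio (lastK 0 Ls)) = ⊤)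
    (hE : ∀ w ∈ powW ps, ev (gl l) w = 1) (hW : ∀ d ∈ Ls, ∀ w ∈ d.ws, ev (gl l) w = 1)
    (X : Type u) [Group X] [Finite X] (τ : X →* G) (hτ : Function.Surjective τ)
    (hc : τ.ker ≤ center X) (hd : τ.ker ≤ commutator X) : ¬ 2 ∣ Nat.card τ.ker :=
  Stem.two_not_dvd_card_ker τ hτ hc hd (fun _ _ _ τ' hτ' hker hd' =>
    two_of_chain l ps Ls hps hvalid hchain hcard hgen hE hW τ' hτ' hker hd')

end Cfsg.Agent.Helper89.Chain
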