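import Cfsg.Agent.Helper89.StemCover2
import Cfsg.Agent.Helper89.ChainGen

/-!
# Covers as subgroups of a product generated by pairs (helper89)

`CP.cov gs qs` is the subgroup of `G₀ × Q` generated by the pairs `(gs[i], qs[i])`, with its
generators `CP.gens gs qs` and the two projections.
-/

set_option autoImplicit false

namespace Cfsg.Agent.Helper89.CP

open Subgroup

variable {G₀ Q : Type*} [Group G₀] [Group Q]

/-- The subgroup generated by the pairs. -/
def cov (gs : List G₀) (qs : List Q) : Subgroup (G₀ × Q) := closure {x | x ∈ List.zip gs qs}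

/-- The generators, as elements of the subgroup. -/
def gens (gs : List G₀) (qs : List Q) : List ↥(cov gs qs) :=
  (List.zip gs qs).attach.map fun x => ⟨x.1, subset_closure x.2⟩

/-- First projection. -/
def covπ (gs : List G₀) (qs : List Q) : ↥(cov gs qs) →* G₀ :=
  (MonoidHom.fst _ _).comp (cov gs qs).subtype

/-- Second projection. -/
def covρ (gs : List G₀) (qs : List Q) : ↥(cov gs qs) →* Q :=
  (MonoidHom.snd _ _).comp (cov gs qs).subtype

variable (gs : List G₀) (qs : List Q)

theorem map_subtype_gens : (gens gs qs).map (cov gs qs).subtype = List.zip gs qs := by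
  unfold gens
  rw [List.map_map]
  exact List.attach_map_subtype_val _

theorem map_π_gens (hlen : gs.length = qs.length) : (gens gs qs).map (covπ gs qs) = gs := by
  have : (gens gs qs).map (covπ gs qs) =
      ((gens gs qs).map (cov gs qs).subtype).map (MonoidHom.fst G₀ Q) := by
    rw [List.map_map]; rfl
  rw [this, map_subtype_gens]
  exact List.map_fst_zip (le_of_eq hlen)

theorem map_ρ_gens (hlen : gs.length = qs.length) : (gens gs qs).map (covρ gs qs) = qs := by
  have : (gens gs qs).map (covρ gs qs) =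
      ((gens gs qs).map (cov gs qs).subtype).map (MonoidHom.snd G₀ Q) := by
    rw [List.map_map]; rfl
  rw [this, map_subtype_gens]
  exact List.map_snd_zip (le_of_eq hlen.symm)

theorem π_ev (hlen : gs.length = qs.length) (w : List ℕ) :
    covπ gs qs (ev (gl (gens gs qs)) w) = ev (gl gs) w := by
  rw [map_ev]
  exact ev_congr (fun j => by rw [map_gl, map_π_gens gs qs hlen]) w

theorem ρ_ev (hlen : gs.length = qs.length) (w : List ℕ) :
    covρ gs qs (ev (gl (gens gs qs)) w) = ev (gl qs) w := by
  rw [map_ev]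
  exact ev_congr (fun j => by rw [map_gl, map_ρ_gens gs qs hlen]) w

theorem ev_eq_one (hlen : gs.length = qs.length) (w : List ℕ) (h1 : ev (gl gs) w = 1)
    (h2 : ev (gl qs) w = 1) : ev (gl (gens gs qs)) w = 1 := by
  apply Subtype.ext
  apply Prod.ext
  · exact (π_ev gs qs hlen w).trans h1
  · exact (ρ_ev gs qs hlen w).trans h2

theorem rels_hold (hlen : gs.length = qs.length) (ws : List (List ℕ))
    (h1 : ∀ w ∈ ws, ev (gl gs) w = 1) (h2 : ∀ w ∈ ws, ev (gl qs) w = 1) :
    ∀ w ∈ ws, ev (gl (gens gs qs)) w = 1 := fun w hw =>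
  ev_eq_one gs qs hlen w (h1 w hw) (h2 w hw)

theorem ev_ne_one (hlen : gs.length = qs.length) (w : List ℕ) (h2 : ev (gl qs) w ≠ 1) :
    ev (gl (gens gs qs)) w ≠ 1 := by
  intro h
  apply h2
  rw [← ρ_ev gs qs hlen w, h, map_one]

theorem length_gens (hlen : gs.length = qs.length) : (gens gs qs).length = gs.length := by
  unfold gens
  rw [List.length_map, List.length_attach, List.length_zip, ← hlen, Nat.min_self]

theorem gen_top (hlen : gs.length = qs.length) :
    closure (gl (gens gs qs) '' Set.Iio (2 * gs.length)) = ⊤ := by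
  have h : closure (Subtype.val ⁻¹' {x | x ∈ List.zip gs qs} : Set ↥(cov gs qs)) = ⊤ :=
    Subgroup.closure_closure_coe_preimage
  rw [eq_top_iff, ← h]
  apply Subgroup.closure_mono
  intro x hx
  have hx' : x.1 ∈ List.zip gs qs := hx
  have hxm : x ∈ gens gs qs := by
    unfold gens
    rw [List.mem_map]
    exact ⟨⟨x.1, hx'⟩, List.mem_attach _ _, rfl⟩
  obtain ⟨i, hi, hxi⟩ := List.getElem_of_mem hxm
  refine ⟨2 * i, ?_, ?_⟩
  · rw [length_gens gs qs hlen] at hi
    show 2 * i < 2 * gs.length
    omega
  · rw [Chain.gl_two_mul, List.getD_eq_getElem?_getD, List.getElem?_eq_getElem hi]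
    exact hxi

theorem π_surj (hlen : gs.length = qs.length)
    (hgen : closure (gl gs '' Set.Iio (2 * gs.length)) = ⊤) :
    Function.Surjective (covπ gs qs) := by
  rw [← MonoidHom.range_eq_top, eq_top_iff, ← hgen, closure_le]
  rintro _ ⟨j, _, rfl⟩
  refine ⟨gl (gens gs qs) j, ?_⟩
  rw [map_gl, map_π_gens gs qs hlen]

end Cfsg.Agent.Helper89.CP
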