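import Cfsg.Agent.Helper89.Level

/-!
# Permutations given by labelled coset tables (helper89)

A labelled coset table with `n` rows and labels in `ℤ/m` defines, for every symbol `j`, a map
`(c, a) ↦ (T j c, a + Lb j c)` on `Fin n × Fin m`.  When symbol `iv j` undoes symbol `j`
(`TP.invOK`) these are permutations; `TP.perms` is the list of the permutations attached to the
generators (symbol `2 i` and its inverse `2 i + 1`), arranged so that walking a word through the
table computes the action of the inverse of its value.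

* `TP.ev_eq_one`: a word that returns every row with label `0` evaluates to `1`;
* `TP.ev_ne_one`: a word that moves some `(c, 0)` does not.
-/

set_option autoImplicit false

namespace Cfsg.Agent.Helper89.TP

/-- Packed columns: entry `c` of column `j`, `w` bits per entry. -/
def col (w : ℕ) (cols : List ℕ) (j c : ℕ) : ℕ := (cols.getD j 0 >>> (w * c)) % 2 ^ w

/-- Packed columns, with raw operations: entry `c` of column `j`, `w` bits per entry,
`mask = 2 ^ w - 1`. -/
def colF (w mask : ℕ) (cols : List ℕ) (j c : ℕ) : ℕ :=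
  Nat.land (Nat.shiftRight (cols.getD j 0) (Nat.mul w c)) mask

/-- Evaluate the number `x` before applying `f` (this keeps kernel computations linear). -/
def strict {α : Type} (x : ℕ) (f : ℕ → α) : α :=
  match x with
  | 0 => f 0
  | k + 1 => f (k + 1)

theorem strict_eq {α : Type} (x : ℕ) (f : ℕ → α) : strict x f = f x := by
  cases x <;> rfl

/-- Walk a word through the table from row `c` with label `a`. -/
def walkT (n m : ℕ) (T Lb : ℕ → ℕ → ℕ) : List ℕ → ℕ → ℕ → ℕ × ℕ
  | [], c, a => (c, a)
  | j :: w, c, a =>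
    strict (T j c % n) fun c' => strict ((a + Lb j c) % m) fun a' => walkT n m T Lb w c' a'

theorem walkT_cons (n m : ℕ) (T Lb : ℕ → ℕ → ℕ) (j : ℕ) (w : List ℕ) (c a : ℕ) :
    walkT n m T Lb (j :: w) c a = walkT n m T Lb w (T j c % n) ((a + Lb j c) % m) := by
  rw [walkT, strict_eq, strict_eq]

/-- Symbol `iv j` undoes symbol `j`, for all `j < k`. -/
def invOK (n m : ℕ) (T Lb : ℕ → ℕ → ℕ) (k : ℕ) : Bool :=
  (List.range n).all fun c => (List.range k).all fun j =>
    (T (CT2.iv j) (T j c % n) % n == c) && ((Lb j c + Lb (CT2.iv j) (T j c % n)) % m == 0)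

/-- The word returns every row with label `0`. -/
def relOK (n m : ℕ) (T Lb : ℕ → ℕ → ℕ) (k : ℕ) (w : List ℕ) : Bool :=
  w.all (fun j => decide (j < k)) && (List.range n).all fun c => walkT n m T Lb w c 0 == (c, 0)

section
variable (n m : ℕ) (T Lb : ℕ → ℕ → ℕ) (hn : 0 < n) (hm : 0 < m)

/-- The action of symbol `j`. -/
def act (j : ℕ) (x : Fin n × Fin m) : Fin n × Fin m :=
  (⟨T j x.1.val % n, Nat.mod_lt _ hn⟩, ⟨(x.2.val + Lb j x.1.val) % m, Nat.mod_lt _ hm⟩)

theorem act_act {k : ℕ} (h : invOK n m T Lb k = true) {j : ℕ} (hj : j < k) (x : Fin n × Fin m) :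
    act n m T Lb hn hm (CT2.iv j) (act n m T Lb hn hm j x) = x := by
  have h1 := List.all_eq_true.1 (List.all_eq_true.1 h x.1.val (List.mem_range.2 x.1.isLt)) j
    (List.mem_range.2 hj)
  rw [Bool.and_eq_true, beq_iff_eq, beq_iff_eq] at h1
  obtain ⟨h2, h3⟩ := h1
  apply Prod.ext
  · apply Fin.ext
    exact h2
  · apply Fin.ext
    show ((x.2.val + Lb j x.1.val) % m + Lb (CT2.iv j) (T j x.1.val % n)) % m = x.2.val
    rw [Nat.mod_add_mod, add_assoc, Nat.add_mod, h3, add_zero, Nat.mod_mod,
      Nat.mod_eq_of_lt x.2.isLt]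

theorem iv_iv (j : ℕ) : CT2.iv (CT2.iv j) = j := by
  unfold CT2.iv
  rw [Nat.xor_assoc]
  simp

/-- The permutation attached to symbol `j`: its inverse is the action of `j`. -/
def perm (k : ℕ) (h : invOK n m T Lb k = true) (hk : ∀ j, j < k → CT2.iv j < k) (j : ℕ) :
    Equiv.Perm (Fin n × Fin m) :=
  if hj : j < k then
    { toFun := act n m T Lb hn hm (CT2.iv j)
      invFun := act n m T Lb hn hm j
      left_inv := fun x => by
        have := act_act n m T Lb hn hm h (hk j hj) x
        rwa [iv_iv] at this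
      right_inv := fun x => act_act n m T Lb hn hm h hj x }
  else 1

/-- The permutations of the generators. -/
def perms (k : ℕ) (h : invOK n m T Lb k = true) (hk : ∀ j, j < k → CT2.iv j < k) :
    List (Equiv.Perm (Fin n × Fin m)) :=
  (List.range (k / 2)).map fun i => perm n m T Lb hn hm k h hk (2 * i)

variable (k : ℕ) (h : invOK n m T Lb k = true) (hk : ∀ j, j < k → CT2.iv j < k)

theorem perm_symm_apply {j : ℕ} (hj : j < k) (x : Fin n × Fin m) :
    (perm n m T Lb hn hm k h hk j)⁻¹ x = act n m T Lb hn hm j x := by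
  unfold perm
  rw [dif_pos hj]
  rfl

theorem perm_apply {j : ℕ} (hj : j < k) (x : Fin n × Fin m) :
    perm n m T Lb hn hm k h hk j x = act n m T Lb hn hm (CT2.iv j) x := by
  unfold perm
  rw [dif_pos hj]
  rfl

theorem getD_perms {i : ℕ} (hi : i < k / 2) :
    (perms n m T Lb hn hm k h hk).getD i 1 = perm n m T Lb hn hm k h hk (2 * i) := by
  unfold perms
  rw [List.getD_eq_getElem?_getD, List.getElem?_map, List.getElem?_range hi]
  rfl

/-- The inverse of the value of symbol `j` acts as the table says. -/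
theorem gl_inv_apply {j : ℕ} (hj : j < k) (x : Fin n × Fin m) :
    (gl (perms n m T Lb hn hm k h hk) j)⁻¹ x = act n m T Lb hn hm j x := by
  unfold gl
  by_cases hpar : j % 2 = 0
  · have hi : j / 2 < k / 2 := by
      have := hk j hj
      rw [iv_eq, if_pos hpar] at this
      omega
    rw [if_pos hpar, getD_perms n m T Lb hn hm k h hk hi]
    have e : 2 * (j / 2) = j := by omega
    rw [e]
    exact perm_symm_apply n m T Lb hn hm k h hk hj x
  · have hi : j / 2 < k / 2 := by omega
    rw [if_neg hpar, getD_perms n m T Lb hn hm k h hk hi, inv_inv]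
    have hj' : 2 * (j / 2) < k := by omega
    rw [perm_apply n m T Lb hn hm k h hk hj']
    have e : CT2.iv (2 * (j / 2)) = j := by
      rw [iv_eq, if_pos (by omega)]
      omega
    rw [e]

theorem walkT_spec (w : List ℕ) (hw : ∀ j ∈ w, j < k) (x : Fin n × Fin m) :
    walkT n m T Lb w x.1.val x.2.val =
      ((((ev (gl (perms n m T Lb hn hm k h hk)) w)⁻¹ x).1 : ℕ),
        (((ev (gl (perms n m T Lb hn hm k h hk)) w)⁻¹ x).2 : ℕ)) := by
  induction w generalizing x with
  | nil => simp [walkT, ev]
  | cons j w ih =>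
    have hj : j < k := hw j List.mem_cons_self
    have e : (ev (gl (perms n m T Lb hn hm k h hk)) (j :: w))⁻¹ x =
        (ev (gl (perms n m T Lb hn hm k h hk)) w)⁻¹ (act n m T Lb hn hm j x) := by
      show (gl (perms n m T Lb hn hm k h hk) j * ev (gl (perms n m T Lb hn hm k h hk)) w)⁻¹ x = _
      rw [mul_inv_rev, Equiv.Perm.mul_apply, gl_inv_apply n m T Lb hn hm k h hk hj]
    rw [e, ← ih (fun i hi => hw i (List.mem_cons_of_mem _ hi)), walkT_cons]
    rfl

theorem walkT_shift (w : List ℕ) : ∀ (c a b : ℕ),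
    walkT n m T Lb w c ((a + b) % m) =
      ((walkT n m T Lb w c b).1, (a + (walkT n m T Lb w c b).2) % m) := by
  induction w with
  | nil => intro c a b; rfl
  | cons j w ih =>
    intro c a b
    have e : ((a + b) % m + Lb j c) % m = (a + (b + Lb j c) % m) % m := by
      rw [Nat.mod_add_mod, Nat.add_mod_mod, add_assoc]
    rw [walkT_cons, walkT_cons, e, ih]

/-- A word that returns every row with label `0` evaluates to `1`. -/
theorem ev_eq_one (w : List ℕ) (hw : relOK n m T Lb k w = true) :
    ev (gl (perms n m T Lb hn hm k h hk)) w = 1 := by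
  rw [relOK, Bool.and_eq_true] at hw
  obtain ⟨hw1, hw2⟩ := hw
  have hwk : ∀ j ∈ w, j < k := fun j hj => of_decide_eq_true (List.all_eq_true.1 hw1 j hj)
  rw [← inv_eq_one]
  apply Equiv.ext
  intro x
  have h1 := walkT_spec n m T Lb hn hm k h hk w hwk x
  have h2 := List.all_eq_true.1 hw2 x.1.val (List.mem_range.2 x.1.isLt)
  rw [beq_iff_eq] at h2
  have h3 := walkT_shift n m T Lb w x.1.val x.2.val 0
  rw [add_zero, Nat.mod_eq_of_lt x.2.isLt, h2] at h3
  simp only [add_zero, Nat.mod_eq_of_lt x.2.isLt] at h3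
  rw [h3] at h1
  apply Prod.ext
  · apply Fin.ext
    exact (congrArg Prod.fst h1).symm
  · apply Fin.ext
    exact (congrArg Prod.snd h1).symm

/-- All words of a list are relators. -/
theorem rels_hold (ws : List (List ℕ)) (hws : ws.all (relOK n m T Lb k) = true) :
    ∀ w ∈ ws, ev (gl (perms n m T Lb hn hm k h hk)) w = 1 := fun w hw =>
  ev_eq_one n m T Lb hn hm k h hk w (List.all_eq_true.1 hws w hw)

/-- A word that moves some point `(c, 0)` does not evaluate to `1`. -/
theorem ev_ne_one (w : List ℕ) (hwk : w.all (fun j => decide (j < k)) = true) (c : ℕ) (hc : c < n)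
    (hne : walkT n m T Lb w c 0 ≠ (c, 0)) : ev (gl (perms n m T Lb hn hm k h hk)) w ≠ 1 := by
  intro h0
  have h1 := walkT_spec n m T Lb hn hm k h hk w
    (fun j hj => of_decide_eq_true (List.all_eq_true.1 hwk j hj)) (⟨c, hc⟩, ⟨0, hm⟩)
  rw [h0] at h1
  exact hne h1

end

end Cfsg.Agent.Helper89.TP
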