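import Cfsg.Agent.Helper89.CovPairs
import Cfsg.Agent.Helper89.TblPerm

/-!
# Small tools for covers given by words and tables (helper89)
-/

set_option autoImplicit false

namespace Cfsg.Agent.Helper89.CT

open Subgroup

section
variable {Γ : Type*} [Group Γ]

/-- the definitions `(i, w)` (meaning `g (2 i) = ev g w`) use symbols `< k` and cover all symbols
in `[k, K)` -/
def defsOK (k K : ℕ) (defs : List (ℕ × List ℕ)) : Bool :=
  defs.all (fun d => d.2.all (fun j => decide (j < k))) &&
    (List.range K).all (fun j => decide (j < k) || defs.any (fun d => d.1 == j / 2))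

/-- The defining words of the extra generators. -/
def defWords (defs : List (ℕ × List ℕ)) : List (List ℕ) :=
  defs.map fun d => d.2 ++ [2 * d.1 + 1]

theorem ev_mem_closure' (g : ℕ → Γ) (k : ℕ) (w : List ℕ)
    (hw : ∀ j ∈ w, j < k) : ev g w ∈ closure (g '' Set.Iio k) := by
  induction w with
  | nil => exact one_mem _
  | cons j w ih =>
    exact mul_mem (subset_closure ⟨j, hw j List.mem_cons_self, rfl⟩)
      (ih fun i hi => hw i (List.mem_cons_of_mem _ hi))

/-- Redundant generators given by words can be dropped from a generating set. -/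
theorem closure_of_defs (g : ℕ → Γ) (hinv : ∀ j, g j * g (CT2.iv j) = 1) (k K : ℕ)
    (defs : List (ℕ × List ℕ)) (hok : defsOK k K defs = true)
    (hdef : ∀ w ∈ defWords defs, ev g w = 1) (hK : closure (g '' Set.Iio K) = ⊤) :
    closure (g '' Set.Iio k) = ⊤ := by
  rw [defsOK, Bool.and_eq_true] at hok
  obtain ⟨hok1, hok2⟩ := hok
  rw [eq_top_iff, ← hK, closure_le]
  rintro _ ⟨j, hj, rfl⟩
  have hj' : j < K := hj
  have h1 := List.all_eq_true.1 hok2 j (List.mem_range.2 hj')
  rw [Bool.or_eq_true, decide_eq_true_eq] at h1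
  rcases h1 with h1 | h1
  · exact subset_closure ⟨j, h1, rfl⟩
  · obtain ⟨d, hd, hdj⟩ := List.any_eq_true.1 h1
    have hdj' : d.1 = j / 2 := by simpa using hdj
    have hw : ∀ i ∈ d.2, i < k := fun i hi =>
      of_decide_eq_true (List.all_eq_true.1 (List.all_eq_true.1 hok1 d hd) i hi)
    have h2 := Stem.def_of_word g hinv d.2 d.1 (hdef _ (List.mem_map.2 ⟨d, hd, rfl⟩))
    have h3 : ev g d.2 ∈ closure (g '' Set.Iio k) := ev_mem_closure' g k d.2 hw
    rw [← h2, hdj'] at h3
    by_cases hpar : j % 2 = 0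
    · have e : 2 * (j / 2) = j := by omega
      rw [e] at h3
      exact h3
    · have e : 2 * (j / 2) + 1 = j := by omega
      rw [SetLike.mem_coe, ← e, Stem.g_iv g hinv]
      exact inv_mem h3

/-- Words in three of the generators. -/
theorem ev_sub3 (g : ℕ → Γ) (hinv : ∀ j, g j * g (CT2.iv j) = 1) (s : ℕ) (w : List ℕ)
    (hw : ∀ j ∈ w, j < 6) :
    ev (gl [g (2 * s), g (2 * (s + 1)), g (2 * (s + 2))]) w = ev g (w.map (· + 2 * s)) := by
  induction w with
  | nil => rfl
  | cons j w ih =>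
    have hj : j < 6 := hw j List.mem_cons_self
    have e : gl [g (2 * s), g (2 * (s + 1)), g (2 * (s + 2))] j = g (j + 2 * s) := by
      have i1 := Stem.g_iv g hinv s
      have i2 := Stem.g_iv g hinv (s + 1)
      have i3 := Stem.g_iv g hinv (s + 2)
      interval_cases j
      · show g (2 * s) = g (0 + 2 * s)
        rw [zero_add]
      · show (g (2 * s))⁻¹ = g (1 + 2 * s)
        rw [← i1, add_comm]
      · show g (2 * (s + 1)) = g (2 + 2 * s)
        congr 1; omega
      · show (g (2 * (s + 1)))⁻¹ = g (3 + 2 * s)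
        rw [← i2]; congr 1; omega
      · show g (2 * (s + 2)) = g (4 + 2 * s)
        congr 1; omega
      · show (g (2 * (s + 2)))⁻¹ = g (5 + 2 * s)
        rw [← i3]; congr 1; omega
    show gl [g (2 * s), g (2 * (s + 1)), g (2 * (s + 2))] j *
      ev (gl [g (2 * s), g (2 * (s + 1)), g (2 * (s + 2))]) w = g (j + 2 * s) * ev g (w.map (· + 2 * s))
    rw [e, ih (fun i hi => hw i (List.mem_cons_of_mem _ hi))]

end

/-- `n` copies of a word. -/
def rep (w : List ℕ) : ℕ → List ℕ
  | 0 => []
  | n + 1 => w ++ rep w n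

theorem ev_rep {Γ : Type*} [Group Γ] (g : ℕ → Γ) (w : List ℕ) (n : ℕ) :
    ev g (rep w n) = ev g w ^ n := by
  induction n with
  | zero => rw [pow_zero]; rfl
  | succ n ih => rw [rep, ev_append, ih, pow_succ']

/-- The order of a cover whose kernel contains an element of order `m`. -/
theorem card_cover {G Γ₀ : Type*} [Group G] [Finite G] [Group Γ₀] [Finite Γ₀]
    (π : Γ₀ →* G) (hπ : Function.Surjective π) (m : ℕ)
    (hcard : Nat.card Γ₀ ∣ m * Nat.card G) (ζ : Γ₀) (hζker : π ζ = 1) (hζord : orderOf ζ = m) :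
    Nat.card Γ₀ = m * Nat.card G := by
  have h1 := Stem.card_ker_mul π hπ
  have hle : zpowers ζ ≤ π.ker := by
    rw [zpowers_le]; exact MonoidHom.mem_ker.2 hζker
  have hz : Nat.card (zpowers ζ) = m := by rw [Nat.card_zpowers, hζord]
  have h2 : m ∣ Nat.card π.ker := hz ▸ Subgroup.card_dvd_of_le hle
  have h3 : Nat.card π.ker ∣ m := by
    have : Nat.card π.ker * Nat.card G ∣ m * Nat.card G := by rw [h1]; exact hcard
    exact Nat.dvd_of_mul_dvd_mul_right Nat.card_pos this
  rw [← h1, Nat.dvd_antisymm h3 h2]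

/-- An element commuting with all generators is central. -/
theorem central_of_gens {Γ : Type*} [Group Γ] (g : ℕ → Γ) (k : ℕ)
    (hgen : closure (g '' Set.Iio k) = ⊤) (ζ : Γ) (h : ∀ j < k, ζ * g j = g j * ζ) :
    ∀ x, ζ * x = x * ζ := by
  intro x
  have hx : x ∈ closure (g '' Set.Iio k) := by rw [hgen]; trivial
  have : closure (g '' Set.Iio k) ≤ Subgroup.centralizer {ζ} := by
    rw [closure_le]
    rintro _ ⟨j, hj, rfl⟩
    rw [SetLike.mem_coe, Subgroup.mem_centralizer_iff]
    intro y hy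
    rw [Set.mem_singleton_iff.1 hy]
    exact h j hj
  have h2 := this hx
  rw [Subgroup.mem_centralizer_iff] at h2
  exact h2 ζ rfl

/-- The commutation words `w g_i w⁻¹ g_i⁻¹`, `i < n`. -/
def commWords (w : List ℕ) (n : ℕ) : List (List ℕ) :=
  (List.range n).map fun i => w ++ [2 * i] ++ CT2.invw w ++ [2 * i + 1]

theorem comm_of_words {Γ : Type*} [Group Γ] (g : ℕ → Γ) (hinv : ∀ j, g j * g (CT2.iv j) = 1)
    (w : List ℕ) (n : ℕ) (h : ∀ r ∈ commWords w n, ev g r = 1) :
    ∀ j < 2 * n, ev g w * g j = g j * ev g w := by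
  have key : ∀ i < n, ev g w * g (2 * i) = g (2 * i) * ev g w := by
    intro i hi
    have h1 := h _ (List.mem_map.2 ⟨i, List.mem_range.2 hi, rfl⟩)
    rw [ev_append, ev_append, ev_append, CT2.ev_invw g hinv] at h1
    have e1 : ev g [2 * i] = g (2 * i) := by simp [ev]
    have e2 : ev g [2 * i + 1] = g (2 * i + 1) := by simp [ev]
    rw [e1, e2, Stem.g_iv g hinv] at h1
    have h2 := mul_inv_eq_one.1 h1
    calc ev g w * g (2 * i) = ev g w * g (2 * i) * (ev g w)⁻¹ * ev g w := by group
      _ = g (2 * i) * ev g w := by rw [h2]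
  intro j hj
  by_cases hpar : j % 2 = 0
  · have e : 2 * (j / 2) = j := by omega
    rw [← e]
    exact key (j / 2) (by omega)
  · have e : 2 * (j / 2) + 1 = j := by omega
    have h1 := key (j / 2) (by omega)
    rw [← e, Stem.g_iv g hinv]
    calc ev g w * (g (2 * (j / 2)))⁻¹
        = (g (2 * (j / 2)))⁻¹ * (g (2 * (j / 2)) * ev g w) * (g (2 * (j / 2)))⁻¹ := by group
      _ = (g (2 * (j / 2)))⁻¹ * (ev g w * g (2 * (j / 2))) * (g (2 * (j / 2)))⁻¹ := by rw [h1]
      _ = (g (2 * (j / 2)))⁻¹ * ev g w := by group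

end Cfsg.Agent.Helper89.CT
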