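import Cfsg.Agent.Helper89.Cert3
import Cfsg.Agent.Helper89.Cert4

/-!
# The four point theorem for 3-transpositions of width one (helper89)

If `D` is a set of involutions of a finite group, closed under conjugation by its members, in
which any two members `u, v` satisfy the braid relation `u v u = v u v`, then any four members
generate a subgroup whose order divides `2 * 3 ^ 10 = 118098`.  (Proved with the coset table
certificates `Cert3` and `Cert4`.)
-/

set_option autoImplicit false
set_option linter.unusedSimpArgs false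
set_option linter.unusedSectionVars false

namespace Cfsg.Agent.Helper89

/-- The four generators as a function on indices. -/
def gen4 {G : Type*} (a b c d : G) : ℕ → G
  | 0 => a
  | 1 => b
  | 2 => c
  | _ => d

@[simp] theorem gen4_zero {G : Type*} (a b c d : G) : gen4 a b c d 0 = a := rfl
@[simp] theorem gen4_one {G : Type*} (a b c d : G) : gen4 a b c d 1 = b := rfl
@[simp] theorem gen4_two {G : Type*} (a b c d : G) : gen4 a b c d 2 = c := rfl
@[simp] theorem gen4_three {G : Type*} (a b c d : G) : gen4 a b c d 3 = d := rfl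

section
variable {G : Type*} [Group G]

theorem cube {D : Set G} (hsq : ∀ u ∈ D, u * u = 1) (hbr : ∀ u ∈ D, ∀ v ∈ D, u * v * u = v * u * v)
    (u v : G) (hu : u ∈ D) (hv : v ∈ D) : u * (v * (u * (v * (u * v)))) = 1 := by
  calc u * (v * (u * (v * (u * v)))) = (u * v * u) * (v * u * v) := by group
    _ = (u * v * u) * (u * v * u) := by rw [← hbr u hu v hv]
    _ = u * v * (u * u) * v * u := by group
    _ = 1 := by rw [hsq u hu, mul_one, mul_assoc u v v, hsq v hv, mul_one, hsq u hu]

theorem gen4_image_three (a b c d : G) : gen4 a b c d '' Set.Iio 3 = {a, b, c} := by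
  ext x
  constructor
  · rintro ⟨j, hj, rfl⟩
    have hj' : j < 3 := hj
    interval_cases j <;> simp
  · intro hx
    rcases hx with rfl | rfl | rfl
    · exact ⟨0, by norm_num, rfl⟩
    · exact ⟨1, by norm_num, rfl⟩
    · exact ⟨2, by norm_num, rfl⟩

theorem gen4_image_four (a b c d : G) : gen4 a b c d '' Set.Iio 4 = {a, b, c, d} := by
  ext x
  constructor
  · rintro ⟨j, hj, rfl⟩
    have hj' : j < 4 := hj
    interval_cases j <;> simp
  · intro hx
    rcases hx with rfl | rfl | rfl | rfl
    · exact ⟨0, by norm_num, rfl⟩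
    · exact ⟨1, by norm_num, rfl⟩
    · exact ⟨2, by norm_num, rfl⟩
    · exact ⟨3, by norm_num, rfl⟩

theorem rels3_eq_one {D : Set G} (hsq : ∀ u ∈ D, u * u = 1)
    (hcj : ∀ u ∈ D, ∀ v ∈ D, u * v * u ∈ D) (hbr : ∀ u ∈ D, ∀ v ∈ D, u * v * u = v * u * v)
    (a b c d : G) (ha : a ∈ D) (hb : b ∈ D) (hc : c ∈ D) :
    ∀ ρ ∈ rels3, ev (gen4 a b c d) ρ = 1 := by
  unfold rels3
  simp only [List.forall_mem_cons, List.not_mem_nil, false_imp_iff, implies_true, and_true]
  refine ⟨?_, ?_, ?_, ?_, ?_, ?_⟩
  · simp only [ev, gen4_zero, gen4_one, gen4_two, gen4_three]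
    simpa only [mul_assoc, mul_one] using cube hsq hbr a b ha hb
  · simp only [ev, gen4_zero, gen4_one, gen4_two, gen4_three]
    simpa only [mul_assoc, mul_one] using cube hsq hbr a c ha hc
  · simp only [ev, gen4_zero, gen4_one, gen4_two, gen4_three]
    simpa only [mul_assoc, mul_one] using cube hsq hbr b c hb hc
  · simp only [ev, gen4_zero, gen4_one, gen4_two, gen4_three]
    simpa only [mul_assoc, mul_one] using cube hsq hbr a (c * b * c) ha (hcj c hc b hb)
  · simp only [ev, gen4_zero, gen4_one, gen4_two, gen4_three]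
    simpa only [mul_assoc, mul_one] using cube hsq hbr b (c * a * c) hb (hcj c hc a ha)
  · simp only [ev, gen4_zero, gen4_one, gen4_two, gen4_three]
    simpa only [mul_assoc, mul_one] using cube hsq hbr c (b * a * b) hc (hcj b hb a ha)

theorem rels4_eq_one {D : Set G} (hsq : ∀ u ∈ D, u * u = 1)
    (hcj : ∀ u ∈ D, ∀ v ∈ D, u * v * u ∈ D) (hbr : ∀ u ∈ D, ∀ v ∈ D, u * v * u = v * u * v)
    (a b c d : G) (ha : a ∈ D) (hb : b ∈ D) (hc : c ∈ D) (hd : d ∈ D) :
    ∀ ρ ∈ rels4, ev (gen4 a b c d) ρ = 1 := by
  unfold rels4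
  simp only [List.forall_mem_cons, List.not_mem_nil, false_imp_iff, implies_true, and_true]
  refine ⟨?_, ?_, ?_, ?_, ?_, ?_, ?_, ?_, ?_, ?_, ?_, ?_, ?_, ?_, ?_, ?_, ?_, ?_, ?_, ?_, ?_⟩
  · simp only [ev, gen4_zero, gen4_one, gen4_two, gen4_three]
    simpa only [mul_assoc, mul_one] using cube hsq hbr a b ha hb
  · simp only [ev, gen4_zero, gen4_one, gen4_two, gen4_three]
    simpa only [mul_assoc, mul_one] using cube hsq hbr a c ha hc
  · simp only [ev, gen4_zero, gen4_one, gen4_two, gen4_three]
    simpa only [mul_assoc, mul_one] using cube hsq hbr a d ha hd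
  · simp only [ev, gen4_zero, gen4_one, gen4_two, gen4_three]
    simpa only [mul_assoc, mul_one] using cube hsq hbr b c hb hc
  · simp only [ev, gen4_zero, gen4_one, gen4_two, gen4_three]
    simpa only [mul_assoc, mul_one] using cube hsq hbr b d hb hd
  · simp only [ev, gen4_zero, gen4_one, gen4_two, gen4_three]
    simpa only [mul_assoc, mul_one] using cube hsq hbr c d hc hd
  · simp only [ev, gen4_zero, gen4_one, gen4_two, gen4_three]
    simpa only [mul_assoc, mul_one] using cube hsq hbr a (c * b * c) ha (hcj c hc b hb)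
  · simp only [ev, gen4_zero, gen4_one, gen4_two, gen4_three]
    simpa only [mul_assoc, mul_one] using cube hsq hbr a (d * b * d) ha (hcj d hd b hb)
  · simp only [ev, gen4_zero, gen4_one, gen4_two, gen4_three]
    simpa only [mul_assoc, mul_one] using cube hsq hbr a (d * c * d) ha (hcj d hd c hc)
  · simp only [ev, gen4_zero, gen4_one, gen4_two, gen4_three]
    simpa only [mul_assoc, mul_one] using cube hsq hbr b (c * a * c) hb (hcj c hc a ha)
  · simp only [ev, gen4_zero, gen4_one, gen4_two, gen4_three]
    simpa only [mul_assoc, mul_one] using cube hsq hbr b (d * a * d) hb (hcj d hd a ha)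
  · simp only [ev, gen4_zero, gen4_one, gen4_two, gen4_three]
    simpa only [mul_assoc, mul_one] using cube hsq hbr b (d * c * d) hb (hcj d hd c hc)
  · simp only [ev, gen4_zero, gen4_one, gen4_two, gen4_three]
    simpa only [mul_assoc, mul_one] using cube hsq hbr c (b * a * b) hc (hcj b hb a ha)
  · simp only [ev, gen4_zero, gen4_one, gen4_two, gen4_three]
    simpa only [mul_assoc, mul_one] using cube hsq hbr c (d * a * d) hc (hcj d hd a ha)
  · simp only [ev, gen4_zero, gen4_one, gen4_two, gen4_three]
    simpa only [mul_assoc, mul_one] using cube hsq hbr c (d * b * d) hc (hcj d hd b hb)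
  · simp only [ev, gen4_zero, gen4_one, gen4_two, gen4_three]
    simpa only [mul_assoc, mul_one] using cube hsq hbr d (b * a * b) hd (hcj b hb a ha)
  · simp only [ev, gen4_zero, gen4_one, gen4_two, gen4_three]
    simpa only [mul_assoc, mul_one] using cube hsq hbr d (c * a * c) hd (hcj c hc a ha)
  · simp only [ev, gen4_zero, gen4_one, gen4_two, gen4_three]
    simpa only [mul_assoc, mul_one] using cube hsq hbr d (c * b * c) hd (hcj c hc b hb)
  · simp only [ev, gen4_zero, gen4_one, gen4_two, gen4_three]
    simpa only [mul_assoc, mul_one] using cube hsq hbr (b * a * b) (d * c * d) (hcj b hb a ha) (hcj d hd c hc)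
  · simp only [ev, gen4_zero, gen4_one, gen4_two, gen4_three]
    simpa only [mul_assoc, mul_one] using cube hsq hbr (c * a * c) (d * b * d) (hcj c hc a ha) (hcj d hd b hb)
  · simp only [ev, gen4_zero, gen4_one, gen4_two, gen4_three]
    simpa only [mul_assoc, mul_one] using cube hsq hbr (d * a * d) (c * b * c) (hcj d hd a ha) (hcj c hc b hb)

/-- Three members of `D` generate a subgroup of order dividing 54. -/
theorem card_closure_three_dvd [Finite G] {D : Set G} (hsq : ∀ u ∈ D, u * u = 1)
    (hcj : ∀ u ∈ D, ∀ v ∈ D, u * v * u ∈ D) (hbr : ∀ u ∈ D, ∀ v ∈ D, u * v * u = v * u * v)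
    (a b c : G) (ha : a ∈ D) (hb : b ∈ D) (hc : c ∈ D) :
    Nat.card (Subgroup.closure ({a, b, c} : Set G)) ∣ 54 := by
  have hinv : ∀ j, gen4 a b c c j * gen4 a b c c j = 1 := by
    intro j
    rcases j with _ | _ | _ | j
    · exact hsq a ha
    · exact hsq b hb
    · exact hsq c hc
    · exact hsq c hc
  have h := card_closure_dvd (gen4 a b c c) hinv 54 3 _ _ _ [] rels3 steps3 chk3 ⊥
    (by simp) bot_le (rels3_eq_one hsq hcj hbr a b c c ha hb hc)
  rw [gen4_image_three] at h
  simpa using h

/-- **Four point theorem**: four members of `D` generate a subgroup of order dividing `2 * 3 ^ 10`. -/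
theorem card_closure_four_dvd [Finite G] {D : Set G} (hsq : ∀ u ∈ D, u * u = 1)
    (hcj : ∀ u ∈ D, ∀ v ∈ D, u * v * u ∈ D) (hbr : ∀ u ∈ D, ∀ v ∈ D, u * v * u = v * u * v)
    (a b c d : G) (ha : a ∈ D) (hb : b ∈ D) (hc : c ∈ D) (hd : d ∈ D) :
    Nat.card (Subgroup.closure ({a, b, c, d} : Set G)) ∣ 118098 := by
  have hinv : ∀ j, gen4 a b c d j * gen4 a b c d j = 1 := by
    intro j
    rcases j with _ | _ | _ | j
    · exact hsq a ha
    · exact hsq b hb
    · exact hsq c hc
    · exact hsq d hd
  have h3 := card_closure_three_dvd hsq hcj hbr a b c ha hb hc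
  have hS : ∀ j ∈ [0, 1, 2], gen4 a b c d j ∈ Subgroup.closure (gen4 a b c d '' Set.Iio 3) := by
    intro j hj
    apply Subgroup.subset_closure
    refine ⟨j, ?_, rfl⟩
    simp only [List.mem_cons, List.not_mem_nil, or_false] at hj
    rcases hj with rfl | rfl | rfl <;> norm_num
  have hH : Subgroup.closure (gen4 a b c d '' Set.Iio 3) ≤
      Subgroup.closure (gen4 a b c d '' Set.Iio 4) :=
    Subgroup.closure_mono (Set.image_mono (Set.Iio_subset_Iio (by norm_num)))
  have h := card_closure_dvd (gen4 a b c d) hinv 2187 4 _ _ _ [0, 1, 2] rels4 steps4 chk4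
    (Subgroup.closure (gen4 a b c d '' Set.Iio 3)) hS hH
    (rels4_eq_one hsq hcj hbr a b c d ha hb hc hd)
  rw [gen4_image_four, gen4_image_three] at h
  exact h.trans ((Nat.mul_dvd_mul_left 2187 h3).trans (by norm_num))

end

end Cfsg.Agent.Helper89
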