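import Cfsg.Agent.Helper89.G24Conc
import Cfsg.Agent.Helper89.G24LBData

/-!
# The order of `G₂(4)` (helper89)

The Chevalley group of type `G₂` over the concrete field with four elements has order `251596800`:
at least that by the orbit certificates of `G24LBData`, at most that because the cover of
`G24Conc`, of order dividing `2 * 251596800`, maps onto it with a kernel of even order.
-/

set_option autoImplicit false

namespace Cfsg.Agent.Helper89.G24c

open Cfsg Subgroup G24M

theorem card_G24 : Nat.card G24 = 251596800 := by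
  apply le_antisymm _ G24M.card_ge
  have he : Function.Surjective (MonoidHom.id G24) := fun x => ⟨x, rfl⟩
  have hdvd := card_dvd (MonoidHom.id G24)
  have hsurj := π_surj (MonoidHom.id G24) he
  have hker : 2 ∣ Nat.card (CP.covπ (gsH (MonoidHom.id G24)) qs).ker := by
    have h1 : ζ (MonoidHom.id G24) ∈ (CP.covπ (gsH (MonoidHom.id G24)) qs).ker :=
      MonoidHom.mem_ker.2 (ζ_ker (MonoidHom.id G24))
    have h2 := Subgroup.orderOf_dvd_natCard _ h1
    rwa [ζ_ord] at h2
  have hcard := Subgroup.card_eq_card_quotient_mul_card_subgroup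
    (CP.covπ (gsH (MonoidHom.id G24)) qs).ker
  rw [Nat.card_congr (QuotientGroup.quotientKerEquivOfSurjective _ hsurj).toEquiv] at hcard
  obtain ⟨k, hk⟩ := hker
  have hpos : 0 < Nat.card (CP.covπ (gsH (MonoidHom.id G24)) qs).ker := Nat.card_pos
  have hle := Nat.le_of_dvd (by norm_num) hdvd
  rw [hcard, hk] at hle
  have hk1 : 1 ≤ k := by omega
  have h3 : Nat.card G24 * (2 * 1) ≤ Nat.card G24 * (2 * k) :=
    Nat.mul_le_mul_left _ (Nat.mul_le_mul_left _ hk1)
  omega

end Cfsg.Agent.Helper89.G24c
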