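import Cfsg.Agent.Helper89.G24ChainB

/-! # Chain certificate for the double cover of `G₂(4)`, top level: the closing scans (helper89)

Generated data. -/

set_option autoImplicit false
set_option maxRecDepth 1000000
set_option maxHeartbeats 0

namespace Cfsg.Agent.Helper89.G24c

open Cfsg.Agent.Helper89

theorem L3_close : Level.closeAll L3.T L3.Lb L3.k L3.n (Level.relsOf L3.ex L3.ws) L3.cl L3.ws.length = true := by
  decide +kernel

end Cfsg.Agent.Helper89.G24c
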