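import Cfsg.Agent.Helper89.G24ChainA
import Cfsg.Agent.Helper89.G24ChainB1
import Cfsg.Agent.Helper89.G24ChainB2
import Cfsg.Agent.Helper89.G24ChainB3

/-! # Chain certificate for the double cover of `G₂(4)` along `C15 < 2^(2+4):15 < U3(4) < 2.G₂(4)` (helper89)

Generated data. -/

set_option autoImplicit false
set_option maxRecDepth 1000000
set_option maxHeartbeats 0

namespace Cfsg.Agent.Helper89.G24c

open Cfsg.Agent.Helper89

theorem L3_valid : L3.Valid :=
  ⟨L3_pre, L3_run, L3_close, by decide, by decide, by decide⟩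

noncomputable def Ls : List Chain.LD := [L0, L1, L2, L3]

theorem valid : ∀ d ∈ Ls, d.Valid := by
  intro d hd
  simp only [Ls, List.mem_cons, List.not_mem_nil, or_false] at hd
  rcases hd with rfl | rfl | rfl | rfl
  · exact L0_valid
  · exact L1_valid
  · exact L2_valid
  · exact L3_valid

theorem chained : Chain.Chained (Chain.powW ps) [] 0 Ls := by
  refine ⟨rfl, by decide, ?_⟩
  refine ⟨rfl, by decide, ?_⟩
  refine ⟨rfl, by decide, ?_⟩
  refine ⟨rfl, by decide, ?_⟩
  trivial

theorem lastK_eq : Chain.lastK 0 Ls = 8 := rfl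

theorem prodN_eq : Chain.prodN Ls = 503193600 := by decide

theorem ps_odd : ∀ p ∈ ps, Odd p.2 := by decide

end Cfsg.Agent.Helper89.G24c
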