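import Cfsg.Agent.Helper89.CovTools
import Cfsg.Agent.Helper89.G24ChainA
import Cfsg.Agent.Helper89.G24ChainB

/-! # The double cover of `G₂(4)`: words and relator lists (helper89)

Generated data. -/

set_option autoImplicit false
set_option maxRecDepth 100000

namespace Cfsg.Agent.Helper89.G24c

open Cfsg.Agent.Helper89

theorem all_split {α : Type} (p : α → Bool) (n : ℕ) (l : List α) (h1 : (l.take n).all p = true)
    (h2 : (l.drop n).all p = true) : l.all p = true := by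
  rw [← List.take_append_drop n l, List.all_append, h1, h2]
  rfl

/-- conjugation data `(i, x, k, o)`: `x g_i x⁻¹ = g_i ^ k`, `g_i ^ o = 1` -/
def cj : List (ℕ × List ℕ × ℕ × ℕ) := [(0, [2, 5, 2, 2, 2, 0, 5, 6, 2, 5, 6, 2, 0, 7], 14, 15), (1, [1, 3, 5, 1, 2, 1, 1, 6, 1, 3, 7, 4, 3, 7], 14, 15), (2, [1, 2, 1, 2], 2, 3), (3, [5, 3, 3, 1, 3, 0, 6, 5, 0, 5, 7], 2, 3)]

/-- the extra generators as words: a triple for the prime 5 and a triple for the prime 3 -/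
def defs : List (ℕ × List ℕ) := [(4, [1, 1, 1]), (5, [4, 0, 5, 3, 0, 3]), (6, [2, 5, 0, 0, 6, 1, 3, 7, 4, 3, 7]), (7, [3, 1, 3, 4, 3, 1, 3, 3, 7, 5, 7, 5]), (8, [0, 0, 2, 0, 4, 3, 5, 1, 6, 2, 6, 1, 4, 2]), (9, [0, 4, 0, 2, 2, 1, 7, 3, 4, 1])]

/-- a word for the generator of the kernel -/
def zw : List ℕ := [5, 2, 1, 2, 2, 5, 3, 6, 2, 5, 6, 2, 5, 5, 2, 1, 2, 2, 5, 3, 6, 2, 5, 6, 2, 5]

def x3 : List (List ℕ) := [[14, 14, 14], [16, 16, 16], [14, 16, 15, 17, 14, 16, 14, 17, 15, 15], [14, 16, 15, 17, 16, 16, 14, 17, 15, 17], [18, 14, 19, 14], [18, 16, 19, 16]]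

def x5 : List (List ℕ) := [[8, 8, 8, 8, 8], [10, 10, 10, 10, 10], [8, 10, 9, 11], [12, 8, 13, 8], [12, 10, 13, 11]]

end Cfsg.Agent.Helper89.G24c
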