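import Cfsg.Agent.Helper89.G24Model
import Cfsg.Agent.Helper89.G24Defs

/-! # The double cover of `G₂(4)`: matrix checks of the relators of the top level (helper89)

Generated data. -/

set_option autoImplicit false
set_option maxRecDepth 100000

namespace Cfsg.Agent.Helper89.G24c

open Cfsg.Agent.Helper89

open Cfsg.Agent.Helper89.G24M

theorem mat_w3_0 : ((L3.ws).take 6).all mok = true := by decide +kernel

theorem mat_w3_1 : (((L3.ws).drop 6).take 6).all mok = true := by decide +kernel

theorem mat_w3_2 : ((((L3.ws).drop 6).drop 6).take 6).all mok = true := by decide +kernel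

theorem mat_w3_3 : (((((L3.ws).drop 6).drop 6).drop 6).take 6).all mok = true := by decide +kernel

theorem mat_w3_4 : ((((((L3.ws).drop 6).drop 6).drop 6).drop 6).take 6).all mok = true := by decide +kernel

theorem mat_w3_5 : (((((((L3.ws).drop 6).drop 6).drop 6).drop 6).drop 6).take 6).all mok = true := by decide +kernel

theorem mat_w3_6 : (((((((L3.ws).drop 6).drop 6).drop 6).drop 6).drop 6).drop 6).all mok = true := by decide +kernel

theorem mat_w3 : (L3.ws).all mok = true :=
  all_split mok 6 _ mat_w3_0 (all_split mok 6 _ mat_w3_1 (all_split mok 6 _ mat_w3_2 (all_split mok 6 _ mat_w3_3 (all_split mok 6 _ mat_w3_4 (all_split mok 6 _ mat_w3_5 (mat_w3_6))))))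

end Cfsg.Agent.Helper89.G24c
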