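import Cfsg.Agent.Helper89.G24Tab

/-! # The double cover of `G₂(4)`: conjugation and definition relators hold in the labelled table (helper89)

Generated data. -/

set_option autoImplicit false
set_option maxRecDepth 100000

namespace Cfsg.Agent.Helper89.G24c

open Cfsg.Agent.Helper89

theorem tab_cj_0 : ((cj.map Stem.conjWord).take 1).all rok = true := by decide +kernel

theorem tab_cj_1 : (((cj.map Stem.conjWord).drop 1).take 1).all rok = true := by decide +kernel

theorem tab_cj_2 : ((((cj.map Stem.conjWord).drop 1).drop 1).take 1).all rok = true := by decide +kernel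

theorem tab_cj_3 : ((((cj.map Stem.conjWord).drop 1).drop 1).drop 1).all rok = true := by decide +kernel

theorem tab_cj : (cj.map Stem.conjWord).all rok = true :=
  all_split rok 1 _ tab_cj_0 (all_split rok 1 _ tab_cj_1 (all_split rok 1 _ tab_cj_2 (tab_cj_3)))

theorem tab_defs_0 : ((CT.defWords defs).take 3).all rok = true := by decide +kernel

theorem tab_defs_1 : (((CT.defWords defs).drop 3).take 2).all rok = true := by decide +kernel

theorem tab_defs_2 : (((CT.defWords defs).drop 3).drop 2).all rok = true := by decide +kernel

theorem tab_defs : (CT.defWords defs).all rok = true :=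
  all_split rok 3 _ tab_defs_0 (all_split rok 2 _ tab_defs_1 (tab_defs_2))

theorem tab_zsq : ([CT.rep zw 2]).all rok = true := by decide +kernel

end Cfsg.Agent.Helper89.G24c
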