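import Cfsg.Agent.Helper89.G24Tab

/-! # The double cover of `G₂(4)`: the kernel is central in the labelled table (helper89)

Generated data. -/

set_option autoImplicit false
set_option maxRecDepth 100000

namespace Cfsg.Agent.Helper89.G24c

open Cfsg.Agent.Helper89

theorem tab_zc_0 : ((CT.commWords zw 4).take 1).all rok = true := by decide +kernel

theorem tab_zc_1 : (((CT.commWords zw 4).drop 1).take 1).all rok = true := by decide +kernel

theorem tab_zc_2 : ((((CT.commWords zw 4).drop 1).drop 1).take 1).all rok = true := by decide +kernel

theorem tab_zc_3 : ((((CT.commWords zw 4).drop 1).drop 1).drop 1).all rok = true := by decide +kernel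

theorem tab_zc : (CT.commWords zw 4).all rok = true :=
  all_split rok 1 _ tab_zc_0 (all_split rok 1 _ tab_zc_1 (all_split rok 1 _ tab_zc_2 (tab_zc_3)))

end Cfsg.Agent.Helper89.G24c
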