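import Cfsg.Agent.Helper89.G24Tab

/-! # The double cover of `G₂(4)`: the relators of the top level hold in the labelled table, part 2 (helper89)

Generated data. -/

set_option autoImplicit false
set_option maxRecDepth 100000

namespace Cfsg.Agent.Helper89.G24c

open Cfsg.Agent.Helper89

theorem tab_w3_12 : ((((((((((((((L3.ws).drop 1).drop 2).drop 2).drop 2).drop 1).drop 1).drop 2).drop 2).drop 2).drop 1).drop 2).drop 2).take 2).all rok = true := by decide +kernel

theorem tab_w3_13 : (((((((((((((((L3.ws).drop 1).drop 2).drop 2).drop 2).drop 1).drop 1).drop 2).drop 2).drop 2).drop 1).drop 2).drop 2).drop 2).take 1).all rok = true := by decide +kernel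

theorem tab_w3_14 : ((((((((((((((((L3.ws).drop 1).drop 2).drop 2).drop 2).drop 1).drop 1).drop 2).drop 2).drop 2).drop 1).drop 2).drop 2).drop 2).drop 1).take 1).all rok = true := by decide +kernel

theorem tab_w3_15 : (((((((((((((((((L3.ws).drop 1).drop 2).drop 2).drop 2).drop 1).drop 1).drop 2).drop 2).drop 2).drop 1).drop 2).drop 2).drop 2).drop 1).drop 1).take 2).all rok = true := by decide +kernel

theorem tab_w3_16 : ((((((((((((((((((L3.ws).drop 1).drop 2).drop 2).drop 2).drop 1).drop 1).drop 2).drop 2).drop 2).drop 1).drop 2).drop 2).drop 2).drop 1).drop 1).drop 2).take 1).all rok = true := by decide +kernel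

theorem tab_w3_17 : (((((((((((((((((((L3.ws).drop 1).drop 2).drop 2).drop 2).drop 1).drop 1).drop 2).drop 2).drop 2).drop 1).drop 2).drop 2).drop 2).drop 1).drop 1).drop 2).drop 1).take 1).all rok = true := by decide +kernel

theorem tab_w3_18 : ((((((((((((((((((((L3.ws).drop 1).drop 2).drop 2).drop 2).drop 1).drop 1).drop 2).drop 2).drop 2).drop 1).drop 2).drop 2).drop 2).drop 1).drop 1).drop 2).drop 1).drop 1).take 2).all rok = true := by decide +kernel

theorem tab_w3_19 : (((((((((((((((((((((L3.ws).drop 1).drop 2).drop 2).drop 2).drop 1).drop 1).drop 2).drop 2).drop 2).drop 1).drop 2).drop 2).drop 2).drop 1).drop 1).drop 2).drop 1).drop 1).drop 2).take 1).all rok = true := by decide +kernel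

theorem tab_w3_20 : ((((((((((((((((((((((L3.ws).drop 1).drop 2).drop 2).drop 2).drop 1).drop 1).drop 2).drop 2).drop 2).drop 1).drop 2).drop 2).drop 2).drop 1).drop 1).drop 2).drop 1).drop 1).drop 2).drop 1).take 1).all rok = true := by decide +kernel

theorem tab_w3_21 : (((((((((((((((((((((((L3.ws).drop 1).drop 2).drop 2).drop 2).drop 1).drop 1).drop 2).drop 2).drop 2).drop 1).drop 2).drop 2).drop 2).drop 1).drop 1).drop 2).drop 1).drop 1).drop 2).drop 1).drop 1).take 2).all rok = true := by decide +kernel

theorem tab_w3_22 : ((((((((((((((((((((((((L3.ws).drop 1).drop 2).drop 2).drop 2).drop 1).drop 1).drop 2).drop 2).drop 2).drop 1).drop 2).drop 2).drop 2).drop 1).drop 1).drop 2).drop 1).drop 1).drop 2).drop 1).drop 1).drop 2).take 1).all rok = true := by decide +kernel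

theorem tab_w3_23 : (((((((((((((((((((((((((L3.ws).drop 1).drop 2).drop 2).drop 2).drop 1).drop 1).drop 2).drop 2).drop 2).drop 1).drop 2).drop 2).drop 2).drop 1).drop 1).drop 2).drop 1).drop 1).drop 2).drop 1).drop 1).drop 2).drop 1).take 2).all rok = true := by decide +kernel

theorem tab_w3_24 : (((((((((((((((((((((((((L3.ws).drop 1).drop 2).drop 2).drop 2).drop 1).drop 1).drop 2).drop 2).drop 2).drop 1).drop 2).drop 2).drop 2).drop 1).drop 1).drop 2).drop 1).drop 1).drop 2).drop 1).drop 1).drop 2).drop 1).drop 2).all rok = true := by decide +kernel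

end Cfsg.Agent.Helper89.G24c
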