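import Cfsg.Agent.Helper89.G24TabA
import Cfsg.Agent.Helper89.G24TabB

/-! # The double cover of `G₂(4)`: the relators of the top level hold in the labelled table (helper89)

Generated data. -/

set_option autoImplicit false
set_option maxRecDepth 100000

namespace Cfsg.Agent.Helper89.G24c

open Cfsg.Agent.Helper89

theorem tab_w3 : (L3.ws).all rok = true :=
  all_split rok 1 _ tab_w3_0 (all_split rok 2 _ tab_w3_1 (all_split rok 2 _ tab_w3_2 (all_split rok 2 _ tab_w3_3 (all_split rok 1 _ tab_w3_4 (all_split rok 1 _ tab_w3_5 (all_split rok 2 _ tab_w3_6 (all_split rok 2 _ tab_w3_7 (all_split rok 2 _ tab_w3_8 (all_split rok 1 _ tab_w3_9 (all_split rok 2 _ tab_w3_10 (all_split rok 2 _ tab_w3_11 (all_split rok 2 _ tab_w3_12 (all_split rok 1 _ tab_w3_13 (all_split rok 1 _ tab_w3_14 (all_split rok 2 _ tab_w3_15 (all_split rok 1 _ tab_w3_16 (all_split rok 1 _ tab_w3_17 (all_split rok 2 _ tab_w3_18 (all_split rok 1 _ tab_w3_19 (all_split rok 1 _ tab_w3_20 (all_split rok 2 _ tab_w3_21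 (all_split rok 1 _ tab_w3_22 (all_split rok 2 _ tab_w3_23 (tab_w3_24))))))))))))))))))))))))

end Cfsg.Agent.Helper89.G24c
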