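import Cfsg.Agent.Helper89.MConcBase

/-!
# Word forms of the rank-two transfer hypotheses for the prime 5 (helper89)

`Stem.rank_two_of_words5`: the relators `Stem.ws25` in three elements `a, b, t` say that `a, b`
have order dividing 5 and commute, `t` inverts `a` and centralises `b`.
`Stem.not_mem_zpowers_of5`: an element different from the five powers of `a` is not in `⟨a⟩`.
-/

set_option autoImplicit false

namespace Cfsg.Agent.Helper89.Stem

open Subgroup

variable {G : Type*} [Group G]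

theorem not_mem_zpowers_of5 {a b : G} (ha : a ^ 5 = 1) (h0 : b ≠ 1) (h1 : b ≠ a)
    (h2 : b ≠ a ^ 2) (h3 : b ≠ a ^ 3) (h4 : b ≠ a ^ 4) : b ∉ zpowers a := by
  intro hb
  obtain ⟨k, hk⟩ := Subgroup.mem_zpowers_iff.1 hb
  have hk' : a ^ (k % 5) = b := by
    rw [← hk]
    exact (zpow_eq_zpow_emod (n := 5) k (by exact_mod_cast ha)).symm
  have hlo : 0 ≤ k % 5 := Int.emod_nonneg _ (by norm_num)
  have hhi : k % 5 < 5 := Int.emod_lt_of_pos _ (by norm_num)
  obtain ⟨m, hm⟩ : ∃ m : ℕ, (m : ℤ) = k % 5 := ⟨(k % 5).toNat, Int.toNat_of_nonneg hlo⟩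
  rw [← hm, zpow_natCast] at hk'
  have hm5 : m < 5 := by omega
  interval_cases m
  · exact h0 (by rw [← hk', pow_zero])
  · exact h1 (by rw [← hk', pow_one])
  · exact h2 hk'.symm
  · exact h3 hk'.symm
  · exact h4 hk'.symm

/-- The relators encoding the hypotheses of the rank-two transfer lemma for the prime 5. -/
def ws25 : List (List ℕ) :=
  [[0, 0, 0, 0, 0], [2, 2, 2, 2, 2], [0, 2, 1, 3], [4, 0, 5, 0], [4, 2, 5, 3]]

theorem rank_two_of_words5 (a b t : G) (h : ∀ w ∈ ws25, ev (gl [a, b, t]) w = 1) :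
    a ^ 5 = 1 ∧ b ^ 5 = 1 ∧ a * b = b * a ∧ t * a * t⁻¹ = a⁻¹ ∧ t * b * t⁻¹ = b := by
  have h1 : a * (a * (a * (a * (a * 1)))) = 1 := h [0, 0, 0, 0, 0] (by simp [ws25])
  have h2 : b * (b * (b * (b * (b * 1)))) = 1 := h [2, 2, 2, 2, 2] (by simp [ws25])
  have h3 : a * (b * (a⁻¹ * (b⁻¹ * 1))) = 1 := h [0, 2, 1, 3] (by simp [ws25])
  have h4 : t * (a * (t⁻¹ * (a * 1))) = 1 := h [4, 0, 5, 0] (by simp [ws25])
  have h5 : t * (b * (t⁻¹ * (b⁻¹ * 1))) = 1 := h [4, 2, 5, 3] (by simp [ws25])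
  refine ⟨?_, ?_, ?_, ?_, ?_⟩
  · rw [← h1, mul_one, pow_succ, pow_succ, pow_succ, pow_two]; simp only [mul_assoc]
  · rw [← h2, mul_one, pow_succ, pow_succ, pow_succ, pow_two]; simp only [mul_assoc]
  · apply mul_inv_eq_one.1
    rw [← h3]; group
  · apply eq_inv_of_mul_eq_one_left
    rw [← h4]; group
  · apply mul_inv_eq_one.1
    rw [← h5]; group

end Cfsg.Agent.Helper89.Stem
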