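import Cfsg.Agent.Helper89.G24Rel
import Cfsg.Agent.Helper89.G24RelW
import Cfsg.Agent.Helper89.G24TabW
import Cfsg.Agent.Helper89.G24TabC
import Cfsg.Agent.Helper89.G24TabD
import Cfsg.Agent.Helper89.G24Chain
import Cfsg.Agent.Helper89.Stem3
import Cfsg.Agent.Helper89.Rank5
import Cfsg.Agent.Helper89.MConcBase

/-!
# The Schur multiplier of `G₂(4)` is cyclic of order 2 (helper89)

Let `H` be a group of order `251596800` onto which the Chevalley group `G24M.G24` of type `G₂` over
the concrete field with four elements maps (for instance a Chevalley group of type `G₂` over any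
field with four elements).  The cover is the subgroup of `H × Sym(4032 × 2)` generated by ten
pairs: the first components are the images of ten words in helper28's generators `a, …, f`, the
second components come from a labelled table on the cosets of a subgroup `U3(4)`.  The first four
generators (of orders 15, 15, 3, 3) generate the cover and satisfy the relators of the chain
certificate `G24c.Ls` along `C15 < 2^(2+4):15 < U3(4) < 2.G₂(4)`, which gives its order
`2 · |G₂(4)|` and the triviality of the 2-part of its multiplier.  For the prime 3 the Sylow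
subgroup is extraspecial of order 27 with an element inverting both generators; for the prime 5 it
is elementary abelian of rank 2 with an element inverting one generator and centralising the
other; the Sylow 7- and 13-subgroups are cyclic.
-/

set_option autoImplicit false
set_option maxRecDepth 100000

namespace Cfsg.Agent.Helper89.G24c

open Cfsg Subgroup G24M

/-! ### The cover -/

def qs : List (Equiv.Perm (Fin 4032 × Fin 2)) :=
  TP.perms 4032 2 cT cL (by norm_num) (by norm_num) 20 inv_ok hk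

theorem qs_length : qs.length = 10 := by
  simp [qs, TP.perms]

universe u

variable {H : Type u} [Group H] (e : G24 →* H)

/-- The images of the ten generators. -/
noncomputable def gsH : List H := gsJ.map e

theorem gsH_length : (gsH e).length = 10 := by
  rw [gsH, List.length_map, gsJ_length]

theorem hlen : (gsH e).length = qs.length := by
  rw [gsH_length, qs_length]

theorem ev_gsH (w : List ℕ) : ev (gl (gsH e)) w = e (ev (gl gsJ) w) := by
  rw [map_ev, gsH]
  exact ev_congr (fun j => (map_gl e gsJ j).symm) w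

theorem relsH (ws : List (List ℕ)) (h : ws.all mok = true) :
    ∀ w ∈ ws, ev (gl (gsH e)) w = 1 := by
  intro w hw
  rw [ev_gsH, rels_hold ws h w hw, map_one]

theorem genH (he : Function.Surjective e) : closure (gl (gsH e) '' Set.Iio 20) = ⊤ := by
  have h1 : gl (gsH e) '' Set.Iio 20 = e '' (gl gsJ '' Set.Iio 20) := by
    rw [Set.image_image, gsH]
    apply Set.image_congr
    intro j _
    exact (map_gl e gsJ j).symm
  rw [h1, ← MonoidHom.map_closure, gen_top, ← MonoidHom.range_eq_map, MonoidHom.range_eq_top]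
  exact he

/-- The generators of the cover. -/
noncomputable abbrev l : List ↥(CP.cov (gsH e) qs) := CP.gens (gsH e) qs

theorem cov_rels (ws : List (List ℕ)) (h1 : ws.all mok = true) (h2 : ws.all rok = true) :
    ∀ w ∈ ws, ev (gl (l e)) w = 1 :=
  CP.rels_hold (gsH e) qs (hlen e) ws (relsH e ws h1)
    (TP.rels_hold 4032 2 cT cL _ _ 20 inv_ok hk ws h2)

theorem hE : ∀ w ∈ Chain.powW ps, ev (gl (l e)) w = 1 :=
  cov_rels e _ mat_pw tab_pw

theorem hW : ∀ d ∈ Ls, ∀ w ∈ d.ws, ev (gl (l e)) w = 1 := by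
  intro d hd
  simp only [Ls, List.mem_cons, List.not_mem_nil, or_false] at hd
  rcases hd with rfl | rfl | rfl | rfl
  · intro w hw
    exact absurd hw (by simp [L0])
  · exact cov_rels e _ mat_w1 tab_w1
  · exact cov_rels e _ mat_w2 tab_w2
  · exact cov_rels e _ mat_w3 tab_w3

theorem gen20 : closure (gl (l e) '' Set.Iio 20) = ⊤ := by
  have h := CP.gen_top (gsH e) qs (hlen e)
  rw [gsH_length] at h
  exact h

theorem gen8 : closure (gl (l e) '' Set.Iio 8) = ⊤ :=
  CT.closure_of_defs (gl (l e)) (gl_inv (l e)) 8 20 defs (by decide)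
    (cov_rels e _ mat_defs tab_defs) (gen20 e)

variable [Finite H]

theorem card_dvd : Nat.card ↥(CP.cov (gsH e) qs) ∣ 503193600 := by
  have h := Chain.card_dvd (l e) ps Ls valid chained (hE e) (hW e)
  rw [lastK_eq, gen8, Subgroup.card_top, prodN_eq] at h
  exact h

theorem π_surj (he : Function.Surjective e) : Function.Surjective (CP.covπ (gsH e) qs) :=
  CP.π_surj (gsH e) qs (hlen e) (by rw [gsH_length]; exact genH e he)

/-- The generator of the kernel. -/
noncomputable def ζ : ↥(CP.cov (gsH e) qs) := ev (gl (l e)) zw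

theorem ζ_ker : CP.covπ (gsH e) qs (ζ e) = 1 := by
  rw [ζ, CP.π_ev (gsH e) qs (hlen e), ev_gsH, G24M.ev_one zw (List.all_eq_true.1 mat_z zw (by simp)), map_one]

theorem ζ_sq : (ζ e) ^ 2 = 1 := by
  have h := cov_rels e [CT.rep zw 2] mat_zsq tab_zsq
  rw [ζ, ← CT.ev_rep]
  exact h _ (by simp)

theorem ζ_ne : ζ e ≠ 1 :=
  CP.ev_ne_one (gsH e) qs (hlen e) _
    (TP.ev_ne_one 4032 2 cT cL _ _ 20 inv_ok hk _ (by decide +kernel) 0 (by norm_num) tab_z)

theorem ζ_ord : orderOf (ζ e) = 2 :=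
  orderOf_eq_prime (ζ_sq e) (ζ_ne e)

theorem ζ_central : ∀ x, ζ e * x = x * ζ e :=
  CT.central_of_gens (gl (l e)) 8 (gen8 e) (ζ e)
    (CT.comm_of_words (gl (l e)) (gl_inv (l e)) zw 4
      (cov_rels e _ mat_zc tab_zc))

theorem card_cov (he : Function.Surjective e) (hH : Nat.card H = 251596800) :
    Nat.card ↥(CP.cov (gsH e) qs) = 503193600 := by
  have h := CT.card_cover (CP.covπ (gsH e) qs) (π_surj e he) 2
    (by rw [hH]; exact card_dvd e) (ζ e) (ζ_ker e) (ζ_ord e)
  rw [h, hH]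

theorem perfect : commutator ↥(CP.cov (gsH e) qs) = ⊤ :=
  Stem.perfect_of_conj (gl (l e)) (gl_inv (l e)) 4 (gen8 e) cj (by decide)
    (cov_rels e _ mat_cj tab_cj) (cov_rels e _ mat_cp tab_cp)

theorem ne_of_walk (w : List ℕ) (hw : w.all (fun j => decide (j < 20)) = true) (c : ℕ)
    (hc : c < 4032) (h : TP.walkT 4032 2 cT cL w c 0 ≠ (c, 0)) : ev (gl (l e)) w ≠ 1 :=
  CP.ev_ne_one (gsH e) qs (hlen e) _ (TP.ev_ne_one 4032 2 cT cL _ _ 20 inv_ok hk _ hw c hc h)

/-! ### The prime 5 -/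

theorem h5rels : ∀ w ∈ Stem.ws25, ev (gl [gl (l e) 8, gl (l e) 10, gl (l e) 12]) w = 1 := by
  intro w hw
  have h1 := CT.ev_sub3 (gl (l e)) (gl_inv (l e)) 4 w (by
    revert w
    decide)
  have h2 := cov_rels e x5 mat_x5 tab_x5 (w.map (· + 2 * 4))
    (List.mem_map.2 ⟨w, hw, rfl⟩)
  exact h1.trans h2

theorem e9 : gl (l e) 9 = (gl (l e) 8)⁻¹ := Stem.g_iv (gl (l e)) (gl_inv (l e)) 4

theorem a5_ne : gl (l e) 8 ≠ 1 := by
  intro h
  apply ne_of_walk e [8] (by decide) 1 (by norm_num) tab_a5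
  show gl (l e) 8 * 1 = 1
  rw [h, mul_one]

theorem b5_ne0 : gl (l e) 10 ≠ 1 := by
  intro h
  apply ne_of_walk e [10] (by decide) 1 (by norm_num) tab_b5k0
  show gl (l e) 10 * 1 = 1
  rw [h, mul_one]

theorem b5_ne1 : gl (l e) 10 ≠ gl (l e) 8 := by
  intro h
  apply ne_of_walk e [10, 9] (by decide) 1 (by norm_num) tab_b5k1
  show gl (l e) 10 * (gl (l e) 9 * 1) = 1
  rw [e9, h]
  group

theorem b5_ne2 : gl (l e) 10 ≠ gl (l e) 8 ^ 2 := by
  intro h
  apply ne_of_walk e [10, 9, 9] (by decide) 1 (by norm_num) tab_b5k2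
  show gl (l e) 10 * (gl (l e) 9 * (gl (l e) 9 * 1)) = 1
  rw [e9, h]
  group

theorem b5_ne3 : gl (l e) 10 ≠ gl (l e) 8 ^ 3 := by
  intro h
  apply ne_of_walk e [10, 9, 9, 9] (by decide) 1 (by norm_num) tab_b5k3
  show gl (l e) 10 * (gl (l e) 9 * (gl (l e) 9 * (gl (l e) 9 * 1))) = 1
  rw [e9, h]
  group

theorem b5_ne4 : gl (l e) 10 ≠ gl (l e) 8 ^ 4 := by
  intro h
  apply ne_of_walk e [10, 9, 9, 9, 9] (by decide) 1 (by norm_num) tab_b5k4
  show gl (l e) 10 * (gl (l e) 9 * (gl (l e) 9 * (gl (l e) 9 * (gl (l e) 9 * 1)))) = 1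
  rw [e9, h]
  group

/-! ### The prime 3 -/

theorem h3rels : ∀ w ∈ MConc.ws3, ev (gl [gl (l e) 14, gl (l e) 16, gl (l e) 18]) w = 1 := by
  intro w hw
  have h1 := CT.ev_sub3 (gl (l e)) (gl_inv (l e)) 7 w (by
    revert w
    decide)
  have h2 := cov_rels e x3 mat_x3 tab_x3 (w.map (· + 2 * 7))
    (List.mem_map.2 ⟨w, hw, rfl⟩)
  exact h1.trans h2

theorem hne3 : gl (l e) 14 * gl (l e) 16 ≠ gl (l e) 16 * gl (l e) 14 := by
  intro h
  apply ne_of_walk e [14, 16, 15, 17] (by decide) 0 (by norm_num) tab_comm3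
  have e15 : gl (l e) 15 = (gl (l e) 14)⁻¹ := Stem.g_iv (gl (l e)) (gl_inv (l e)) 7
  have e17 : gl (l e) 17 = (gl (l e) 16)⁻¹ := Stem.g_iv (gl (l e)) (gl_inv (l e)) 8
  show gl (l e) 14 * (gl (l e) 16 * (gl (l e) 15 * (gl (l e) 17 * 1))) = 1
  rw [e15, e17, mul_one, ← mul_assoc, h]
  group

theorem not_sq {p : ℕ} (hp : p.Prime) (h2 : p ≠ 2) (h3 : p ≠ 3) (h5 : p ≠ 5) :
    ¬ p ^ 2 ∣ 503193600 := by
  intro h
  have hc2 : Nat.Coprime (p ^ 2) (2 ^ 13) :=
    Nat.Coprime.pow _ _ ((Nat.coprime_primes hp Nat.prime_two).2 h2)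
  have hc3 : Nat.Coprime (p ^ 2) (3 ^ 3) :=
    Nat.Coprime.pow _ _ ((Nat.coprime_primes hp Nat.prime_three).2 h3)
  have hc5 : Nat.Coprime (p ^ 2) (5 ^ 2) :=
    Nat.Coprime.pow _ _ ((Nat.coprime_primes hp (by norm_num)).2 h5)
  have h1 : p ^ 2 ∣ 61425 := hc2.dvd_of_dvd_mul_left (by norm_num; exact h)
  have h4 : p ^ 2 ∣ 2275 := hc3.dvd_of_dvd_mul_left (by norm_num; exact h1)
  have h6 : p ^ 2 ∣ 91 := hc5.dvd_of_dvd_mul_left (by norm_num; exact h4)
  have h7 : p ^ 2 ≤ 91 := Nat.le_of_dvd (by norm_num) h6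
  have h8 : p ≤ 9 := by nlinarith
  interval_cases p <;>
    first | exact absurd h6 (by decide) | exact absurd hp (by decide)

/-- The cover has trivial Schur multiplier. -/
theorem univ (he : Function.Surjective e) (hH : Nat.card H = 251596800)
    (X : Type u) [Group X] [Finite X] (τ : X →* ↥(CP.cov (gsH e) qs))
    (hτ : Function.Surjective τ) (hc : τ.ker ≤ center X) (hd : τ.ker ≤ commutator X) :
    τ.ker = ⊥ := by
  apply Stem.ker_eq_bot_of_primes
  intro p hp
  by_cases h2 : p = 2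
  · subst h2
    exact Chain.two_universal (l e) ps Ls ps_odd valid chained
      (by rw [card_cov e he hH, prodN_eq])
      (by rw [lastK_eq]; exact gen8 e) (hE e) (hW e) X τ hτ hc hd
  by_cases h3 : p = 3
  · subst h3
    obtain ⟨ha, hb, hca, hcb, hna, hnb⟩ :=
      MConc.extra_of_words (gl (l e) 14) (gl (l e) 16) (gl (l e) 18) (h3rels e)
    exact Stem.not_dvd_card_ker_of_extraspecial τ hτ hc hd (gl (l e) 14) (gl (l e) 16)
      (gl (l e) 18) ha hb (hne3 e) hca hcb hna hnb (by rw [card_cov e he hH]; decide)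
  by_cases h5 : p = 5
  · subst h5
    have : Fact (Nat.Prime 5) := ⟨by norm_num⟩
    obtain ⟨ha, hb, hab, hta, htb⟩ :=
      Stem.rank_two_of_words5 (gl (l e) 8) (gl (l e) 10) (gl (l e) 12) (h5rels e)
    exact Stem.not_dvd_card_ker_of_rank_two τ hτ hc hd 5 (by decide) (gl (l e) 8) (gl (l e) 10)
      (gl (l e) 12) ha hb (a5_ne e)
      (Stem.not_mem_zpowers_of5 ha (b5_ne0 e) (b5_ne1 e) (b5_ne2 e) (b5_ne3 e) (b5_ne4 e))
      hab hta htb (by rw [card_cov e he hH]; decide)
  · have : Fact p.Prime := ⟨hp⟩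
    exact Stem.not_dvd_card_ker_of_sq τ hc hd p
      (by rw [card_cov e he hH]; exact not_sq hp h2 h3 h5)

/-- The Schur multiplier of a group of order `251596800` that is an image of `G₂(4)` is cyclic of
order 2. -/
theorem schurG24 (he : Function.Surjective e) (hH : Nat.card H = 251596800) :
    HasCyclicSchurMultiplier H 2 :=
  Stem.cover_cyclic (CP.covπ (gsH e) qs) (π_surj e he) 2 (by rw [hH]; exact card_dvd e) (ζ e)
    (ζ_ker e) (ζ_ord e) (ζ_central e) (perfect e) (univ e he hH)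

end Cfsg.Agent.Helper89.G24c
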