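import Cfsg.Agent.Helper89.G24Mat
import Cfsg.Agent.Helper89.TblPerm

/-!
# A lower bound for the order of `G₂(4)` from orbits of vectors (helper89)

The Chevalley group `G24M.G24` acts on the vectors of length 14 over the field with four elements.
`G24M.fixG cs` is the subgroup fixing the vectors with the codes in `cs`; a certified list of `n`
different vectors in the orbit of the vector with code `c` under `fixG cs` shows
`n * |fixG (c :: cs)| ≤ |fixG cs|` (`G24M.card_fix_step`).  The orbit certificates are tables of
packed entries (code, parent, generator, depth), sorted by code (`G24M.entOK`).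
-/

set_option autoImplicit false

namespace Cfsg.Agent.Helper89.G24M

open Cfsg.Agent.Helper28 Cfsg.Agent.Helper28.G2 Subgroup Matrix

/-- The vector with a given code. -/
noncomputable def vec (c : ℕ) : I14 → GF4 := toV (vecN 14 c)

/-- The matrix of an element. -/
noncomputable def mt (g : G24) : Matrix I14 I14 GF4 := ((g : GLG) : Matrix I14 I14 GF4)

theorem mt_one : mt 1 = 1 := rfl

theorem mt_mul (g h : G24) : mt (g * h) = mt g * mt h := rfl

theorem mt_inv_mul (g : G24) : mt g⁻¹ * mt g = 1 := by
  rw [← mt_mul, inv_mul_cancel, mt_one]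

/-- The elements fixing the vectors with the codes in `cs`. -/
noncomputable def fixG (cs : List ℕ) : Subgroup G24 where
  carrier := {g | ∀ c ∈ cs, mt g *ᵥ vec c = vec c}
  mul_mem' := by
    intro a b ha hb c hc
    show mt (a * b) *ᵥ vec c = vec c
    rw [mt_mul, ← Matrix.mulVec_mulVec, hb c hc, ha c hc]
  one_mem' := by
    intro c _
    show mt 1 *ᵥ vec c = vec c
    rw [mt_one, Matrix.one_mulVec]
  inv_mem' := by
    intro a ha c hc
    show mt a⁻¹ *ᵥ vec c = vec c
    have h : mt a *ᵥ vec c = vec c := ha c hc
    calc mt a⁻¹ *ᵥ vec c = mt a⁻¹ *ᵥ (mt a *ᵥ vec c) := by rw [h]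
      _ = vec c := by rw [Matrix.mulVec_mulVec, mt_inv_mul, Matrix.one_mulVec]

theorem mem_fixG (cs : List ℕ) (g : G24) : g ∈ fixG cs ↔ ∀ c ∈ cs, mt g *ᵥ vec c = vec c := Iff.rfl

/-- The vectors, as a type of their own (this keeps the pointwise scalar actions away). -/
def Vec : Type := I14 → GF4

/-- The action of a subgroup on the vectors. -/
noncomputable def actK (K : Subgroup G24) : MulAction K Vec where
  smul g v := mt (g : G24) *ᵥ (show I14 → GF4 from v)
  one_smul v := by
    show mt ((1 : K) : G24) *ᵥ (show I14 → GF4 from v) = v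
    rw [Subgroup.coe_one, mt_one, Matrix.one_mulVec]
  mul_smul g h v := by
    show mt ((g * h : K) : G24) *ᵥ (show I14 → GF4 from v) =
      mt (g : G24) *ᵥ (mt (h : G24) *ᵥ (show I14 → GF4 from v))
    rw [Subgroup.coe_mul, mt_mul, Matrix.mulVec_mulVec]

/-- One step of the orbit-stabiliser chain. -/
theorem card_fix_step (cs : List ℕ) (c : ℕ) (n : ℕ) (f : ℕ → ℕ)
    (hinj : ∀ i j, i < n → j < n → vec (f i) = vec (f j) → i = j)
    (horb : ∀ i, i < n → ∃ g ∈ fixG cs, mt g *ᵥ vec c = vec (f i)) :
    n * Nat.card (fixG (c :: cs)) ≤ Nat.card (fixG cs) := by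
  classical
  let A : MulAction (fixG cs) Vec := actK (fixG cs)
  haveI : Finite Vec := inferInstanceAs (Finite (I14 → GF4))
  let x : Vec := vec c
  let y : ℕ → Vec := fun i => vec (f i)
  have hsmul : ∀ (k : fixG cs) (v : Vec), k • v = mt (k : G24) *ᵥ (show I14 → GF4 from v) :=
    fun _ _ => rfl
  -- the stabiliser is the next subgroup
  have hmap : (MulAction.stabilizer (fixG cs) x).map (fixG cs).subtype = fixG (c :: cs) := by
    ext g
    constructor
    · rintro ⟨k, hk, rfl⟩
      have hk' : k • x = x := MulAction.mem_stabilizer_iff.1 hk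
      rw [hsmul] at hk'
      intro c' hc'
      rcases List.mem_cons.1 hc' with rfl | h
      · exact hk'
      · exact k.2 c' h
    · intro hg
      have hg1 : g ∈ fixG cs := fun c' hc' => hg c' (List.mem_cons_of_mem _ hc')
      refine ⟨⟨g, hg1⟩, ?_, rfl⟩
      apply MulAction.mem_stabilizer_iff.2
      rw [hsmul]
      exact hg c List.mem_cons_self
  have hcard : Nat.card (MulAction.stabilizer (fixG cs) x) = Nat.card (fixG (c :: cs)) := by
    rw [← hmap]
    exact (Subgroup.card_map_of_injective (Subgroup.subtype_injective _)).symm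
  -- the orbit has at least `n` points
  have horbit : n ≤ (MulAction.orbit (fixG cs) x).ncard := by
    have himg : ((Finset.range n).image y).card = n := by
      rw [Finset.card_image_of_injOn, Finset.card_range]
      intro i hi j hj h
      exact hinj i j (Finset.mem_range.1 hi) (Finset.mem_range.1 hj) h
    have hsub : (((Finset.range n).image y : Finset Vec) : Set Vec) ⊆
        MulAction.orbit (fixG cs) x := by
      intro v hv
      rw [Finset.mem_coe, Finset.mem_image] at hv
      obtain ⟨i, hi, rfl⟩ := hv
      obtain ⟨g, hg, hgv⟩ := horb i (Finset.mem_range.1 hi)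
      exact ⟨⟨g, hg⟩, hgv⟩
    have := Set.ncard_le_ncard hsub (Set.toFinite _)
    rwa [Set.ncard_coe_finset, himg] at this
  have h1 := Subgroup.index_mul_card (MulAction.stabilizer (fixG cs) x)
  rw [MulAction.index_stabilizer, hcard] at h1
  rw [← h1]
  exact Nat.mul_le_mul_right _ horbit

/-! ### Vectors and codes -/

theorem vecN_length : ∀ (n c : ℕ), (vecN n c).length = n
  | 0, _ => rfl
  | n + 1, c => by
    show (ofDig (c % 4) :: vecN n (c / 4)).length = n + 1
    rw [List.length_cons, vecN_length n]

theorem pos_surj (p : ℕ) (hp : p < 14) : ∃ i : I14, pos i = p := by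
  by_cases h : p < 2
  · exact ⟨Sum.inl ⟨p, h⟩, rfl⟩
  · refine ⟨Sum.inr ⟨p - 2, (by omega : p - 2 < 12)⟩, ?_⟩
    show 2 + (p - 2) = p
    omega

theorem toV_inj (l l' : List GF4) (h1 : l.length = 14) (h2 : l'.length = 14)
    (h : toV l = toV l') : l = l' := by
  apply List.ext_getElem (h1.trans h2.symm)
  intro p hp hp'
  obtain ⟨i, hi⟩ := pos_surj p (by omega)
  have h3 := congrFun h i
  have h4 : l.getD (pos i) GF4.z = l'.getD (pos i) GF4.z := h3
  rw [hi, List.getD_eq_getElem _ _ hp, List.getD_eq_getElem _ _ hp'] at h4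
  exact h4

/-- Vectors with different canonical codes are different. -/
theorem code_eq_of_vec_eq (a b : ℕ) (ha : codeL (vecN 14 a) = a) (hb : codeL (vecN 14 b) = b)
    (h : vec a = vec b) : a = b := by
  have h1 := toV_inj _ _ (vecN_length 14 a) (vecN_length 14 b) h
  rw [← ha, ← hb, h1]

/-! ### Orbit certificates -/

/-- Entry `i` of a table stored in chunks of 64. -/
def entF (tab : List (List ℕ)) (i : ℕ) : ℕ := (tab.getD (Nat.div i 64) []).getD (Nat.mod i 64) 0

/-- The code of a packed entry. -/
def eCode (e : ℕ) : ℕ := Nat.land e 268435455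

/-- The parent of a packed entry. -/
def ePar (e : ℕ) : ℕ := Nat.land (Nat.shiftRight e 28) 8191

/-- The generator of a packed entry. -/
def eGen (e : ℕ) : ℕ := Nat.land (Nat.shiftRight e 41) 63

/-- The depth of a packed entry. -/
def eDep (e : ℕ) : ℕ := Nat.shiftRight e 47

/-- The image of a code under a word in the matrices (the last letter acts first). -/
noncomputable def wlk (ms : List (List (List GF4))) (w : List ℕ) (c : ℕ) : ℕ :=
  walkA (stepV (mx ms)) w c

/-- The generator words fix the codes in `cs`. -/
noncomputable def fixOK (ms : List (List (List GF4))) (W : List (List ℕ)) (cs : List ℕ) : Bool :=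
  W.all fun w => cs.all fun c => Nat.beq (wlk ms w c) c

/-- The check of entry `i`: its code is canonical, smaller than the next code, and either it is
the root or it is the image of its parent (of depth one less) under its generator word. -/
noncomputable def entOK (ms : List (List (List GF4))) (W : List (List ℕ)) (c0 n : ℕ)
    (tab : List (List ℕ)) (i : ℕ) : Bool :=
  TP.strict (entF tab i) fun e =>
    (Nat.beq (codeL (vecN 14 (eCode e))) (eCode e) &&
      (Nat.ble n (i + 1) || Nat.blt (eCode e) (eCode (entF tab (i + 1))))) &&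
    cond (Nat.beq (eDep e) 0) (Nat.beq (eCode e) c0)
      (TP.strict (entF tab (ePar e)) fun pe =>
        (Nat.blt (ePar e) n && Nat.beq (eDep pe + 1) (eDep e)) &&
          Nat.beq (wlk ms (W.getD (eGen e) []) (eCode pe)) (eCode e))

/-- A bounded universal quantifier on a range, as a Boolean. -/
def rngAll (a b : ℕ) (f : ℕ → Bool) : Bool := (List.range' a (b - a)).all f

theorem rngAll_spec {a b : ℕ} {f : ℕ → Bool} (h : rngAll a b f = true) (i : ℕ) (h1 : a ≤ i)
    (h2 : i < b) : f i = true := by
  unfold rngAll at h
  rw [List.all_eq_true] at h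
  apply h
  rw [List.mem_range'_1]
  omega

section
variable (ws : List (List ℕ)) (ms : List (List (List GF4))) (hok : genOK ws ms = true)
include hok

/-- The value of a word acts on the codes as the matrices do. -/
theorem mt_ev_vec (w : List ℕ) (c : ℕ) :
    mt (ev (gl (ws.map wv)) w) *ᵥ vec c = vec (wlk ms w c) := by
  unfold mt vec wlk
  rw [ev_val ws ms hok w]
  exact prod_mulVec (mx ms) (genOK_length ws ms hok) w c

theorem ev_mem_fixG (W : List (List ℕ)) (cs : List ℕ) (hfix : fixOK ms W cs = true) (w : List ℕ)
    (hw : w ∈ W) : ev (gl (ws.map wv)) w ∈ fixG cs := by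
  intro c hc
  rw [mt_ev_vec ws ms hok]
  unfold fixOK at hfix
  have h1 := List.all_eq_true.1 (List.all_eq_true.1 hfix w hw) c hc
  rw [Nat.eq_of_beq_eq_true h1]

/-- The entries of a certified table are codes of vectors in the orbit. -/
theorem orbit_of_table (W : List (List ℕ)) (cs : List ℕ) (hfix : fixOK ms W cs = true)
    (c0 n : ℕ) (tab : List (List ℕ)) (h : ∀ i, i < n → entOK ms W c0 n tab i = true) :
    ∀ i, i < n → ∃ g ∈ fixG cs, mt g *ᵥ vec c0 = vec (eCode (entF tab i)) := by
  have key : ∀ d i, i < n → eDep (entF tab i) = d →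
      ∃ g ∈ fixG cs, mt g *ᵥ vec c0 = vec (eCode (entF tab i)) := by
    intro d
    induction d with
    | zero =>
      intro i hi hd
      have h1 := h i hi
      unfold entOK at h1
      rw [TP.strict_eq, Bool.and_eq_true, hd] at h1
      have h2 : Nat.beq (eCode (entF tab i)) c0 = true := h1.2
      refine ⟨1, one_mem _, ?_⟩
      rw [mt_one, Matrix.one_mulVec, Nat.eq_of_beq_eq_true h2]
    | succ d ih =>
      intro i hi hd
      have h1 := h i hi
      unfold entOK at h1
      rw [TP.strict_eq, Bool.and_eq_true, hd] at h1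
      have h2 := h1.2
      have h0 : Nat.beq (d + 1) 0 = false := rfl
      rw [h0, cond_false, TP.strict_eq, Bool.and_eq_true, Bool.and_eq_true] at h2
      obtain ⟨⟨h3, h4⟩, h5⟩ := h2
      have hpar : ePar (entF tab i) < n := Nat.le_of_ble_eq_true h3
      have hdep : eDep (entF tab (ePar (entF tab i))) = d := by
        have := Nat.eq_of_beq_eq_true h4
        omega
      obtain ⟨g, hg, hgv⟩ := ih (ePar (entF tab i)) hpar hdep
      have hx : ev (gl (ws.map wv)) (W.getD (eGen (entF tab i)) []) ∈ fixG cs := by
        by_cases hlt : eGen (entF tab i) < W.length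
        · apply ev_mem_fixG ws ms hok W cs hfix
          rw [List.getD_eq_getElem _ _ hlt]
          exact List.getElem_mem hlt
        · rw [List.getD_eq_default _ _ (by omega)]
          exact one_mem _
      refine ⟨_ * g, mul_mem hx hg, ?_⟩
      rw [mt_mul, ← Matrix.mulVec_mulVec, hgv, mt_ev_vec ws ms hok, Nat.eq_of_beq_eq_true h5]
  intro i hi
  exact key _ i hi rfl

omit hok in
/-- The codes of a certified table are increasing. -/
theorem codes_lt (W : List (List ℕ)) (c0 n : ℕ) (tab : List (List ℕ))
    (h : ∀ i, i < n → entOK ms W c0 n tab i = true) :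
    ∀ j i, i < j → j < n → eCode (entF tab i) < eCode (entF tab j) := by
  have step : ∀ i, i + 1 < n → eCode (entF tab i) < eCode (entF tab (i + 1)) := by
    intro i hi
    have h1 := h i (by omega)
    unfold entOK at h1
    rw [TP.strict_eq, Bool.and_eq_true, Bool.and_eq_true, Bool.or_eq_true] at h1
    rcases h1.1.2 with h2 | h2
    · have := Nat.le_of_ble_eq_true h2
      omega
    · exact Nat.le_of_ble_eq_true h2
  intro j
  induction j with
  | zero => intro i hi _; omega
  | succ j ih =>
    intro i hi hj
    rcases Nat.lt_succ_iff_lt_or_eq.1 hi with h1 | h1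
    · exact lt_trans (ih i h1 (by omega)) (step j hj)
    · rw [h1]; exact step j hj

omit hok in
theorem codes_inj (W : List (List ℕ)) (c0 n : ℕ) (tab : List (List ℕ))
    (h : ∀ i, i < n → entOK ms W c0 n tab i = true) :
    ∀ i j, i < n → j < n → vec (eCode (entF tab i)) = vec (eCode (entF tab j)) → i = j := by
  intro i j hi hj hv
  have can : ∀ k, k < n → codeL (vecN 14 (eCode (entF tab k))) = eCode (entF tab k) := by
    intro k hk
    have h1 := h k hk
    unfold entOK at h1
    rw [TP.strict_eq, Bool.and_eq_true, Bool.and_eq_true] at h1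
    exact Nat.eq_of_beq_eq_true h1.1.1
  have he := code_eq_of_vec_eq _ _ (can i hi) (can j hj) hv
  rcases Nat.lt_trichotomy i j with h1 | h1 | h1
  · have := codes_lt ms W c0 n tab h j i h1 hj
    omega
  · exact h1
  · have := codes_lt ms W c0 n tab h i j h1 hi
    omega

/-- A certified table gives one step of the chain. -/
theorem step_of_table (W : List (List ℕ)) (cs : List ℕ) (hfix : fixOK ms W cs = true)
    (c0 n : ℕ) (tab : List (List ℕ)) (h : ∀ i, i < n → entOK ms W c0 n tab i = true) :
    n * Nat.card (fixG (c0 :: cs)) ≤ Nat.card (fixG cs) :=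
  card_fix_step cs c0 n (fun i => eCode (entF tab i)) (codes_inj ms W c0 n tab h)
    (orbit_of_table ws ms hok W cs hfix c0 n tab h)

end

end Cfsg.Agent.Helper89.G24M
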