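import Cfsg.Agent.Helper28.G2.Surj
import Cfsg.Agent.Helper89.CovTools

/-!
# Words in the generators of `G₂(4)` as matrices (helper89)

The Chevalley group of type `G₂` over the concrete field with four elements is generated by
helper28's six involutions `a, …, f`.  A list of words in them defines a list of generators
`ws.map wv`; a list `ms` of `14 × 14` matrices certified by `G24M.genOK` gives the matrices of these
generators and of their inverses, and then a word in the new generators is evaluated by multiplying
matrices (`G24M.ev_eq_one`, `G24M.ev_eq_af`).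
-/

set_option autoImplicit false

namespace Cfsg.Agent.Helper89.G24M

open Cfsg.Agent.Helper28 Cfsg.Agent.Helper28.G2 Subgroup

/-- The Chevalley group of type `G₂` over the concrete field with four elements. -/
abbrev G24 : Type := ↥(Cfsg.Lie.chevG2.group GF4)

/-- The six generators `a, …, f`. -/
noncomputable def af (k : ℕ) : G24 := ⟨gU (Cfsg.Agent.Helper28.SZQ1.gen k), gU_mem _⟩

/-- The value of a word in `a, …, f`. -/
noncomputable def wv (l : List ℕ) : G24 := (l.map af).prod

theorem wv_coe (l : List ℕ) :
    ((wv l : G24) : GLG) = (l.map (fun k => gU (Cfsg.Agent.Helper28.SZQ1.gen k))).prod := by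
  induction l with
  | nil => rfl
  | cons a l ih =>
    show ((af a * wv l : G24) : GLG) = _
    rw [Subgroup.coe_mul, ih, List.map_cons, List.prod_cons]
    rfl

theorem wv_val (l : List ℕ) :
    (((wv l : G24) : GLG) : Matrix I14 I14 GF4) = (l.map (fun k => toM (gm k))).prod := by
  rw [wv_coe, gU_val_prod]

/-- The matrix with a given number in a list of matrices. -/
def mx (ms : List (List (List GF4))) (j : ℕ) : List (List GF4) := ms.getD j idL

/-- Certificate: `ms` lists the matrices of the values of the words `ws` and of their inverses. -/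
noncomputable def genOK (ws : List (List ℕ)) (ms : List (List (List GF4))) : Bool :=
  (Nat.beq ms.length (2 * ws.length) && ms.all (fun m => Nat.beq m.length 14)) &&
    (List.range ws.length).all (fun i =>
      wordChk gm (ws.getD i []) (mx ms (2 * i)) && prodChk (mx ms (2 * i)) (mx ms (2 * i + 1)) idL)

theorem mx_length (ms : List (List (List GF4)))
    (h : ms.all (fun m => Nat.beq m.length 14) = true) (j : ℕ) : (mx ms j).length = 14 := by
  unfold mx
  rw [List.getD_eq_getElem?_getD]
  cases hj : ms[j]? with
  | none => rfl
  | some m =>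
    have hm : m ∈ ms := List.mem_of_getElem? hj
    exact Nat.eq_of_beq_eq_true (List.all_eq_true.1 h m hm)

theorem genOK_length (ws : List (List ℕ)) (ms : List (List (List GF4))) (h : genOK ws ms = true)
    (j : ℕ) : (mx ms j).length = 14 := by
  unfold genOK at h
  rw [Bool.and_eq_true, Bool.and_eq_true] at h
  exact mx_length ms h.1.2 j

theorem gl_val (ws : List (List ℕ)) (ms : List (List (List GF4))) (h : genOK ws ms = true)
    (j : ℕ) : (((gl (ws.map wv) j : G24) : GLG) : Matrix I14 I14 GF4) = toM (mx ms j) := by
  unfold genOK at h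
  rw [Bool.and_eq_true, Bool.and_eq_true] at h
  obtain ⟨⟨h1, _⟩, h3⟩ := h
  have hlen : ms.length = 2 * ws.length := Nat.eq_of_beq_eq_true h1
  by_cases hi : j / 2 < ws.length
  · have h4 := List.all_eq_true.1 h3 (j / 2) (List.mem_range.2 hi)
    rw [Bool.and_eq_true] at h4
    have hw : (ws.map wv).getD (j / 2) 1 = wv (ws.getD (j / 2) []) := by
      rw [List.getD_eq_getElem?_getD, List.getD_eq_getElem?_getD, List.getElem?_map,
        List.getElem?_eq_getElem hi]
      rfl
    have hv : (((wv (ws.getD (j / 2) []) : G24) : GLG) : Matrix I14 I14 GF4) =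
        toM (mx ms (2 * (j / 2))) := by
      rw [wv_val]
      exact prod_eq_of_chk gm gm_length _ _ h4.1
    unfold gl
    by_cases hpar : j % 2 = 0
    · have hj : 2 * (j / 2) = j := by omega
      rw [if_pos hpar, hw, hv, hj]
    · have hj : 2 * (j / 2) + 1 = j := by omega
      have hmul := mul_of_chk _ _ _ h4.2
      rw [toM_idL, ← hv, hj] at hmul
      rw [if_neg hpar, hw, Subgroup.coe_inv]
      exact Units.inv_eq_of_mul_eq_one_right hmul
  · have hge : ms.length ≤ j := by omega
    have h5 : mx ms j = idL := by
      unfold mx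
      rw [List.getD_eq_getElem?_getD, List.getElem?_eq_none hge]
      rfl
    have h6 : (ws.map wv).getD (j / 2) 1 = 1 := by
      rw [List.getD_eq_getElem?_getD, List.getElem?_eq_none (by rw [List.length_map]; omega)]
      rfl
    unfold gl
    rw [h5, toM_idL, h6]
    split <;> simp

theorem ev_val (ws : List (List ℕ)) (ms : List (List (List GF4))) (h : genOK ws ms = true)
    (w : List ℕ) : (((ev (gl (ws.map wv)) w : G24) : GLG) : Matrix I14 I14 GF4) =
      (w.map (fun j => toM (mx ms j))).prod := by
  induction w with
  | nil => rfl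
  | cons j w ih =>
    rw [ev, Subgroup.coe_mul, Units.val_mul, gl_val ws ms h, ih, List.map_cons, List.prod_cons]

/-- A word whose matrix product is the identity evaluates to `1`. -/
theorem ev_eq_one (ws : List (List ℕ)) (ms : List (List (List GF4))) (h : genOK ws ms = true)
    (w : List ℕ) (hw : basisChk (mx ms) w = true) : ev (gl (ws.map wv)) w = 1 := by
  apply Subtype.ext
  apply Units.ext
  rw [ev_val ws ms h, prod_eq_one (mx ms) (genOK_length ws ms h) w hw]
  rfl

/-- A word whose matrix product is the matrix of one of `a, …, f` evaluates to that generator. -/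
theorem ev_eq_af (ws : List (List ℕ)) (ms : List (List (List GF4))) (h : genOK ws ms = true)
    (w : List ℕ) (k : ℕ) (hw : wordChk (mx ms) w (gm k) = true) :
    ev (gl (ws.map wv)) w = af k := by
  apply Subtype.ext
  apply Units.ext
  rw [ev_val ws ms h, prod_eq_of_chk (mx ms) (genOK_length ws ms h) w (gm k) hw]
  exact (gU_val _).symm

/-- A subgroup containing `a, …, f` is the whole group. -/
theorem top_of_af (S : Subgroup G24) (h : ∀ k, k < 6 → af k ∈ S) : S = ⊤ := by
  rw [eq_top_iff]
  rintro ⟨y, hy⟩ _
  have hy' : y ∈ phi.range := by rw [phi_range]; exact hy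
  obtain ⟨q, hq⟩ := hy'
  have h1 : (⊤ : Subgroup QG) ≤ (S.map (Cfsg.Lie.chevG2.group GF4).subtype).comap phi := by
    rw [← PresentedGroup.closure_range_of, closure_le]
    rintro _ ⟨x, rfl⟩
    show phi (PresentedGroup.of x) ∈ S.map (Cfsg.Lie.chevG2.group GF4).subtype
    rw [phi_of]
    refine ⟨af (Cfsg.Agent.Helper28.SZQ1.code x), h _ (by cases x <;> decide), ?_⟩
    show gU (Cfsg.Agent.Helper28.SZQ1.gen (Cfsg.Agent.Helper28.SZQ1.code x)) = gU x
    cases x <;> rfl
  obtain ⟨s, hs, hsq⟩ := h1 (mem_top q)
  have e : s = ⟨y, hy⟩ := Subtype.ext (hsq.trans hq)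
  rw [← e]
  exact hs

/-- Generation by the values of words: the words `aw` express `a, …, f` in the new generators. -/
theorem closure_top (ws : List (List ℕ)) (ms : List (List (List GF4))) (h : genOK ws ms = true)
    (K : ℕ) (aw : List (List ℕ))
    (haw : (List.range 6).all (fun k => wordChk (mx ms) (aw.getD k []) (gm k) &&
      (aw.getD k []).all (fun j => decide (j < K))) = true) :
    closure (gl (ws.map wv) '' Set.Iio K) = ⊤ := by
  apply top_of_af
  intro k hk
  have h1 := List.all_eq_true.1 haw k (List.mem_range.2 hk)
  rw [Bool.and_eq_true] at h1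
  rw [← ev_eq_af ws ms h (aw.getD k []) k h1.1]
  apply CT.ev_mem_closure'
  intro j hj
  exact of_decide_eq_true (List.all_eq_true.1 h1.2 j hj)

end Cfsg.Agent.Helper89.G24M
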