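import Cfsg.Agent.Helper89.G24Mat

/-! # Generators of `G₂(4)` for the double cover: words in `a, …, f` and their matrices (helper89)

Generated data. -/

set_option autoImplicit false
set_option maxRecDepth 100000

namespace Cfsg.Agent.Helper89.G24M

open Cfsg.Agent.Helper89

open Cfsg.Agent.Helper28 Cfsg.Agent.Helper28.G2 Subgroup

/-- Ten generators as words in `a, …, f`: four generators of a chain (orders 15, 15, 3, 3), a triple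
for the prime 5 and a triple for the prime 3. -/
def gw : List (List ℕ) := [[1, 3, 2, 1, 0, 1, 2, 5, 1, 0, 2, 1, 3, 2, 3, 2, 4], [2, 1, 0, 1, 2, 3, 4, 2, 3, 2, 0, 1, 0, 1, 2, 3, 4, 2, 3, 2, 1, 5, 1, 2, 3, 4, 3, 2, 0, 1, 0, 1, 2, 1, 0, 1, 2, 3, 4, 2, 3, 2, 0, 4, 2, 3, 2, 3, 1, 2, 0, 1, 5, 2, 1, 0, 1, 2, 3, 1, 2, 1, 0, 1, 2, 3, 4, 2, 3, 2, 0, 3, 1, 2, 1, 0, 1, 5, 1, 0, 1, 2, 3, 1, 1, 3, 2, 1, 0, 1, 2, 5, 1, 0, 2, 1, 3, 2, 3, 2, 4, 1, 3, 2, 1, 0, 1, 5, 1, 0, 1, 2, 1, 3, 0, 2, 3, 2, 4, 3, 2, 1, 0, 1, 2, 1, 3, 2, 1, 0, 1, 2, 5, 1, 0, 2, 1, 3, 2, 3, 2, 4, 0, 2, 3, 2, 4, 3, 2, 1, 0, 1, 2, 1, 0, 1, 0, 2, 3, 4, 3, 2, 1, 5, 1, 2, 3, 2, 4, 3, 2, 1, 0, 1, 0, 2, 3, 2, 4, 3, 2, 1, 0, 1, 2], [1, 0, 1, 0, 2, 3, 4, 3, 2, 1, 5, 1, 2, 3, 2, 4, 3, 2, 1, 0, 1], [1, 2], [0, 1, 2, 3, 4, 0, 1, 2, 3, 4], [1, 0, 1, 0, 2, 3, 4,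 3, 2, 1, 5, 1, 2, 3, 2, 4, 3, 2, 1, 0, 1, 1, 3, 2, 1, 0, 1, 5, 1, 0, 1, 2, 1, 3], [0, 1, 0, 3, 4, 3], [0, 2, 1, 0, 3, 2, 1, 3, 2, 4, 3, 2, 1, 2, 3, 4, 2, 3, 1, 2, 3, 0, 1, 2], [4, 3, 2, 1, 0, 3, 2, 1, 0, 3, 2, 1, 3, 4, 3, 2, 3, 4, 1, 2, 3, 2, 1, 0, 1, 2, 3, 1, 2], [0]]

/-- The matrices of the ten generators and of their inverses. -/
def gmat : List (List (List GF4)) := [
  [[.v, .w, .z, .w, .z, .o, .w, .z, .v, .z, .o, .z, .z, .z], [.o, .v, .z, .w, .v, .o, .w, .w, .z, .v, .z, .z, .z, .z], [.o, .v, .o, .o, .z, .w, .w, .o, .w, .v, .v, .o, .w, .z], [.v, .z, .w, .v, .z, .v, .o, .w, .o, .o, .w, .z, .w, .v], [.w, .w, .v, .v, .v, .o, .o, .v, .o, .o, .v, .o, .z, .w], [.o, .v, .o, .o, .z, .z, .z, .o, .w, .v, .v, .z, .v, .o], [.o, .o, .z, .o, .z, .v, .v, .z, .w, .z, .v, .w, .v, .z], [.v, .o, .w, .w, .z, .v, .v,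 .v, .w, .o, .o, .w, .z, .v], [.z, .v, .z, .v, .o, .w, .w, .v, .v, .o, .z, .w, .z, .v], [.o, .z, .z, .z, .o, .z, .z, .v, .v, .w, .o, .v, .o, .z], [.z, .w, .z, .o, .w, .v, .o, .o, .z, .v, .w, .z, .o, .w], [.z, .w, .z, .w, .v, .o, .o, .w, .o, .v, .z, .v, .z, .o], [.z, .o, .z, .v, .o, .w, .v, .v, .z, .w, .v, .z, .w, .v], [.z, .z, .z, .z, .z, .z, .z, .z, .w, .z, .v, .o, .w, .z]],
  [[.v, .w, .z, .o, .w, .w, .z, .v, .o, .o, .v, .w, .z, .v], [.o, .v, .z, .z, .z, .z, .o, .z, .v, .o, .o, .w, .v, .o], [.z, .z, .z, .v, .o, .w, .z, .v, .v, .z, .o, .w, .v, .z], [.z, .z, .w, .w, .z, .o, .o, .z, .z, .v, .v, .z, .w, .w], [.z, .z, .o, .z, .v, .z, .v, .w, .w, .w, .z, .o, .z, .o], [.z, .o, .v, .v, .z, .w, .o, .z, .o, .v, .v, .v, .w, .v], [.v, .z, .z, .w, .v, .v, .w, .o, .o, .z, .v, .o, .o, .v], [.z, .v, .w, .z, .o, .z,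 .v, .v, .w, .w, .w, .o, .o, .w], [.w, .z, .z, .v, .w, .o, .v, .v, .v, .z, .o, .v, .w, .o], [.w, .w, .z, .v, .o, .o, .z, .w, .v, .v, .z, .o, .o, .w], [.o, .o, .z, .w, .o, .v, .z, .w, .v, .v, .z, .o, .v, .w], [.v, .z, .z, .o, .v, .w, .o, .o, .z, .z, .z, .v, .z, .z], [.w, .w, .z, .v, .w, .o, .z, .v, .w, .o, .o, .v, .v, .o], [.z, .z, .z, .z, .z, .z, .z, .z, .w, .z, .o, .v, .w, .o]],
  [[.z, .o, .w, .o, .z, .o, .w, .w, .z, .w, .o, .w, .o, .w], [.z, .v, .o, .w, .z, .w, .o, .v, .v, .o, .w, .z, .v, .w], [.w, .v, .w, .z, .o, .v, .v, .z, .w, .o, .w, .w, .w, .z], [.w, .z, .o, .v, .z, .o, .v, .v, .o, .o, .v, .z, .o, .v], [.o, .w, .w, .w, .z, .o, .z, .o, .v, .w, .w, .w, .z, .v], [.w, .v, .o, .o, .w, .z, .z, .w, .o, .w, .v, .z, .o, .v], [.o, .o, .o, .o, .w, .o, .o, .v, .w, .z, .w, .v, .v, .z], [.z, .v, .z, .v, .w,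 .o, .o, .v, .w, .w, .v, .v, .o, .v], [.w, .v, .v, .v, .z, .v, .v, .w, .o, .v, .v, .v, .o, .w], [.v, .v, .v, .v, .z, .z, .w, .v, .z, .v, .v, .w, .v, .w], [.z, .z, .z, .z, .z, .w, .w, .z, .z, .z, .z, .w, .w, .w], [.o, .w, .w, .w, .v, .w, .w, .w, .z, .o, .w, .o, .v, .w], [.v, .v, .w, .v, .z, .w, .v, .w, .z, .w, .v, .v, .o, .v], [.o, .o, .o, .o, .z, .o, .o, .o, .z, .o, .o, .o, .z, .o]],
  [[.v, .o, .o, .v, .w, .z, .v, .v, .v, .o, .v, .w, .z, .v], [.z, .z, .o, .v, .o, .z, .v, .w, .z, .o, .w, .o, .w, .w], [.w, .w, .o, .v, .w, .w, .w, .w, .v, .z, .v, .v, .v, .z], [.v, .o, .z, .o, .v, .w, .v, .o, .o, .v, .o, .z, .o, .w], [.z, .w, .o, .v, .o, .w, .w, .v, .v, .v, .z, .w, .z, .w], [.w, .o, .o, .v, .w, .z, .v, .v, .v, .w, .v, .w, .v, .w], [.o, .w, .o, .w, .o, .z, .v, .v, .w, .z, .w, .w, .o, .o], [.v, .z, .z, .z,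 .z, .z, .z, .o, .w, .w, .o, .v, .o, .w], [.v, .w, .o, .w, .w, .z, .v, .w, .v, .v, .w, .o, .v, .z], [.o, .w, .o, .v, .w, .w, .w, .v, .o, .o, .z, .z, .v, .v], [.w, .o, .o, .w, .w, .w, .z, .v, .o, .o, .z, .o, .o, .v], [.z, .z, .z, .z, .v, .z, .z, .z, .w, .w, .w, .z, .z, .o], [.w, .o, .o, .v, .w, .z, .v, .v, .v, .o, .o, .w, .v, .z], [.o, .w, .o, .w, .w, .z, .v, .v, .z, .o, .o, .w, .o, .w]],
  [[.z, .v, .v, .o, .o, .o, .v, .w, .w, .z, .v, .o, .o, .o], [.w, .o, .w, .w, .o, .z, .o, .v, .o, .w, .w, .w, .z, .o], [.o, .v, .v, .w, .z, .o, .v, .w, .o, .w, .o, .o, .o, .z], [.v, .z, .o, .o, .v, .v, .o, .o, .z, .o, .o, .v, .v, .o], [.z, .v, .o, .z, .w, .z, .o, .w, .w, .w, .o, .w, .o, .z], [.v, .z, .v, .v, .w, .v, .z, .o, .v, .v, .v, .v, .v, .z], [.v, .w, .v, .w, .z, .v, .o, .o, .v, .z, .z, .v, .v, .v], [.o, .v, .w,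 .v, .o, .z, .v, .v, .o, .w, .o, .o, .o, .z], [.w, .w, .v, .w, .v, .v, .o, .w, .o, .o, .o, .v, .z, .w], [.w, .w, .z, .o, .v, .z, .z, .z, .z, .o, .v, .z, .v, .z], [.o, .w, .o, .v, .o, .z, .o, .w, .v, .v, .z, .w, .v, .w], [.o, .w, .v, .w, .w, .v, .o, .o, .o, .v, .v, .o, .z, .v], [.z, .w, .w, .z, .o, .z, .v, .v, .w, .w, .o, .o, .v, .o], [.w, .v, .o, .v, .o, .o, .w, .o, .o, .z, .v, .v, .v, .v]],
  [[.o, .v, .v, .w, .w, .w, .w, .w, .v, .w, .z, .v, .z, .v], [.w, .z, .w, .z, .o, .o, .w, .w, .o, .v, .v, .z, .v, .o], [.o, .o, .v, .o, .v, .w, .z, .w, .z, .v, .z, .z, .o, .z], [.z, .o, .v, .v, .z, .v, .v, .z, .o, .v, .v, .o, .v, .o], [.w, .o, .v, .o, .o, .w, .z, .v, .o, .v, .v, .w, .v, .o], [.w, .v, .v, .o, .v, .z, .v, .o, .o, .z, .v, .o, .o, .o], [.w, .z, .z, .w, .v, .v, .o, .o, .w, .z, .v, .w, .o, .w], [.o, .w,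 .o, .w, .o, .v, .z, .o, .o, .v, .v, .w, .z, .o], [.v, .w, .o, .v, .o, .w, .z, .w, .v, .o, .o, .w, .o, .w], [.o, .v, .w, .v, .o, .o, .z, .o, .v, .o, .z, .o, .o, .v], [.z, .o, .o, .z, .v, .z, .z, .v, .z, .v, .v, .z, .v, .o], [.o, .o, .o, .o, .w, .o, .v, .v, .o, .z, .w, .w, .v, .z], [.w, .o, .v, .z, .w, .v, .o, .w, .v, .w, .v, .z, .o, .w], [.w, .v, .o, .w, .v, .o, .z, .v, .w, .v, .v, .o, .o, .v]],
  [[.o, .o, .z, .z, .z, .z, .z, .z, .v, .z, .z, .w, .z, .v], [.z, .o, .z, .z, .z, .z, .z, .z, .v, .z, .o, .w, .v, .z], [.z, .z, .z, .z, .z, .z, .z, .z, .z, .z, .z, .z, .z, .w], [.z, .z, .z, .z, .z, .z, .z, .z, .v, .z, .z, .z, .z, .w], [.z, .z, .z, .z, .z, .z, .z, .z, .z, .z, .v, .z, .z, .o], [.z, .z, .z, .z, .z, .z, .z, .z, .z, .z, .z, .v, .z, .v], [.z, .z, .z, .z, .z, .z, .o, .z, .o, .z, .z, .v, .z, .z], [.z,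 .z, .z, .z, .z, .z, .z, .z, .z, .z, .z, .z, .v, .w], [.o, .o, .z, .w, .z, .z, .v, .z, .w, .z, .o, .w, .v, .v], [.z, .z, .z, .z, .z, .z, .z, .z, .z, .o, .v, .z, .w, .z], [.v, .z, .z, .z, .w, .z, .z, .z, .w, .o, .w, .o, .w, .w], [.w, .w, .z, .z, .z, .w, .o, .z, .o, .z, .w, .w, .o, .o], [.o, .z, .z, .z, .z, .z, .z, .w, .v, .w, .o, .w, .w, .v], [.z, .w, .v, .w, .v, .o, .z, .w, .o, .z, .w, .v, .o, .o]],
  [[.o, .o, .w, .z, .w, .z, .z, .o, .z, .z, .z, .z, .z, .z], [.z, .o, .z, .o, .w, .v, .z, .o, .z, .z, .z, .z, .z, .z], [.z, .v, .o, .v, .o, .w, .z, .v, .w, .z, .v, .o, .w, .w], [.v, .z, .o, .w, .o, .w, .w, .v, .v, .z, .z, .z, .z, .z], [.w, .w, .v, .w, .w, .o, .z, .w, .z, .v, .v, .z, .z, .z], [.o, .z, .w, .o, .w, .w, .v, .o, .z, .z, .z, .v, .z, .z], [.z, .z, .z, .w, .z, .o, .o, .z, .z, .z, .z, .z, .z, .z],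 [.v, .v, .o, .v, .o, .w, .z, .w, .z, .o, .z, .z, .v, .z], [.z, .z, .w, .w, .z, .z, .z, .z, .z, .z, .z, .z, .z, .z], [.z, .z, .z, .z, .o, .z, .z, .v, .z, .o, .z, .z, .z, .z], [.z, .z, .o, .z, .w, .z, .z, .z, .z, .z, .z, .z, .z, .z], [.z, .z, .v, .z, .z, .w, .z, .z, .z, .z, .z, .z, .z, .z], [.z, .z, .w, .z, .z, .z, .z, .w, .z, .z, .z, .z, .z, .z], [.z, .z, .v, .z, .z, .z, .z, .z, .z, .z, .z, .z, .z, .z]],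
  [[.z, .o, .z, .z, .v, .z, .z, .o, .w, .o, .z, .v, .w, .v], [.v, .v, .z, .o, .v, .w, .w, .o, .w, .o, .v, .z, .w, .w], [.z, .z, .z, .z, .z, .z, .z, .z, .v, .z, .w, .o, .v, .o], [.v, .v, .z, .w, .o, .v, .z, .w, .w, .w, .o, .v, .v, .v], [.w, .v, .z, .o, .v, .w, .w, .o, .w, .w, .o, .z, .v, .v], [.o, .o, .z, .v, .w, .o, .z, .v, .z, .v, .w, .z, .o, .z], [.v, .v, .z, .w, .z, .v, .z, .z, .o, .z, .w, .w, .w, .w], [.v, .o, .z, .w, .o, .v, .v, .w, .v, .v, .v, .z, .v, .v], [.z, .w, .v, .z, .o, .z, .w, .v, .v, .o, .v, .w, .w, .w], [.v, .z, .z, .z, .w, .z, .z, .v, .w, .o, .w, .w, .o, .w], [.w, .v, .w, .w, .w, .z, .o, .w, .z, .w, .o, .o, .v, .v], [.w, .o, .o, .o, .w, .w, .o, .o, .o, .w, .z, .z, .w, .o], [.z, .o, .v, .v, .o, .z, .w, .z, .w, .z, .w, .z, .z, .w], [.w, .v, .w, .w, .v, .z, .o, .w, .v, .v, .w, .o, .v, .z]],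
  [[.v, .o, .v, .o, .o, .v, .z, .w, .o, .v, .o, .v, .v, .z], [.v, .z, .w, .z, .w, .w, .v, .z, .v, .v, .o, .w, .v, .z], [.w, .v, .z, .w, .o, .v, .w, .w, .v, .w, .z, .v, .v, .o], [.w, .w, .v, .z, .w, .v, .o, .w, .v, .w, .o, .v, .v, .v], [.z, .v, .o, .z, .z, .o, .w, .w, .z, .w, .z, .z, .v, .o], [.v, .z, .w, .w, .z, .o, .w, .v, .v, .w, .w, .o, .o, .w], [.o, .o, .v, .z, .w, .w, .o, .o, .v, .z, .v, .w, .w, .z], [.w, .w, .v, .w, .o, .z, .w, .v, .v, .o, .z, .w, .w, .v], [.o, .o, .w, .z, .o, .w, .v, .v, .w, .z, .v, .o, .w, .z], [.w, .z, .o, .w, .o, .o, .z, .w, .v, .z, .z, .w, .z, .z], [.w, .z, .z, .z, .w, .z, .z, .z, .v, .v, .o, .w, .v, .z], [.v, .v, .v, .o, .w, .w, .w, .o, .o, .z, .w, .v, .o, .z], [.o, .z, .w, .v, .o, .w, .z, .z, .w, .w, .v, .o, .w, .z], [.z, .z, .w, .v, .o, .w, .z, .v, .z, .z, .z, .z, .z, .z]],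
  [[.v, .w, .z, .o, .z, .z, .w, .z, .z, .z, .v, .v, .o, .o], [.w, .w, .w, .w, .o, .v, .w, .o, .z, .v, .o, .v, .v, .o], [.v, .w, .o, .w, .v, .z, .w, .w, .v, .o, .v, .v, .v, .z], [.v, .o, .w, .w, .o, .z, .v, .v, .z, .w, .o, .o, .w, .w], [.o, .o, .z, .v, .w, .z, .z, .z, .z, .v, .w, .z, .w, .z], [.v, .z, .v, .v, .w, .v, .z, .o, .v, .v, .v, .v, .v, .z], [.z, .o, .o, .w, .v, .o, .v, .w, .z, .o, .o, .z, .v, .w], [.w, .o, .o, .v, .z, .w, .o, .v, .w, .v, .w, .w, .w, .z], [.z, .z, .v, .z, .z, .o, .z, .w, .z, .w, .z, .z, .v, .z], [.z, .o, .w, .z, .v, .z, .w, .v, .v, .v, .w, .v, .w, .z], [.v, .o, .v, .w, .o, .z, .v, .o, .z, .o, .o, .o, .w, .w], [.z, .v, .z, .w, .v, .z, .w, .z, .z, .o, .o, .z, .z, .o], [.o, .w, .o, .w, .w, .o, .o, .w, .v, .w, .z, .o, .o, .v], [.z, .o, .w, .w, .v, .w, .v, .v, .z, .v, .o, .z, .o, .w]],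
  [[.w, .w, .o, .w, .v, .o, .o, .z, .o, .o, .z, .o, .o, .w], [.w, .v, .z, .o, .z, .v, .z, .z, .w, .z, .v, .o, .v, .v], [.o, .o, .w, .v, .o, .w, .z, .z, .z, .w, .z, .z, .w, .z], [.v, .o, .o, .o, .z, .w, .w, .v, .w, .v, .v, .w, .w, .v], [.v, .v, .z, .o, .z, .o, .v, .z, .w, .z, .v, .z, .o, .v], [.o, .v, .o, .z, .o, .o, .w, .z, .w, .o, .v, .w, .o, .v], [.v, .z, .v, .w, .o, .o, .v, .w, .v, .o, .v, .v, .w, .o], [.z, .z, .z, .v, .z, .z, .v, .z, .w, .z, .v, .z, .z, .v], [.o, .z, .v, .w, .z, .o, .v, .w, .v, .w, .o, .z, .v, .w], [.w, .w, .v, .o, .w, .v, .w, .z, .o, .v, .z, .z, .v, .w], [.v, .z, .w, .o, .z, .z, .z, .o, .w, .o, .v, .z, .z, .z], [.o, .z, .v, .w, .v, .o, .v, .z, .z, .v, .w, .w, .o, .v], [.w, .o, .w, .w, .w, .w, .z, .z, .v, .w, .v, .v, .w, .w], [.w, .z, .w, .o, .z, .v, .w, .v, .o, .o, .v, .z, .w, .o]],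
  [[.o, .w, .o, .z, .z, .z, .z, .z, .z, .z, .z, .z, .z, .o], [.z, .o, .z, .z, .z, .z, .z, .z, .z, .z, .z, .z, .z, .z], [.z, .o, .w, .z, .z, .z, .z, .z, .z, .z, .z, .z, .z, .v], [.z, .z, .z, .z, .z, .z, .z, .v, .z, .z, .z, .z, .w, .z], [.z, .z, .z, .z, .z, .w, .z, .z, .z, .z, .z, .o, .z, .z], [.z, .z, .z, .z, .o, .z, .z, .z, .z, .z, .v, .z, .z, .z], [.z, .z, .z, .z, .z, .z, .z, .z, .z, .w, .z, .z, .z, .z], [.z, .z, .z, .v, .z, .z, .z, .z, .w, .z, .z, .z, .z, .z], [.z, .z, .z, .z, .z, .z, .z, .w, .z, .z, .z, .z, .v, .z], [.z, .z, .z, .z, .z, .z, .v, .z, .z, .z, .z, .z, .z, .z], [.z, .z, .z, .z, .z, .o, .z, .z, .z, .z, .z, .w, .z, .z], [.z, .z, .z, .z, .v, .z, .z, .z, .z, .z, .o, .z, .z, .z], [.z, .z, .z, .w, .z, .z, .z, .z, .v, .z, .z, .z, .z, .z], [.z, .o, .v, .z, .z, .z, .z, .z, .z, .z, .z, .z, .z, .w]],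
  [[.o, .w, .o, .z, .z, .z, .z, .z, .z, .z, .z, .z, .z, .o], [.z, .o, .z, .z, .z, .z, .z, .z, .z, .z, .z, .z, .z, .z], [.z, .o, .w, .z, .z, .z, .z, .z, .z, .z, .z, .z, .z, .v], [.z, .z, .z, .z, .z, .z, .z, .v, .z, .z, .z, .z, .w, .z], [.z, .z, .z, .z, .z, .w, .z, .z, .z, .z, .z, .o, .z, .z], [.z, .z, .z, .z, .o, .z, .z, .z, .z, .z, .v, .z, .z, .z], [.z, .z, .z, .z, .z, .z, .z, .z, .z, .w, .z, .z, .z, .z], [.z, .z, .z, .v, .z, .z, .z, .z, .w, .z, .z, .z, .z, .z], [.z, .z, .z, .z, .z, .z, .z, .w, .z, .z, .z, .z, .v, .z], [.z, .z, .z, .z, .z, .z, .v, .z, .z, .z, .z, .z, .z, .z], [.z, .z, .z, .z, .z, .o, .z, .z, .z, .z, .z, .w, .z, .z], [.z, .z, .z, .z, .v, .z, .z, .z, .z, .z, .o, .z, .z, .z], [.z, .z, .z, .w, .z, .z, .z, .z, .v, .z, .z, .z, .z, .z], [.z, .o, .v, .z, .z, .z, .z, .z, .z, .z, .z, .z, .z, .w]],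
  [[.o, .o, .v, .o, .z, .z, .z, .z, .w, .z, .z, .z, .z, .z], [.w, .w, .w, .w, .z, .z, .z, .v, .o, .z, .z, .z, .o, .w], [.z, .v, .w, .o, .z, .z, .z, .z, .w, .z, .z, .z, .z, .o], [.z, .v, .w, .w, .z, .z, .z, .z, .v, .z, .z, .z, .z, .o], [.z, .z, .z, .z, .o, .z, .z, .z, .z, .z, .w, .z, .z, .z], [.z, .z, .z, .z, .z, .w, .o, .z, .z, .z, .z, .v, .z, .z], [.z, .z, .z, .z, .z, .w, .w, .z, .z, .z, .z, .v, .z, .z], [.w, .v, .w, .o, .z, .z, .z, .v, .v, .z, .z, .z, .o, .w], [.v, .w, .o, .o, .z, .z, .z, .v, .o, .z, .z, .z, .o, .w], [.z, .z, .z, .z, .o, .z, .z, .z, .z, .w, .v, .z, .z, .z], [.z, .z, .z, .z, .v, .z, .z, .z, .z, .w, .v, .z, .z, .z], [.z, .z, .z, .z, .z, .v, .o, .z, .z, .z, .z, .z, .z, .z], [.w, .z, .v, .o, .z, .z, .z, .o, .v, .z, .z, .z, .z, .z], [.w, .z, .w, .v, .z, .z, .z, .o, .v, .z, .z, .z, .z, .z]],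
  [[.w, .o, .z, .z, .z, .z, .z, .w, .v, .z, .z, .z, .v, .v], [.w, .o, .w, .w, .z, .z, .z, .v, .w, .z, .z, .z, .z, .z], [.w, .z, .z, .z, .z, .z, .z, .w, .w, .z, .z, .z, .o, .o], [.o, .z, .z, .z, .z, .z, .z, .o, .o, .z, .z, .z, .z, .z], [.z, .z, .z, .z, .z, .z, .z, .z, .z, .v, .v, .z, .z, .z], [.z, .z, .z, .z, .z, .v, .v, .z, .z, .z, .z, .w, .z, .z], [.z, .z, .z, .z, .z, .w, .w, .z, .z, .z, .z, .z, .z, .z], [.o, .w, .v, .v, .z, .z, .z, .o, .v, .z, .z, .z, .v, .w], [.v, .z, .o, .o, .z, .z, .z, .v, .v, .z, .z, .z, .z, .z], [.z, .z, .z, .z, .o, .z, .z, .z, .z, .w, .o, .z, .z, .z], [.z, .z, .z, .z, .v, .z, .z, .z, .z, .w, .w, .z, .z, .z], [.z, .z, .z, .z, .z, .v, .o, .z, .z, .z, .z, .o, .z, .z], [.w, .o, .v, .o, .z, .z, .z, .o, .o, .z, .z, .z, .w, .o], [.w, .v, .w, .v, .z, .z, .z, .o, .w, .z, .z, .z, .w, .w]],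
  [[.o, .o, .z, .z, .z, .z, .z, .o, .z, .z, .z, .z, .w, .w], [.z, .o, .z, .z, .z, .z, .z, .o, .z, .z, .z, .z, .z, .z], [.z, .z, .z, .z, .z, .z, .z, .z, .z, .z, .z, .z, .v, .v], [.w, .z, .z, .z, .z, .z, .z, .w, .w, .z, .z, .z, .z, .z], [.z, .z, .z, .z, .z, .z, .z, .z, .z, .w, .w, .z, .z, .z], [.z, .z, .z, .z, .z, .z, .z, .z, .z, .z, .z, .w, .z, .z], [.z, .z, .z, .z, .z, .o, .o, .z, .z, .z, .z, .z, .z, .z], [.z, .z, .z, .z, .z, .z, .z, .z, .z, .z, .z, .z, .w, .z], [.o, .z, .v, .v, .z, .z, .z, .o, .o, .z, .z, .z, .z, .z], [.z, .z, .z, .z, .z, .z, .z, .z, .z, .o, .z, .z, .z, .z], [.z, .z, .z, .z, .v, .z, .z, .z, .z, .o, .o, .z, .z, .z], [.z, .z, .z, .z, .z, .v, .z, .z, .z, .z, .z, .o, .z, .z], [.z, .z, .z, .z, .z, .z, .z, .v, .z, .z, .z, .z, .o, .z], [.z, .v, .w, .z, .z, .z, .z, .v, .z, .z, .z, .z, .o, .o]],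
  [[.o, .o, .v, .z, .z, .z, .z, .z, .z, .z, .z, .z, .z, .z], [.z, .o, .z, .z, .z, .z, .z, .o, .z, .z, .z, .z, .w, .z], [.z, .w, .o, .z, .z, .z, .z, .z, .z, .z, .z, .z, .z, .v], [.z, .w, .o, .o, .z, .z, .z, .z, .w, .z, .z, .z, .z, .v], [.z, .z, .z, .z, .o, .z, .z, .z, .z, .z, .w, .z, .z, .z], [.z, .z, .z, .z, .z, .o, .z, .z, .z, .z, .z, .w, .z, .z], [.z, .z, .z, .z, .z, .o, .o, .z, .z, .z, .z, .w, .z, .z], [.z, .z, .z, .z, .z, .z, .z, .o, .z, .z, .z, .z, .w, .z], [.o, .o, .v, .v, .z, .z, .z, .o, .z, .z, .z, .z, .w, .z], [.z, .z, .z, .z, .z, .z, .z, .z, .z, .o, .z, .z, .z, .z], [.z, .z, .z, .z, .v, .z, .z, .z, .z, .o, .z, .z, .z, .z], [.z, .z, .z, .z, .z, .v, .z, .z, .z, .z, .z, .z, .z, .z], [.z, .z, .z, .z, .z, .z, .z, .v, .z, .z, .z, .z, .z, .z], [.z, .z, .w, .z, .z, .z, .z, .v, .z, .z, .z, .z, .z, .z]],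
  [[.o, .z, .z, .z, .z, .z, .z, .z, .z, .z, .z, .z, .z, .w], [.z, .o, .z, .z, .z, .z, .z, .z, .z, .z, .z, .z, .z, .z], [.z, .w, .o, .z, .z, .z, .z, .z, .z, .z, .z, .z, .z, .v], [.z, .z, .z, .o, .z, .z, .z, .z, .w, .z, .z, .z, .z, .z], [.z, .z, .z, .z, .o, .z, .z, .z, .z, .z, .w, .z, .z, .z], [.z, .z, .z, .z, .z, .o, .z, .z, .z, .z, .z, .w, .z, .z], [.z, .z, .z, .z, .z, .z, .o, .z, .z, .z, .z, .z, .z, .z], [.z, .z, .z, .z, .z, .z, .z, .o, .z, .z, .z, .z, .w, .z], [.z, .z, .z, .z, .z, .z, .z, .z, .o, .z, .z, .z, .z, .z], [.z, .z, .z, .z, .z, .z, .z, .z, .z, .o, .z, .z, .z, .z], [.z, .z, .z, .z, .z, .z, .z, .z, .z, .z, .o, .z, .z, .z], [.z, .z, .z, .z, .z, .z, .z, .z, .z, .z, .z, .o, .z, .z], [.z, .z, .z, .z, .z, .z, .z, .z, .z, .z, .z, .z, .o, .z], [.z, .z, .z, .z, .z, .z, .z, .z, .z, .z, .z, .z, .z, .o]],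
  [[.o, .z, .z, .z, .z, .z, .z, .z, .z, .z, .z, .z, .z, .w], [.z, .o, .z, .z, .z, .z, .z, .z, .z, .z, .z, .z, .z, .z], [.z, .w, .o, .z, .z, .z, .z, .z, .z, .z, .z, .z, .z, .v], [.z, .z, .z, .o, .z, .z, .z, .z, .w, .z, .z, .z, .z, .z], [.z, .z, .z, .z, .o, .z, .z, .z, .z, .z, .w, .z, .z, .z], [.z, .z, .z, .z, .z, .o, .z, .z, .z, .z, .z, .w, .z, .z], [.z, .z, .z, .z, .z, .z, .o, .z, .z, .z, .z, .z, .z, .z], [.z, .z, .z, .z, .z, .z, .z, .o, .z, .z, .z, .z, .w, .z], [.z, .z, .z, .z, .z, .z, .z, .z, .o, .z, .z, .z, .z, .z], [.z, .z, .z, .z, .z, .z, .z, .z, .z, .o, .z, .z, .z, .z], [.z, .z, .z, .z, .z, .z, .z, .z, .z, .z, .o, .z, .z, .z], [.z, .z, .z, .z, .z, .z, .z, .z, .z, .z, .z, .o, .z, .z], [.z, .z, .z, .z, .z, .z, .z, .z, .z, .z, .z, .z, .o, .z], [.z, .z, .z, .z, .z, .z, .z, .z, .z, .z, .z, .z, .z, .o]]]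

theorem gen_ok : genOK gw gmat = true := by decide +kernel

/-- The ten generators. -/
noncomputable def gsJ : List G24 := gw.map wv

theorem gsJ_length : gsJ.length = 10 := by
  rw [gsJ, List.length_map]
  rfl

/-- The matrix product of the word is the identity. -/
noncomputable abbrev mok (w : List ℕ) : Bool := basisChk (mx gmat) w

theorem ev_one (w : List ℕ) (h : mok w = true) : ev (gl gsJ) w = 1 :=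
  ev_eq_one gw gmat gen_ok w h

theorem rels_hold (ws : List (List ℕ)) (h : ws.all mok = true) : ∀ w ∈ ws, ev (gl gsJ) w = 1 :=
  fun w hw => ev_one w (List.all_eq_true.1 h w hw)

/-- The generators `a, …, f` as words in the first four generators. -/
def afw : List (List ℕ) := [[0, 4, 0, 2, 2, 1, 7, 3, 4, 1], [5, 3, 3, 1, 3, 0, 6, 5, 0, 5, 7], [5, 3, 3, 1, 3, 0, 6, 5, 0, 5], [5, 2, 1, 2, 2, 5, 3, 6, 2, 5, 6, 2, 5], [1, 3, 0, 6, 0, 6, 0, 6, 2, 0], [0, 3, 3, 4, 2, 4, 2, 7, 2, 6, 2, 7]]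

theorem gen_top : closure (gl gsJ '' Set.Iio 20) = ⊤ :=
  closure_top gw gmat gen_ok 20 afw (by decide +kernel)

end Cfsg.Agent.Helper89.G24M
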