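import Cfsg.Agent.Helper89.G24Model
import Cfsg.Agent.Helper89.G24Defs

/-! # The double cover of `G₂(4)`: matrix checks of the relators used (helper89)

Generated data. -/

set_option autoImplicit false
set_option maxRecDepth 100000

namespace Cfsg.Agent.Helper89.G24c

open Cfsg.Agent.Helper89

open Cfsg.Agent.Helper89.G24M

theorem mat_pw : (Chain.powW ps).all mok = true := by decide +kernel

theorem mat_w1 : (L1.ws).all mok = true := by decide +kernel

theorem mat_w2 : (L2.ws).all mok = true := by decide +kernel

theorem mat_cj_0 : ((cj.map Stem.conjWord).take 3).all mok = true := by decide +kernel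

theorem mat_cj_1 : ((cj.map Stem.conjWord).drop 3).all mok = true := by decide +kernel

theorem mat_cj : (cj.map Stem.conjWord).all mok = true :=
  all_split mok 3 _ mat_cj_0 (mat_cj_1)

theorem mat_cp : (cj.map (fun c => List.replicate c.2.2.2 (2 * c.1))).all mok = true := by decide +kernel

theorem mat_defs : (CT.defWords defs).all mok = true := by decide +kernel

theorem mat_x3 : (x3).all mok = true := by decide +kernel

theorem mat_x5 : (x5).all mok = true := by decide +kernel

theorem mat_zc_0 : ((CT.commWords zw 4).take 1).all mok = true := by decide +kernel

theorem mat_zc_1 : (((CT.commWords zw 4).drop 1).take 1).all mok = true := by decide +kernel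

theorem mat_zc_2 : ((((CT.commWords zw 4).drop 1).drop 1).take 1).all mok = true := by decide +kernel

theorem mat_zc_3 : ((((CT.commWords zw 4).drop 1).drop 1).drop 1).all mok = true := by decide +kernel

theorem mat_zc : (CT.commWords zw 4).all mok = true :=
  all_split mok 1 _ mat_zc_0 (all_split mok 1 _ mat_zc_1 (all_split mok 1 _ mat_zc_2 (mat_zc_3)))

theorem mat_zsq : ([CT.rep zw 2]).all mok = true := by decide +kernel

theorem mat_z : ([zw]).all mok = true := by decide +kernel

end Cfsg.Agent.Helper89.G24c
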