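import Cfsg.Agent.Helper89.G24Tab

/-! # The double cover of `G₂(4)`: the relators of the top level hold in the labelled table, part 1 (helper89)

Generated data. -/

set_option autoImplicit false
set_option maxRecDepth 100000

namespace Cfsg.Agent.Helper89.G24c

open Cfsg.Agent.Helper89

theorem tab_w3_0 : ((L3.ws).take 1).all rok = true := by decide +kernel

theorem tab_w3_1 : (((L3.ws).drop 1).take 2).all rok = true := by decide +kernel

theorem tab_w3_2 : ((((L3.ws).drop 1).drop 2).take 2).all rok = true := by decide +kernel

theorem tab_w3_3 : (((((L3.ws).drop 1).drop 2).drop 2).take 2).all rok = true := by decide +kernel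

theorem tab_w3_4 : ((((((L3.ws).drop 1).drop 2).drop 2).drop 2).take 1).all rok = true := by decide +kernel

theorem tab_w3_5 : (((((((L3.ws).drop 1).drop 2).drop 2).drop 2).drop 1).take 1).all rok = true := by decide +kernel

theorem tab_w3_6 : ((((((((L3.ws).drop 1).drop 2).drop 2).drop 2).drop 1).drop 1).take 2).all rok = true := by decide +kernel

theorem tab_w3_7 : (((((((((L3.ws).drop 1).drop 2).drop 2).drop 2).drop 1).drop 1).drop 2).take 2).all rok = true := by decide +kernel

theorem tab_w3_8 : ((((((((((L3.ws).drop 1).drop 2).drop 2).drop 2).drop 1).drop 1).drop 2).drop 2).take 2).all rok = true := by decide +kernel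

theorem tab_w3_9 : (((((((((((L3.ws).drop 1).drop 2).drop 2).drop 2).drop 1).drop 1).drop 2).drop 2).drop 2).take 1).all rok = true := by decide +kernel

theorem tab_w3_10 : ((((((((((((L3.ws).drop 1).drop 2).drop 2).drop 2).drop 1).drop 1).drop 2).drop 2).drop 2).drop 1).take 2).all rok = true := by decide +kernel

theorem tab_w3_11 : (((((((((((((L3.ws).drop 1).drop 2).drop 2).drop 2).drop 1).drop 1).drop 2).drop 2).drop 2).drop 1).drop 2).take 2).all rok = true := by decide +kernel

end Cfsg.Agent.Helper89.G24c
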