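import Cfsg.Agent.Helper89.Stem3
import Cfsg.Agent.Helper89.ChainGen

/-!
# Stem extensions: extraspecial Sylow 5-subgroups of order 125 (helper89)

`Stem.extraspecial_core_p` is the core argument for an odd prime `p`: if `a, b` have order `p`,
their commutator is non-trivial and commutes with both, and some element inverts both, then in a
central extension the commutator subgroup of a subgroup lying over `⟨a, b⟩` meets the kernel
trivially.

`Stem.not_dvd_card_ker_of_extraspecial5`: with such `a, b` for `p = 5` and `5 ^ 4 ∤ |G|`, 5 does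
not divide the order of the kernel of a stem extension of `G`.  The bound `|⟨a, b⟩| ∣ 125` comes
from a chain certificate (`E125`).
-/

set_option autoImplicit false
set_option maxRecDepth 100000

namespace Cfsg.Agent.Helper89.E125

open Cfsg.Agent.Helper89

def X0 : Chain.LD where
  n := 5
  k := 2
  k₀ := 0
  T := tbl 3 2 0x1a3200d1
  Lb := tbl 1 2 0x0
  par := vec 3 0x2200
  gam := vec 4 0x10100
  S := []
  ex := [[0, 0, 0, 0, 0]]
  ws := []
  steps := [
  (0, 0, 2)]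
  E₀ := 0x1bf
  cl := []

theorem X0_valid : X0.Valid :=
  ⟨by decide +kernel, by decide +kernel, by decide +kernel, by decide, by decide, by decide⟩

def X1 : Chain.LD where
  n := 25
  k := 4
  k₀ := 2
  T := tbl 5 4 0x8b3189a6f77ce488451451eb2b5e2769a96ae0d3655454d8ad311ce249eac412438d6b1d1b0bbc6c28ad5a2e62938510a20f735815a829400e60148310400
  Lb := tbl 1 4 0x0
  par := vec 5 0xc4a107398c52908418c621082108000
  gam := vec 4 0x3310313010321320310210320
  S := [0, 1]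
  ex := [[0, 0, 0, 0, 0], [2, 2, 2, 2, 2], [0, 2, 1, 3, 0, 2, 0, 3, 1, 1], [0, 2, 1, 3, 2, 2, 0, 3, 1, 3]]
  ws := []
  steps := [
  (1, 0, 2), (2, 0, 2), (0, 1, 2), (0, 2, 4), (14, 2, 4), (24, 2, 4), (23, 2, 4), (0, 3, 6), (7, 3, 9), (11, 3, 7), (14, 3, 5), (19, 3, 9),
  (20, 3, 0), (22, 3, 9), (23, 3, 6), (24, 3, 6), (3, 1, 1), (9, 1, 1), (10, 2, 1), (13, 2, 2), (15, 2, 1), (16, 2, 6), (18, 2, 3), (4, 1, 3),
  (12, 1, 3)]
  E₀ := 0x441241421248948a7bbbfffff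
  cl := []

theorem X1_valid : X1.Valid :=
  ⟨by decide +kernel, by decide +kernel, by decide +kernel, by decide, by decide, by decide⟩

def Ls : List Chain.LD := [X0, X1]

/-- The relators: `a ^ 5`, `b ^ 5`, `[[a, b], a]`, `[[a, b], b]`. -/
def E : List (List ℕ) :=
  [[0, 0, 0, 0, 0], [2, 2, 2, 2, 2], [0, 2, 1, 3, 0, 2, 0, 3, 1, 1], [0, 2, 1, 3, 2, 2, 0, 3, 1, 3]]

theorem valid : ∀ d ∈ Ls, d.Valid := by
  intro d hd
  simp only [Ls, List.mem_cons, List.not_mem_nil, or_false] at hd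
  rcases hd with rfl | rfl
  · exact X0_valid
  · exact X1_valid

theorem chained : Chain.Chained E [] 0 Ls := by
  refine ⟨rfl, by decide, ?_⟩
  refine ⟨rfl, by decide, ?_⟩
  trivial

theorem ws_nil : ∀ d ∈ Ls, ∀ w ∈ d.ws, False := by decide

end Cfsg.Agent.Helper89.E125

namespace Cfsg.Agent.Helper89.Stem

open Subgroup
open scoped commutatorElement

theorem extraspecial_core_p {Γ G : Type*} [Group Γ] [Group G] (p : ℕ) [Fact p.Prime]
    (hodd : Odd p) (σ : Γ →* G)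
    (hσ : Function.Surjective σ) (hc : σ.ker ≤ center Γ) {a b n : G} (ha : a ^ p = 1)
    (hb : b ^ p = 1) (hne : a * b ≠ b * a)
    (hca : (a * b * a⁻¹ * b⁻¹) * a = a * (a * b * a⁻¹ * b⁻¹))
    (hcb : (a * b * a⁻¹ * b⁻¹) * b = b * (a * b * a⁻¹ * b⁻¹))
    (hna : n * a * n⁻¹ = a⁻¹) (hnb : n * b * n⁻¹ = b⁻¹) (P : Subgroup Γ)
    (hP : P.map σ ≤ closure {a, b}) :
    ∀ z : P, z ∈ commutator P → σ (z : Γ) = 1 → z = 1 := by
  obtain ⟨a', hA⟩ := hσ a
  obtain ⟨b', hB⟩ := hσ b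
  obtain ⟨n', hN⟩ := hσ n
  have cen : ∀ {k : Γ}, σ k = 1 → ∀ g, k * g = g * k := fun hk g =>
    (Subgroup.mem_center_iff.1 (hc (MonoidHom.mem_ker.2 hk)) g).symm
  have hC : σ (a' * b' * a'⁻¹ * b'⁻¹) = a * b * a⁻¹ * b⁻¹ := by
    rw [map_mul, map_mul, map_mul, map_inv, map_inv, hA, hB]
  have hnc : n * (a * b * a⁻¹ * b⁻¹) * n⁻¹ = a * b * a⁻¹ * b⁻¹ := by
    have e1 : n * (a * b * a⁻¹ * b⁻¹) * n⁻¹ =
        (n * a * n⁻¹) * (n * b * n⁻¹) * (n * a * n⁻¹)⁻¹ * (n * b * n⁻¹)⁻¹ := by group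
    have e2 : a⁻¹ * b⁻¹ * a⁻¹⁻¹ * b⁻¹⁻¹ = b⁻¹ * (a⁻¹ * (a * b * a⁻¹ * b⁻¹) * a) * b := by group
    have e3 : a⁻¹ * (a * b * a⁻¹ * b⁻¹) * a = a * b * a⁻¹ * b⁻¹ := by
      rw [mul_assoc, hca, inv_mul_cancel_left]
    rw [e1, hna, hnb, e2, e3, mul_assoc, hcb, inv_mul_cancel_left]
  have hac : a' * (a' * b' * a'⁻¹ * b'⁻¹) = (a' * b' * a'⁻¹ * b'⁻¹) * a' :=
    lift_comm σ hc hodd ha hca.symm hna hnc hA hC hN
  have hbc : b' * (a' * b' * a'⁻¹ * b'⁻¹) = (a' * b' * a'⁻¹ * b'⁻¹) * b' :=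
    lift_comm σ hc hodd hb hcb.symm hnb hnc hB hC hN
  -- the `p`-th power of the commutator
  have hc3' : (a' * b' * a'⁻¹ * b'⁻¹) ^ p = 1 := by
    have h1 := pow_conj hac.symm (show a' * b' * a'⁻¹ = (a' * b' * a'⁻¹ * b'⁻¹) * b' by group) p
    have h2 : σ (a' ^ p) = 1 := by rw [map_pow, hA, ha]
    rw [cen h2 b', mul_inv_cancel_right] at h1
    exact mul_eq_right.1 h1.symm
  have hc3 : (a * b * a⁻¹ * b⁻¹) ^ p = 1 := by
    have h1 := pow_conj hca (show a * b * a⁻¹ = (a * b * a⁻¹ * b⁻¹) * b by group) p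
    rw [ha, one_mul, inv_one, mul_one] at h1
    exact mul_eq_right.1 h1.symm
  have hc1 : a * b * a⁻¹ * b⁻¹ ≠ 1 := by
    intro h
    apply hne
    calc a * b = a * b * a⁻¹ * b⁻¹ * (b * a) := by group
      _ = b * a := by rw [h, one_mul]
  have hord : orderOf (a * b * a⁻¹ * b⁻¹) = p :=
    orderOf_eq_prime hc3 hc1
  -- commutators of the preimage
  have hcomm : ∀ x ∈ closure ({a', b'} : Set Γ), ∀ y ∈ closure ({a', b'} : Set Γ),
      x * y * x⁻¹ * y⁻¹ ∈ zpowers (a' * b' * a'⁻¹ * b'⁻¹) := by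
    apply commutator_mem_of_central
    · intro m hm s hs
      obtain ⟨k, rfl⟩ := mem_zpowers_iff.1 hm
      simp only [Set.mem_insert_iff, Set.mem_singleton_iff] at hs
      rcases hs with rfl | rfl
      · exact (Commute.zpow_left (show Commute _ s from hac.symm) k).eq
      · exact (Commute.zpow_left (show Commute _ s from hbc.symm) k).eq
    · intro s hs s' hs'
      simp only [Set.mem_insert_iff, Set.mem_singleton_iff] at hs hs'
      rcases hs with rfl | rfl <;> rcases hs' with rfl | rfl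
      · simpa using Subgroup.one_mem _
      · exact mem_zpowers _
      · have e : s * s' * s⁻¹ * s'⁻¹ = (s' * s * s'⁻¹ * s⁻¹)⁻¹ := by group
        rw [e]
        exact inv_mem (mem_zpowers _)
      · simpa using Subgroup.one_mem _
  have hdec : ∀ x ∈ P, ∃ y ∈ closure ({a', b'} : Set Γ), ∃ k : Γ, σ k = 1 ∧ x = y * k := by
    intro x hx
    have h1 : σ x ∈ (closure ({a', b'} : Set Γ)).map σ := by
      rw [MonoidHom.map_closure, Set.image_pair, hA, hB]
      exact hP (Subgroup.mem_map_of_mem σ hx)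
    obtain ⟨y, hy, hyx⟩ := h1
    refine ⟨y, hy, y⁻¹ * x, ?_, by group⟩
    rw [map_mul, map_inv, hyx, inv_mul_cancel]
  have hle : commutator P ≤ (zpowers (a' * b' * a'⁻¹ * b'⁻¹)).comap P.subtype := by
    rw [commutator_eq_closure, closure_le]
    rintro _ ⟨x, y, rfl⟩
    obtain ⟨x₁, hx₁, k₁, hk₁, hx⟩ := hdec x x.2
    obtain ⟨y₁, hy₁, k₂, hk₂, hy⟩ := hdec y y.2
    show (P.subtype ⁅x, y⁆) ∈ zpowers (a' * b' * a'⁻¹ * b'⁻¹)
    rw [commutatorElement_def]
    simp only [map_mul, map_inv, Subgroup.subtype_apply]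
    rw [hx, hy, comm_central_mul (cen hk₁) (cen hk₂)]
    exact hcomm x₁ hx₁ y₁ hy₁
  intro z hz hz1
  have h1 : (z : Γ) ∈ zpowers (a' * b' * a'⁻¹ * b'⁻¹) := hle hz
  obtain ⟨k, hk⟩ := mem_zpowers_iff.1 h1
  have h2 : (a * b * a⁻¹ * b⁻¹) ^ k = 1 := by
    rw [← hC, ← map_zpow, hk, hz1]
  have h3 : ((p : ℕ) : ℤ) ∣ k := by
    rw [← hord]; exact orderOf_dvd_iff_zpow_eq_one.2 h2
  obtain ⟨m, rfl⟩ := h3
  apply Subtype.ext
  rw [← hk, zpow_mul, zpow_natCast, hc3', one_zpow]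
  rfl

theorem card_pair_dvd5 {G : Type*} [Group G] [Finite G] (a b : G) (ha : a ^ 5 = 1)
    (hb : b ^ 5 = 1) (hca : (a * b * a⁻¹ * b⁻¹) * a = a * (a * b * a⁻¹ * b⁻¹))
    (hcb : (a * b * a⁻¹ * b⁻¹) * b = b * (a * b * a⁻¹ * b⁻¹)) :
    Nat.card (closure ({a, b} : Set G)) ∣ 125 := by
  rw [← closure_gl_pair]
  have hE : ∀ w ∈ E125.E, ev (gl [a, b]) w = 1 := by
    intro ρ hρ
    simp only [E125.E, List.mem_cons, List.not_mem_nil, or_false] at hρ
    rcases hρ with rfl | rfl | rfl | rfl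
    · show a * (a * (a * (a * (a * 1)))) = 1
      have e : a * (a * (a * (a * (a * 1)))) = a ^ 5 := by
        rw [mul_one, pow_succ, pow_succ, pow_succ, pow_two]; simp only [mul_assoc]
      rw [e, ha]
    · show b * (b * (b * (b * (b * 1)))) = 1
      have e : b * (b * (b * (b * (b * 1)))) = b ^ 5 := by
        rw [mul_one, pow_succ, pow_succ, pow_succ, pow_two]; simp only [mul_assoc]
      rw [e, hb]
    · show a * (b * (a⁻¹ * (b⁻¹ * (a * (b * (a * (b⁻¹ * (a⁻¹ * (a⁻¹ * 1))))))))) = 1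
      have e : a * (b * (a⁻¹ * (b⁻¹ * (a * (b * (a * (b⁻¹ * (a⁻¹ * (a⁻¹ * 1))))))))) =
          (a * b * a⁻¹ * b⁻¹) * a * (a * b * a⁻¹ * b⁻¹)⁻¹ * a⁻¹ := by group
      rw [e, hca]; group
    · show a * (b * (a⁻¹ * (b⁻¹ * (b * (b * (a * (b⁻¹ * (a⁻¹ * (b⁻¹ * 1))))))))) = 1
      have e : a * (b * (a⁻¹ * (b⁻¹ * (b * (b * (a * (b⁻¹ * (a⁻¹ * (b⁻¹ * 1))))))))) =
          (a * b * a⁻¹ * b⁻¹) * b * (a * b * a⁻¹ * b⁻¹)⁻¹ * b⁻¹ := by group
      rw [e, hcb]; group
  have h := Chain.gchain (gl [a, b]) (gl_inv _) E125.E hE E125.Ls [] 0 E125.valid E125.chained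
    (by simp) (fun d hd w hw => (E125.ws_nil d hd w hw).elim)
  have h0 : Nat.card (closure (gl [a, b] '' Set.Iio 0)) = 1 := by
    have : (gl [a, b] '' Set.Iio 0) = ∅ := by
      ext x; simp
    rw [this, Subgroup.closure_empty, Subgroup.card_bot]
  rw [h0, mul_one] at h
  exact h

/-- Extraspecial Sylow 5-subgroup of order 125 with an element inverting both generators: 5 does
not divide the order of the kernel of a stem extension. -/
theorem not_dvd_card_ker_of_extraspecial5 {Γ G : Type*} [Group Γ] [Finite Γ] [Group G]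
    [Finite G] (σ : Γ →* G) (hσ : Function.Surjective σ) (hc : σ.ker ≤ center Γ)
    (hd : σ.ker ≤ commutator Γ) (a b n : G) (ha : a ^ 5 = 1) (hb : b ^ 5 = 1)
    (hne : a * b ≠ b * a)
    (hca : (a * b * a⁻¹ * b⁻¹) * a = a * (a * b * a⁻¹ * b⁻¹))
    (hcb : (a * b * a⁻¹ * b⁻¹) * b = b * (a * b * a⁻¹ * b⁻¹))
    (hna : n * a * n⁻¹ = a⁻¹) (hnb : n * b * n⁻¹ = b⁻¹) (hG : ¬ 5 ^ 4 ∣ Nat.card G) :
    ¬ 5 ∣ Nat.card σ.ker := by
  have hfact : Fact (Nat.Prime 5) := ⟨by norm_num⟩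
  have hp5 : Nat.Prime 5 := by norm_num
  apply not_dvd_card_ker σ hc hd 5
  intro P
  have h125 := card_pair_dvd5 a b ha hb hca hcb
  have haP : a ∈ closure ({a, b} : Set G) := subset_closure (by simp)
  have hbP : b ∈ closure ({a, b} : Set G) := subset_closure (by simp)
  have hncomm : ¬ ∀ x y : closure ({a, b} : Set G), x * y = y * x := by
    intro h
    exact hne (congrArg Subtype.val (h ⟨a, haP⟩ ⟨b, hbP⟩))
  have hcard : Nat.card (closure ({a, b} : Set G)) = 5 ^ 3 := by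
    have h125' : Nat.card (closure ({a, b} : Set G)) ∣ 5 ^ 3 := h125
    obtain ⟨k, hk, hk'⟩ := (Nat.dvd_prime_pow hp5).1 h125'
    interval_cases k
    · exfalso
      apply hncomm
      have : Subsingleton (closure ({a, b} : Set G)) :=
        (Nat.card_eq_one_iff_unique.1 (by simpa using hk')).1
      intro x y
      rw [Subsingleton.elim x y]
    · exfalso
      apply hncomm
      have : IsCyclic (closure ({a, b} : Set G)) :=
        isCyclic_of_prime_card (p := 5) (by simpa using hk')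
      intro x y
      exact (IsCyclic.commGroup (α := closure ({a, b} : Set G))).mul_comm x y
    · exfalso
      apply hncomm
      intro x y
      exact IsPGroup.commutative_of_card_eq_prime_sq (p := 5) hk' x y
    · exact hk'
  have hpg : IsPGroup 5 (closure ({a, b} : Set G)) := IsPGroup.of_card hcard
  obtain ⟨Q₀, hQ₀⟩ := hpg.exists_le_sylow
  obtain ⟨m, hm⟩ := IsPGroup.iff_card.1 Q₀.isPGroup'
  have hm3 : m ≤ 3 := by
    by_contra hcon
    have h1 : 5 ^ m ∣ Nat.card G := hm ▸ Subgroup.card_subgroup_dvd_card _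
    exact hG ((pow_dvd_pow 5 (by omega : 4 ≤ m)).trans h1)
  have hQeq : closure ({a, b} : Set G) = (Q₀ : Subgroup G) := by
    apply Subgroup.eq_of_le_of_card_ge hQ₀
    rw [hcard, hm]
    exact Nat.pow_le_pow_right (by norm_num) hm3
  have hpgP : IsPGroup 5 ((P : Subgroup Γ).map σ) := P.isPGroup'.map σ
  obtain ⟨Q, hQ⟩ := hpgP.exists_le_sylow
  obtain ⟨g, hg⟩ := MulAction.exists_smul_eq G Q₀ Q
  have hmap : (P : Subgroup Γ).map σ ≤
      closure {MulAut.conj g a, MulAut.conj g b} := by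
    intro y hy
    have h1 : y ∈ (Q : Subgroup G) := hQ hy
    rw [← hg, Sylow.coe_subgroup_smul, Subgroup.mem_pointwise_smul_iff_inv_smul_mem,
      ← hQeq] at h1
    have h2 : (MulAut.conj g).toMonoidHom ((MulAut.conj g)⁻¹ • y) ∈
        (closure ({a, b} : Set G)).map (MulAut.conj g).toMonoidHom :=
      Subgroup.mem_map_of_mem _ h1
    rw [MonoidHom.map_closure, Set.image_pair] at h2
    have e : (MulAut.conj g).toMonoidHom ((MulAut.conj g)⁻¹ • y) = y := by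
      simp only [MulAut.smul_def, MulEquiv.coe_toMonoidHom, MulAut.conj_apply,
        MulAut.conj_inv_apply]
      group
    rw [e] at h2
    exact h2
  have hφ : ∀ {x y : G}, x = y → MulAut.conj g x = MulAut.conj g y := fun h => by rw [h]
  apply extraspecial_core_p 5 (by decide) σ hσ hc (a := MulAut.conj g a) (b := MulAut.conj g b)
    (n := MulAut.conj g n)
    (by rw [← map_pow, ha, map_one]) (by rw [← map_pow, hb, map_one])
    (by
      intro h
      apply hne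
      apply (MulAut.conj g).injective
      rw [map_mul, map_mul, h])
    (by simpa only [map_mul, map_inv] using hφ hca)
    (by simpa only [map_mul, map_inv] using hφ hcb)
    (by simpa only [map_mul, map_inv] using hφ hna)
    (by simpa only [map_mul, map_inv] using hφ hnb)
    (P : Subgroup Γ) hmap

/-- The relators encoding the hypotheses of the extraspecial transfer lemma for the prime 5. -/
def ws5 : List (List ℕ) := [[0, 0, 0, 0, 0], [2, 2, 2, 2, 2], [0, 2, 1, 3, 0, 2, 0, 3, 1, 1],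
  [0, 2, 1, 3, 2, 2, 0, 3, 1, 3], [4, 0, 5, 0], [4, 2, 5, 2]]

theorem extra_of_words5 {G : Type*} [Group G] (a b n : G)
    (h : ∀ w ∈ ws5, ev (gl [a, b, n]) w = 1) :
    a ^ 5 = 1 ∧ b ^ 5 = 1 ∧ (a * b * a⁻¹ * b⁻¹) * a = a * (a * b * a⁻¹ * b⁻¹) ∧
      (a * b * a⁻¹ * b⁻¹) * b = b * (a * b * a⁻¹ * b⁻¹) ∧ n * a * n⁻¹ = a⁻¹ ∧
      n * b * n⁻¹ = b⁻¹ := by
  have h1 : a * (a * (a * (a * (a * 1)))) = 1 := h [0, 0, 0, 0, 0] (by simp [ws5])
  have h2 : b * (b * (b * (b * (b * 1)))) = 1 := h [2, 2, 2, 2, 2] (by simp [ws5])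
  have h3 : a * (b * (a⁻¹ * (b⁻¹ * (a * (b * (a * (b⁻¹ * (a⁻¹ * (a⁻¹ * 1))))))))) = 1 :=
    h [0, 2, 1, 3, 0, 2, 0, 3, 1, 1] (by simp [ws5])
  have h4 : a * (b * (a⁻¹ * (b⁻¹ * (b * (b * (a * (b⁻¹ * (a⁻¹ * (b⁻¹ * 1))))))))) = 1 :=
    h [0, 2, 1, 3, 2, 2, 0, 3, 1, 3] (by simp [ws5])
  have h5 : n * (a * (n⁻¹ * (a * 1))) = 1 := h [4, 0, 5, 0] (by simp [ws5])
  have h6 : n * (b * (n⁻¹ * (b * 1))) = 1 := h [4, 2, 5, 2] (by simp [ws5])
  refine ⟨?_, ?_, ?_, ?_, ?_, ?_⟩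
  · rw [← h1, mul_one, pow_succ, pow_succ, pow_succ, pow_two]; simp only [mul_assoc]
  · rw [← h2, mul_one, pow_succ, pow_succ, pow_succ, pow_two]; simp only [mul_assoc]
  · apply mul_inv_eq_one.1
    rw [← h3]; group
  · apply mul_inv_eq_one.1
    rw [← h4]; group
  · apply eq_inv_of_mul_eq_one_left
    rw [← h5]; group
  · apply eq_inv_of_mul_eq_one_left
    rw [← h6]; group

end Cfsg.Agent.Helper89.Stem
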