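import Cfsg.Agent.Helper89.HsTab
import Cfsg.Agent.Helper89.HsModel
import Cfsg.Agent.Helper89.Stem5
import Cfsg.Agent.Helper89.MConcBase

/-!
# The Schur multiplier of the Higman–Sims group is cyclic of order 2 (helper89)

The cover is the subgroup of `hsN × Sym(352 × 2)` generated by nine pairs, where `hsN` is
helper93's group of even automorphisms of the Higman–Sims graph (isomorphic to `Spor.HS`) and the
second components come from a labelled table on the cosets of a subgroup `U3(5)`.  The first four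
generators (of orders 5, 5, 3, 3) generate it and satisfy the relators of the chain certificate
`HSc.Ls`, which gives its order `2 · |HS|` and the triviality of the 2-part of its multiplier.
For the prime 3 the Sylow subgroup is elementary abelian of rank 2 with an element inverting one
generator and centralising the other; for the prime 5 it is extraspecial of order 125 with an
element inverting both generators; the Sylow subgroups for 7 and 11 are cyclic.
-/

set_option autoImplicit false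
set_option maxRecDepth 100000

namespace Cfsg.Agent.Helper89.HSc

open Cfsg Subgroup Cfsg.Agent.Helper93.HsOut HsM

/-! ### The cover -/

def qs : List (Equiv.Perm (Fin 352 × Fin 2)) :=
  TP.perms 352 2 cT cL (by norm_num) (by norm_num) 18 inv_ok hk

theorem hlen : gsH.length = qs.length := by
  simp [gsH, gs4, exW, qs, TP.perms]

/-- The generators of the cover. -/
noncomputable abbrev l : List ↥(CP.cov gsH qs) := CP.gens gsH qs

theorem cov_rels (ws : List (List ℕ)) (h1 : ws.all mok = true) (h2 : ws.all rok = true) :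
    ∀ w ∈ ws, ev (gl l) w = 1 :=
  CP.rels_hold gsH qs hlen ws (rels_hold ws h1)
    (TP.rels_hold 352 2 cT cL _ _ 18 inv_ok hk ws h2)

theorem hE : ∀ w ∈ Chain.powW ps, ev (gl l) w = 1 := cov_rels _ (by decide +kernel) tab_pw

theorem hW : ∀ d ∈ Ls, ∀ w ∈ d.ws, ev (gl l) w = 1 := by
  intro d hd
  simp only [Ls, List.mem_cons, List.not_mem_nil, or_false] at hd
  rcases hd with rfl | rfl | rfl | rfl
  · intro w hw
    exact absurd hw (by simp [L0])
  · exact cov_rels _ (by decide +kernel) tab_w1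
  · exact cov_rels _ (by decide +kernel) tab_w2
  · exact cov_rels _ (by decide +kernel) tab_w3

theorem gsH_length : gsH.length = 9 := by
  simp [gsH, gs4, exW]

theorem gen18 : closure (gl l '' Set.Iio 18) = ⊤ := by
  have h := CP.gen_top gsH qs hlen
  rw [gsH_length] at h
  exact h

theorem gen8 : closure (gl l '' Set.Iio 8) = ⊤ :=
  CT.closure_of_defs (gl l) (gl_inv l) 8 18 defs (by decide)
    (cov_rels _ (by decide +kernel) tab_defs) gen18

theorem card_dvd : Nat.card ↥(CP.cov gsH qs) ∣ 88704000 := by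
  have h := Chain.card_dvd l ps Ls valid chained hE hW
  rw [lastK_eq, gen8, Subgroup.card_top, prodN_eq] at h
  exact h

theorem π_surj : Function.Surjective (CP.covπ gsH qs) :=
  CP.π_surj gsH qs hlen (by rw [gsH_length]; exact gen_top)

/-- The generator of the kernel. -/
noncomputable def ζ : ↥(CP.cov gsH qs) := ev (gl l) zw

theorem ζ_ker : CP.covπ gsH qs ζ = 1 := by
  rw [ζ, CP.π_ev gsH qs hlen]
  exact ev_eq_one zw (by decide +kernel)

theorem ζ_sq : ζ ^ 2 = 1 := by
  have h := cov_rels [CT.rep zw 2] (by decide +kernel) tab_zsq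
  rw [ζ, ← CT.ev_rep]
  exact h _ (by simp)

theorem ζ_ne : ζ ≠ 1 :=
  CP.ev_ne_one gsH qs hlen _
    (TP.ev_ne_one 352 2 cT cL _ _ 18 inv_ok hk _ (by decide +kernel) 0 (by norm_num) tab_z)

theorem ζ_ord : orderOf ζ = 2 :=
  orderOf_eq_prime ζ_sq ζ_ne

theorem ζ_central : ∀ x, ζ * x = x * ζ :=
  CT.central_of_gens (gl l) 8 gen8 ζ
    (CT.comm_of_words (gl l) (gl_inv l) zw 4
      (cov_rels _ (by decide +kernel) tab_zc))

theorem card_cov : Nat.card ↥(CP.cov gsH qs) = 88704000 := by
  have h := CT.card_cover (CP.covπ gsH qs) π_surj 2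
    (by rw [card_hsN]; exact card_dvd) ζ ζ_ker ζ_ord
  rw [h, card_hsN]

theorem perfect : commutator ↥(CP.cov gsH qs) = ⊤ :=
  Stem.perfect_of_conj (gl l) (gl_inv l) 4 gen8 cj (by decide)
    (cov_rels _ (by decide +kernel) tab_cj) (cov_rels _ (by decide +kernel) tab_cp)

/-! ### The prime 3 -/

theorem h3rels : ∀ w ∈ MConc.ws2, ev (gl [gl l 6, gl l 8, gl l 10]) w = 1 := by
  intro w hw
  have h1 := CT.ev_sub3 (gl l) (gl_inv l) 3 w (by
    revert w
    decide)
  have h2 := cov_rels x3 (by decide +kernel) tab_x3 (w.map (· + 2 * 3))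
    (List.mem_map.2 ⟨w, hw, rfl⟩)
  exact h1.trans h2

theorem ne_of_walk (w : List ℕ) (hw : w.all (fun j => decide (j < 18)) = true) (c : ℕ)
    (hc : c < 352) (h : TP.walkT 352 2 cT cL w c 0 ≠ (c, 0)) : ev (gl l) w ≠ 1 :=
  CP.ev_ne_one gsH qs hlen _ (TP.ev_ne_one 352 2 cT cL _ _ 18 inv_ok hk _ hw c hc h)

theorem a3_ne : gl l 6 ≠ 1 := by
  intro h
  apply ne_of_walk [6] (by decide) 0 (by norm_num) tab_a3
  show gl l 6 * 1 = 1
  rw [h, mul_one]

theorem b3_ne : gl l 8 ≠ 1 := by
  intro h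
  apply ne_of_walk [8] (by decide) 0 (by norm_num) tab_b3
  show gl l 8 * 1 = 1
  rw [h, mul_one]

theorem b3_ne_a : gl l 8 ≠ gl l 6 := by
  intro h
  apply ne_of_walk [8, 7] (by decide) 0 (by norm_num) tab_b3a
  have e7 : gl l 7 = (gl l 6)⁻¹ := Stem.g_iv (gl l) (gl_inv l) 3
  show gl l 8 * (gl l 7 * 1) = 1
  rw [e7, h, mul_one, mul_inv_cancel]

theorem b3_ne_ainv : gl l 8 ≠ (gl l 6)⁻¹ := by
  intro h
  apply ne_of_walk [8, 6] (by decide) 0 (by norm_num) tab_b3ai
  show gl l 8 * (gl l 6 * 1) = 1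
  rw [h, mul_one, inv_mul_cancel]

/-! ### The prime 5 -/

theorem h5rels : ∀ w ∈ Stem.ws5, ev (gl [gl l 12, gl l 14, gl l 16]) w = 1 := by
  intro w hw
  have h1 := CT.ev_sub3 (gl l) (gl_inv l) 6 w (by
    revert w
    decide)
  have h2 := cov_rels x5 (by decide +kernel) tab_x5 (w.map (· + 2 * 6))
    (List.mem_map.2 ⟨w, hw, rfl⟩)
  exact h1.trans h2

theorem hne5 : gl l 12 * gl l 14 ≠ gl l 14 * gl l 12 := by
  intro h
  apply ne_of_walk [12, 14, 13, 15] (by decide) 1 (by norm_num) tab_comm5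
  have e13 : gl l 13 = (gl l 12)⁻¹ := Stem.g_iv (gl l) (gl_inv l) 6
  have e15 : gl l 15 = (gl l 14)⁻¹ := Stem.g_iv (gl l) (gl_inv l) 7
  show gl l 12 * (gl l 14 * (gl l 13 * (gl l 15 * 1))) = 1
  rw [e13, e15, mul_one, ← mul_assoc, h]
  group

theorem not_sq {p : ℕ} (hp : p.Prime) (h2 : p ≠ 2) (h3 : p ≠ 3) (h5 : p ≠ 5) :
    ¬ p ^ 2 ∣ 88704000 := by
  intro h
  have hc2 : Nat.Coprime (p ^ 2) (2 ^ 10) :=
    Nat.Coprime.pow _ _ ((Nat.coprime_primes hp Nat.prime_two).2 h2)
  have hc3 : Nat.Coprime (p ^ 2) (3 ^ 2) :=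
    Nat.Coprime.pow _ _ ((Nat.coprime_primes hp Nat.prime_three).2 h3)
  have hc5 : Nat.Coprime (p ^ 2) (5 ^ 3) :=
    Nat.Coprime.pow _ _ ((Nat.coprime_primes hp (by norm_num)).2 h5)
  have h1 : p ^ 2 ∣ 86625 := hc2.dvd_of_dvd_mul_left (by norm_num; exact h)
  have h4 : p ^ 2 ∣ 9625 := hc3.dvd_of_dvd_mul_left (by norm_num; exact h1)
  have h6 : p ^ 2 ∣ 77 := hc5.dvd_of_dvd_mul_left (by norm_num; exact h4)
  have h7 : p ^ 2 ≤ 77 := Nat.le_of_dvd (by norm_num) h6
  have h8 : p ≤ 8 := by nlinarith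
  interval_cases p <;>
    first | exact absurd h6 (by decide) | exact absurd hp (by decide)

/-- The cover has trivial Schur multiplier. -/
theorem univ (X : Type) [Group X] [Finite X] (τ : X →* ↥(CP.cov gsH qs))
    (hτ : Function.Surjective τ) (hc : τ.ker ≤ center X) (hd : τ.ker ≤ commutator X) :
    τ.ker = ⊥ := by
  apply Stem.ker_eq_bot_of_primes
  intro p hp
  by_cases h2 : p = 2
  · subst h2
    exact Chain.two_universal l ps Ls ps_odd valid chained (by rw [card_cov, prodN_eq])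
      (by rw [lastK_eq]; exact gen8) hE hW X τ hτ hc hd
  by_cases h3 : p = 3
  · subst h3
    have : Fact (Nat.Prime 3) := ⟨Nat.prime_three⟩
    obtain ⟨ha, hb, hab, hta, htb⟩ :=
      MConc.rank_two_of_words (gl l 6) (gl l 8) (gl l 10) h3rels
    exact Stem.not_dvd_card_ker_of_rank_two τ hτ hc hd 3 (by decide) (gl l 6) (gl l 8)
      (gl l 10) ha hb a3_ne (MConc.not_mem_zpowers_of ha b3_ne b3_ne_a b3_ne_ainv) hab hta htb
      (by rw [card_cov]; decide)
  by_cases h5 : p = 5
  · subst h5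
    obtain ⟨ha, hb, hca, hcb, hna, hnb⟩ :=
      Stem.extra_of_words5 (gl l 12) (gl l 14) (gl l 16) h5rels
    exact Stem.not_dvd_card_ker_of_extraspecial5 τ hτ hc hd (gl l 12) (gl l 14) (gl l 16)
      ha hb hne5 hca hcb hna hnb (by rw [card_cov]; decide)
  · have : Fact p.Prime := ⟨hp⟩
    exact Stem.not_dvd_card_ker_of_sq τ hc hd p (by rw [card_cov]; exact not_sq hp h2 h3 h5)

/-- The Schur multiplier of the Higman–Sims group is cyclic of order 2. -/
theorem schurHS : HasCyclicSchurMultiplier ↥Spor.HS 2 := by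
  obtain ⟨e⟩ := hsN_iso
  have hfin : Finite ↥Spor.HS := Finite.of_equiv _ e.toEquiv
  have hcard : Nat.card ↥Spor.HS = 44352000 := by
    rw [← Nat.card_congr e.toEquiv, card_hsN]
  exact Stem.cover_cyclic (e.toMonoidHom.comp (CP.covπ gsH qs))
    (e.surjective.comp π_surj) 2 (by rw [hcard]; exact card_dvd) ζ
    (by
      show e (CP.covπ gsH qs ζ) = 1
      rw [ζ_ker, map_one])
    ζ_ord ζ_central perfect univ

end Cfsg.Agent.Helper89.HSc
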