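import Cfsg.Agent.Helper89.J2Tab
import Cfsg.Agent.Helper89.J2Model
import Cfsg.Agent.Helper89.Stem3
import Cfsg.Agent.Helper89.Rank5
import Cfsg.Agent.Helper89.MConcBase

/-!
# The Schur multiplier of the Hall–Janko group is cyclic of order 2 (helper89)

The cover is the subgroup of `K0 × Sym(100 × 2)` generated by nine pairs, where `K0` is helper57's
copy of the Hall–Janko group on 100 points (isomorphic to `Spor.J2`) and the second components come
from a labelled table on the cosets of a subgroup `U3(3)`.  The first four generators (of orders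
7, 3, 3, 5) generate it and satisfy the relators of the chain certificate `J2c.Ls`, which gives its
order `2 · |J2|` and the triviality of the 2-part of its multiplier.  For the prime 3 the Sylow
subgroup is extraspecial of order 27 with an element inverting both generators; for the prime 5 it
is elementary abelian of rank 2 with an element inverting one generator and centralising the
other; the Sylow 7-subgroups are cyclic.
-/

set_option autoImplicit false
set_option maxRecDepth 100000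

namespace Cfsg.Agent.Helper89.J2c

open Cfsg Subgroup Cfsg.Agent.S0423 J2M

/-! ### The cover -/

def qs : List (Equiv.Perm (Fin 100 × Fin 2)) :=
  TP.perms 100 2 cT cL (by norm_num) (by norm_num) 18 inv_ok hk

theorem gsJ_length : gsJ.length = 9 := by
  simp [gsJ, gs4, exW, xW]

theorem hlen : gsJ.length = qs.length := by
  rw [gsJ_length]
  simp [qs, TP.perms]

/-- The generators of the cover. -/
noncomputable abbrev l : List ↥(CP.cov gsJ qs) := CP.gens gsJ qs

theorem cov_rels (ws : List (List ℕ)) (h1 : ws.all mok = true) (h2 : ws.all rok = true) :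
    ∀ w ∈ ws, ev (gl l) w = 1 :=
  CP.rels_hold gsJ qs hlen ws (rels_hold ws h1)
    (TP.rels_hold 100 2 cT cL _ _ 18 inv_ok hk ws h2)

theorem hE : ∀ w ∈ Chain.powW ps, ev (gl l) w = 1 := cov_rels _ (by decide +kernel) tab_pw

theorem hW : ∀ d ∈ Ls, ∀ w ∈ d.ws, ev (gl l) w = 1 := by
  intro d hd
  simp only [Ls, List.mem_cons, List.not_mem_nil, or_false] at hd
  rcases hd with rfl | rfl | rfl | rfl
  · intro w hw
    exact absurd hw (by simp [L0])
  · exact cov_rels _ (by decide +kernel) tab_w1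
  · exact cov_rels _ (by decide +kernel) tab_w2
  · exact cov_rels _ (by decide +kernel) tab_w3

theorem gen18 : closure (gl l '' Set.Iio 18) = ⊤ := by
  have h := CP.gen_top gsJ qs hlen
  rw [gsJ_length] at h
  exact h

theorem gen8 : closure (gl l '' Set.Iio 8) = ⊤ :=
  CT.closure_of_defs (gl l) (gl_inv l) 8 18 defs (by decide)
    (cov_rels _ (by decide +kernel) tab_defs) gen18

theorem card_dvd : Nat.card ↥(CP.cov gsJ qs) ∣ 1209600 := by
  have h := Chain.card_dvd l ps Ls valid chained hE hW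
  rw [lastK_eq, gen8, Subgroup.card_top, prodN_eq] at h
  exact h

theorem π_surj : Function.Surjective (CP.covπ gsJ qs) :=
  CP.π_surj gsJ qs hlen (by rw [gsJ_length]; exact gen_top)

/-- The generator of the kernel. -/
noncomputable def ζ : ↥(CP.cov gsJ qs) := ev (gl l) zw

theorem ζ_ker : CP.covπ gsJ qs ζ = 1 := by
  rw [ζ, CP.π_ev gsJ qs hlen]
  exact ev_eq_one zw (by decide +kernel)

theorem ζ_sq : ζ ^ 2 = 1 := by
  have h := cov_rels [CT.rep zw 2] (by decide +kernel) tab_zsq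
  rw [ζ, ← CT.ev_rep]
  exact h _ (by simp)

theorem ζ_ne : ζ ≠ 1 :=
  CP.ev_ne_one gsJ qs hlen _
    (TP.ev_ne_one 100 2 cT cL _ _ 18 inv_ok hk _ (by decide +kernel) 0 (by norm_num) tab_z)

theorem ζ_ord : orderOf ζ = 2 :=
  orderOf_eq_prime ζ_sq ζ_ne

theorem ζ_central : ∀ x, ζ * x = x * ζ :=
  CT.central_of_gens (gl l) 8 gen8 ζ
    (CT.comm_of_words (gl l) (gl_inv l) zw 4
      (cov_rels _ (by decide +kernel) tab_zc))

theorem card_cov : Nat.card ↥(CP.cov gsJ qs) = 1209600 := by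
  have h := CT.card_cover (CP.covπ gsJ qs) π_surj 2
    (by rw [step0.1]; exact card_dvd) ζ ζ_ker ζ_ord
  rw [h, step0.1]

theorem perfect : commutator ↥(CP.cov gsJ qs) = ⊤ :=
  Stem.perfect_of_conj (gl l) (gl_inv l) 4 gen8 cj (by decide)
    (cov_rels _ (by decide +kernel) tab_cj) (cov_rels _ (by decide +kernel) tab_cp)

theorem ne_of_walk (w : List ℕ) (hw : w.all (fun j => decide (j < 18)) = true) (c : ℕ)
    (hc : c < 100) (h : TP.walkT 100 2 cT cL w c 0 ≠ (c, 0)) : ev (gl l) w ≠ 1 :=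
  CP.ev_ne_one gsJ qs hlen _ (TP.ev_ne_one 100 2 cT cL _ _ 18 inv_ok hk _ hw c hc h)

/-! ### The prime 5 -/

theorem h5rels : ∀ w ∈ Stem.ws25, ev (gl [gl l 6, gl l 8, gl l 10]) w = 1 := by
  intro w hw
  have h1 := CT.ev_sub3 (gl l) (gl_inv l) 3 w (by
    revert w
    decide)
  have h2 := cov_rels x5 (by decide +kernel) tab_x5 (w.map (· + 2 * 3))
    (List.mem_map.2 ⟨w, hw, rfl⟩)
  exact h1.trans h2

theorem e7 : gl l 7 = (gl l 6)⁻¹ := Stem.g_iv (gl l) (gl_inv l) 3

theorem a5_ne : gl l 6 ≠ 1 := by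
  intro h
  apply ne_of_walk [6] (by decide) 0 (by norm_num) tab_a5
  show gl l 6 * 1 = 1
  rw [h, mul_one]

theorem b5_ne0 : gl l 8 ≠ 1 := by
  intro h
  apply ne_of_walk [8] (by decide) 0 (by norm_num) tab_b5k0
  show gl l 8 * 1 = 1
  rw [h, mul_one]

theorem b5_ne1 : gl l 8 ≠ gl l 6 := by
  intro h
  apply ne_of_walk [8, 7] (by decide) 0 (by norm_num) tab_b5k1
  show gl l 8 * (gl l 7 * 1) = 1
  rw [e7, h]
  group

theorem b5_ne2 : gl l 8 ≠ gl l 6 ^ 2 := by
  intro h
  apply ne_of_walk [8, 7, 7] (by decide) 0 (by norm_num) tab_b5k2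
  show gl l 8 * (gl l 7 * (gl l 7 * 1)) = 1
  rw [e7, h]
  group

theorem b5_ne3 : gl l 8 ≠ gl l 6 ^ 3 := by
  intro h
  apply ne_of_walk [8, 7, 7, 7] (by decide) 0 (by norm_num) tab_b5k3
  show gl l 8 * (gl l 7 * (gl l 7 * (gl l 7 * 1))) = 1
  rw [e7, h]
  group

theorem b5_ne4 : gl l 8 ≠ gl l 6 ^ 4 := by
  intro h
  apply ne_of_walk [8, 7, 7, 7, 7] (by decide) 0 (by norm_num) tab_b5k4
  show gl l 8 * (gl l 7 * (gl l 7 * (gl l 7 * (gl l 7 * 1)))) = 1
  rw [e7, h]
  group

/-! ### The prime 3 -/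

theorem h3rels : ∀ w ∈ MConc.ws3, ev (gl [gl l 12, gl l 14, gl l 16]) w = 1 := by
  intro w hw
  have h1 := CT.ev_sub3 (gl l) (gl_inv l) 6 w (by
    revert w
    decide)
  have h2 := cov_rels x3 (by decide +kernel) tab_x3 (w.map (· + 2 * 6))
    (List.mem_map.2 ⟨w, hw, rfl⟩)
  exact h1.trans h2

theorem hne3 : gl l 12 * gl l 14 ≠ gl l 14 * gl l 12 := by
  intro h
  apply ne_of_walk [12, 14, 13, 15] (by decide) 1 (by norm_num) tab_comm3
  have e13 : gl l 13 = (gl l 12)⁻¹ := Stem.g_iv (gl l) (gl_inv l) 6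
  have e15 : gl l 15 = (gl l 14)⁻¹ := Stem.g_iv (gl l) (gl_inv l) 7
  show gl l 12 * (gl l 14 * (gl l 13 * (gl l 15 * 1))) = 1
  rw [e13, e15, mul_one, ← mul_assoc, h]
  group

theorem not_sq {p : ℕ} (hp : p.Prime) (h2 : p ≠ 2) (h3 : p ≠ 3) (h5 : p ≠ 5) :
    ¬ p ^ 2 ∣ 1209600 := by
  intro h
  have hc2 : Nat.Coprime (p ^ 2) (2 ^ 8) :=
    Nat.Coprime.pow _ _ ((Nat.coprime_primes hp Nat.prime_two).2 h2)
  have hc3 : Nat.Coprime (p ^ 2) (3 ^ 3) :=
    Nat.Coprime.pow _ _ ((Nat.coprime_primes hp Nat.prime_three).2 h3)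
  have hc5 : Nat.Coprime (p ^ 2) (5 ^ 2) :=
    Nat.Coprime.pow _ _ ((Nat.coprime_primes hp (by norm_num)).2 h5)
  have h1 : p ^ 2 ∣ 4725 := hc2.dvd_of_dvd_mul_left (by norm_num; exact h)
  have h4 : p ^ 2 ∣ 175 := hc3.dvd_of_dvd_mul_left (by norm_num; exact h1)
  have h6 : p ^ 2 ∣ 7 := hc5.dvd_of_dvd_mul_left (by norm_num; exact h4)
  have h7 : p ^ 2 ≤ 7 := Nat.le_of_dvd (by norm_num) h6
  have h8 : p ≤ 2 := by nlinarith
  interval_cases p <;>
    first | exact absurd h6 (by decide) | exact absurd hp (by decide)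

/-- The cover has trivial Schur multiplier. -/
theorem univ (X : Type) [Group X] [Finite X] (τ : X →* ↥(CP.cov gsJ qs))
    (hτ : Function.Surjective τ) (hc : τ.ker ≤ center X) (hd : τ.ker ≤ commutator X) :
    τ.ker = ⊥ := by
  apply Stem.ker_eq_bot_of_primes
  intro p hp
  by_cases h2 : p = 2
  · subst h2
    exact Chain.two_universal l ps Ls ps_odd valid chained (by rw [card_cov, prodN_eq])
      (by rw [lastK_eq]; exact gen8) hE hW X τ hτ hc hd
  by_cases h3 : p = 3
  · subst h3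
    obtain ⟨ha, hb, hca, hcb, hna, hnb⟩ :=
      MConc.extra_of_words (gl l 12) (gl l 14) (gl l 16) h3rels
    exact Stem.not_dvd_card_ker_of_extraspecial τ hτ hc hd (gl l 12) (gl l 14) (gl l 16)
      ha hb hne3 hca hcb hna hnb (by rw [card_cov]; decide)
  by_cases h5 : p = 5
  · subst h5
    have : Fact (Nat.Prime 5) := ⟨by norm_num⟩
    obtain ⟨ha, hb, hab, hta, htb⟩ :=
      Stem.rank_two_of_words5 (gl l 6) (gl l 8) (gl l 10) h5rels
    exact Stem.not_dvd_card_ker_of_rank_two τ hτ hc hd 5 (by decide) (gl l 6) (gl l 8)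
      (gl l 10) ha hb a5_ne (Stem.not_mem_zpowers_of5 ha b5_ne0 b5_ne1 b5_ne2 b5_ne3 b5_ne4)
      hab hta htb (by rw [card_cov]; decide)
  · have : Fact p.Prime := ⟨hp⟩
    exact Stem.not_dvd_card_ker_of_sq τ hc hd p (by rw [card_cov]; exact not_sq hp h2 h3 h5)

/-- The Schur multiplier of the Hall–Janko group is cyclic of order 2. -/
theorem schurJ2 : HasCyclicSchurMultiplier Spor.J2 2 := by
  obtain ⟨e⟩ := Cfsg.Agent.Helper57.ico_j2_iso
  have hfin : Finite Spor.J2 := Finite.of_equiv _ e.symm.toEquiv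
  have hcard : Nat.card Spor.J2 = 604800 := Cfsg.Agent.Helper57.ico_card_J2
  exact Stem.cover_cyclic (e.symm.toMonoidHom.comp (CP.covπ gsJ qs))
    (e.symm.surjective.comp π_surj) 2 (by rw [hcard]; exact card_dvd) ζ
    (by
      show e.symm (CP.covπ gsJ qs ζ) = 1
      rw [ζ_ker, map_one])
    ζ_ord ζ_central perfect univ

end Cfsg.Agent.Helper89.J2c
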