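import Cfsg.Agent.Helper7.J3Simple
import Cfsg.Agent.Helper89.ChainGen

/-!
# Words in the triple cover of the Janko group `J₃`, evaluated on codes (helper89)

An element of `Spor.threeJ3 F ω` is known by the code of its matrix (helper7's `IsCode`).  The code
of a word in elements with known codes is computed by `evA`; a word whose code is the code of the
identity is a relator.
-/

set_option autoImplicit false

namespace Cfsg.Agent.Helper89.J3c

open Cfsg Subgroup Cfsg.Agent.Helper7.J3

/-- The code of a word in letters with codes `cs`, starting from the code `acc`. -/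
def evA (cs : List ℕ) : ℕ → List ℕ → ℕ
  | acc, [] => acc
  | acc, j :: w => evA cs (mulF acc (cs.getD j idC)) w

/-- The codes `cs` are the codes of the generators given by the words `ws` in letters with codes
`bcs` and of their inverses. -/
def codesOK (bcs : List ℕ) (ws : List (List ℕ)) (cs : List ℕ) : Bool :=
  (cs.length == 2 * ws.length) &&
  (List.range ws.length).all fun i =>
    (evA bcs idC (ws.getD i []) == cs.getD (2 * i) idC) &&
    (mulF (cs.getD (2 * i) idC) (cs.getD (2 * i + 1) idC) == idC)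

/-- A strictly increasing list above `p`. -/
def incB : ℕ → List ℕ → Bool
  | _, [] => true
  | p, a :: l => Nat.blt p a && incB a l

theorem incB_spec : ∀ (l : List ℕ) (p : ℕ), incB p l = true → (∀ x ∈ l, p < x) ∧ l.Nodup := by
  intro l
  induction l with
  | nil => intro p _; simp
  | cons a l ih =>
    intro p h
    rw [incB, Bool.and_eq_true, Nat.blt_eq] at h
    obtain ⟨h1, h2⟩ := ih a h.2
    refine ⟨?_, ?_⟩
    · intro x hx
      rcases List.mem_cons.1 hx with rfl | hx
      · exact h.1
      · exact lt_trans h.1 (h1 x hx)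
    · rw [List.nodup_cons]
      exact ⟨fun ha => lt_irrefl _ (h1 a ha), h2⟩

section
variable {F : Type*} [Field F] {ω : F}

theorem isCode_evA (H : Ctx ω) (g : ℕ → ↥(Spor.threeJ3 F ω)) (cs : List ℕ)
    (hg : ∀ j, IsCode ω (g j : GL Spor.F9 F) (cs.getD j idC)) (w : List ℕ) :
    ∀ (a : ↥(Spor.threeJ3 F ω)) (acc : ℕ), IsCode ω (a : GL Spor.F9 F) acc →
      IsCode ω ((a * ev g w : ↥(Spor.threeJ3 F ω)) : GL Spor.F9 F) (evA cs acc w) := by
  induction w with
  | nil =>
    intro a acc h
    rw [ev, mul_one]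
    exact h
  | cons j w ih =>
    intro a acc h
    have h1 : IsCode ω ((a * g j : ↥(Spor.threeJ3 F ω)) : GL Spor.F9 F)
        (mulF acc (cs.getD j idC)) := by
      rw [mulF_eq, Subgroup.coe_mul]
      exact IsCode.mul H.two H.om h (hg j)
    have h2 := ih (a * g j) _ h1
    rw [mul_assoc] at h2
    exact h2

theorem isCode_ev (H : Ctx ω) (g : ℕ → ↥(Spor.threeJ3 F ω)) (cs : List ℕ)
    (hg : ∀ j, IsCode ω (g j : GL Spor.F9 F) (cs.getD j idC)) (w : List ℕ) :
    IsCode ω ((ev g w : ↥(Spor.threeJ3 F ω)) : GL Spor.F9 F) (evA cs idC w) := by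
  have h := isCode_evA H g cs hg w 1 idC (by rw [Subgroup.coe_one]; exact isCode_one)
  rwa [one_mul] at h

/-- A word with the code of the identity is a relator. -/
theorem ev_eq_one (H : Ctx ω) (g : ℕ → ↥(Spor.threeJ3 F ω)) (cs : List ℕ)
    (hg : ∀ j, IsCode ω (g j : GL Spor.F9 F) (cs.getD j idC)) (w : List ℕ)
    (h : evA cs idC w = idC) : ev g w = 1 := by
  apply Subtype.ext
  rw [Subgroup.coe_one]
  have h1 := isCode_ev H g cs hg w
  rw [h] at h1
  exact IsCode.eq h1 isCode_one

theorem rels_hold (H : Ctx ω) (g : ℕ → ↥(Spor.threeJ3 F ω)) (cs : List ℕ)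
    (hg : ∀ j, IsCode ω (g j : GL Spor.F9 F) (cs.getD j idC)) (ws : List (List ℕ))
    (h : ws.all (fun w => evA cs idC w == idC) = true) : ∀ w ∈ ws, ev g w = 1 := by
  intro w hw
  exact ev_eq_one H g cs hg w (by simpa using List.all_eq_true.1 h w hw)

/-- A word with the code of `x` is `x`. -/
theorem ev_eq_of_code (H : Ctx ω) (g : ℕ → ↥(Spor.threeJ3 F ω)) (cs : List ℕ)
    (hg : ∀ j, IsCode ω (g j : GL Spor.F9 F) (cs.getD j idC)) (w : List ℕ)
    (x : ↥(Spor.threeJ3 F ω)) (c : ℕ) (hx : IsCode ω (x : GL Spor.F9 F) c)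
    (h : evA cs idC w = c) : ev g w = x := by
  apply Subtype.ext
  have h1 := isCode_ev H g cs hg w
  rw [h] at h1
  exact IsCode.eq h1 hx

theorem evA_lt (cs : List ℕ) : ∀ (w : List ℕ) (acc : ℕ), acc < 2 ^ 162 →
    evA cs acc w < 2 ^ 162 := by
  intro w
  induction w with
  | nil => intro acc h; exact h
  | cons j w ih =>
    intro acc _
    rw [evA]
    exact ih _ (by rw [mulF_eq]; exact mulC_lt _ _)

/-- Words with different codes are different elements. -/
theorem ev_ne_of_code (H : Ctx ω) (g : ℕ → ↥(Spor.threeJ3 F ω)) (cs : List ℕ)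
    (hg : ∀ j, IsCode ω (g j : GL Spor.F9 F) (cs.getD j idC)) (w w' : List ℕ)
    (h : ev g w = ev g w') : evA cs idC w = evA cs idC w' := by
  have h1 := isCode_ev H g cs hg w
  have h2 := isCode_ev H g cs hg w'
  rw [h] at h1
  exact IsCodeM.code_eq H.two H.om h1 h2 (evA_lt cs w idC (by decide)) (evA_lt cs w' idC (by decide))

/-- The codes of the generators and of their inverses. -/
theorem isCode_gl (H : Ctx ω) (l : List ↥(Spor.threeJ3 F ω)) (cs : List ℕ)
    (hlen : cs.length = 2 * l.length)
    (h : ∀ i, i < l.length → IsCode ω ((l.getD i 1 : ↥(Spor.threeJ3 F ω)) : GL Spor.F9 F)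
        (cs.getD (2 * i) idC) ∧
      mulF (cs.getD (2 * i) idC) (cs.getD (2 * i + 1) idC) = idC) :
    ∀ j, IsCode ω ((gl l j : ↥(Spor.threeJ3 F ω)) : GL Spor.F9 F) (cs.getD j idC) := by
  intro j
  by_cases hj : j / 2 < l.length
  · obtain ⟨h1, h2⟩ := h (j / 2) hj
    unfold gl
    split_ifs with hpar
    · have e : 2 * (j / 2) = j := by omega
      rwa [e] at h1
    · have e : 2 * (j / 2) + 1 = j := by omega
      rw [e] at h2
      have h3 : IsCode ω (1 : GL Spor.F9 F) (mulC (cs.getD (2 * (j / 2)) idC) (cs.getD j idC)) := by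
        rw [← mulF_eq, h2]
        exact isCode_one
      have h4 := isCode_inv_mul H h3 h1
      rw [mul_one] at h4
      rw [Subgroup.coe_inv]
      exact h4
  · have hd : l.getD (j / 2) 1 = 1 := List.getD_eq_default _ _ (by omega)
    have hc : cs.getD j idC = idC := List.getD_eq_default _ _ (by omega)
    unfold gl
    rw [hd, hc]
    split_ifs
    · rw [Subgroup.coe_one]
      exact isCode_one
    · rw [inv_one, Subgroup.coe_one]
      exact isCode_one

/-- The codes of generators given by words. -/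
theorem isCode_gl_words (H : Ctx ω) (g₀ : ℕ → ↥(Spor.threeJ3 F ω)) (bcs : List ℕ)
    (hg₀ : ∀ j, IsCode ω (g₀ j : GL Spor.F9 F) (bcs.getD j idC)) (ws : List (List ℕ))
    (cs : List ℕ) (hok : codesOK bcs ws cs = true) :
    ∀ j, IsCode ω ((gl (ws.map (ev g₀)) j : ↥(Spor.threeJ3 F ω)) : GL Spor.F9 F)
      (cs.getD j idC) := by
  rw [codesOK, Bool.and_eq_true, beq_iff_eq] at hok
  obtain ⟨hlen, hall⟩ := hok
  apply isCode_gl H
  · rw [List.length_map]
    exact hlen
  · intro i hi
    rw [List.length_map] at hi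
    have h1 := List.all_eq_true.1 hall i (List.mem_range.2 hi)
    rw [Bool.and_eq_true, beq_iff_eq, beq_iff_eq] at h1
    have e : (ws.map (ev g₀)).getD i 1 = ev g₀ (ws.getD i []) := by
      rw [List.getD_eq_getElem _ _ (by rw [List.length_map]; exact hi),
        List.getD_eq_getElem _ _ hi, List.getElem_map]
    refine ⟨?_, h1.2⟩
    rw [e, ← h1.1]
    exact isCode_ev H g₀ bcs hg₀ _

end

end Cfsg.Agent.Helper89.J3c
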