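import Cfsg.Agent.Helper89.CoxP

/-! # Chain certificate for the normaliser of a Sylow 3-subgroup of `3.J₃` (order 5832), with relators of conjugation type (helper89)

Generated data. -/

set_option autoImplicit false
set_option maxRecDepth 100000

namespace Cfsg.Agent.Helper89.J3s

open Cfsg.Agent.Helper89

def ps : List (ℕ × ℕ) := [(0, 8), (1, 8), (2, 8), (3, 8)]

/-- The relators of conjugation type `u a u⁻¹ b`. -/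
def cr : List (List ℕ) := [[0, 0, 2, 1, 1, 3], [0, 2, 0, 3, 1, 3], [3, 1, 4, 0, 5, 0, 2, 5], [0, 0, 2, 5, 2, 4, 3, 1, 1, 5], [0, 2, 4, 0, 4, 1, 5, 3, 1, 5], [0, 5, 5, 5, 0, 4, 4, 4, 1, 5], [2, 5, 0, 4, 0, 5, 1, 4, 3, 5], [2, 5, 5, 5, 2, 4, 4, 4, 3, 5], [0, 2, 7, 2, 6, 3, 1, 7], [0, 3, 3, 0, 6, 1, 2, 2, 1, 7], [3, 6, 3, 7, 4, 6, 2, 7, 2, 7], [4, 6, 2, 4, 6, 5, 3, 7, 5, 7], [7, 1, 4, 6, 4, 7, 5, 0, 6, 1], [0, 0, 7, 3, 4, 0, 5, 2, 6, 1, 1, 7], [0, 4, 6, 4, 7, 0, 6, 5, 7, 5, 1, 7], [0, 7, 2, 1, 6, 4, 7, 0, 3, 6, 1, 3], [1, 6, 0, 3, 7, 0, 6, 2, 1, 7, 0, 5], [2, 7, 0, 0, 0, 6, 1, 1, 1, 6, 3, 3], [2, 7, 5, 2, 6, 4, 7, 3, 4, 6, 3, 3]]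

/-- All relators. -/
def E : List (List ℕ) := Chain.powW ps ++ cr

def L0 : Chain.LD where
  n := 8
  k := 2
  k₀ := 0
  T := tbl 3 2 0xbbc7f23600d1
  Lb := tbl 1 2 0x0
  par := vec 3 0xb1a200
  gam := vec 4 0x1010100
  S := []
  ex := [[0, 0, 0, 0, 0, 0, 0, 0]]
  ws := []
  steps := [
  (0, 0, 4)]
  E₀ := 0x9fff
  cl := []

theorem L0_valid : L0.Valid :=
  ⟨by decide +kernel, by decide +kernel, by decide +kernel, by decide, by decide, by decide⟩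

def L1 : Chain.LD where
  n := 3
  k := 4
  k₀ := 2
  T := tbl 2 4 0xa50a50
  Lb := tbl 1 4 0x0
  par := vec 2 0x10
  gam := vec 4 0x130
  S := [0, 1]
  ex := [[0, 0, 0, 0, 0, 0, 0, 0], [2, 2, 2, 2, 2, 2, 2, 2], [0, 0, 2, 1, 1, 3], [0, 2, 0, 3, 1, 3]]
  ws := []
  steps := [
  (1, 2, 0), (2, 3, 5), (1, 3, 3)]
  E₀ := 0x16b
  cl := []

theorem L1_valid : L1.Valid :=
  ⟨by decide +kernel, by decide +kernel, by decide +kernel, by decide, by decide, by decide⟩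

def L2 : Chain.LD where
  n := 9
  k := 6
  k₀ := 4
  T := tbl 4 6 0x706767288585134848557373321616645252473131062424810000
  Lb := tbl 1 6 0x0
  par := vec 4 0x754332100
  gam := vec 4 0x430141340
  S := [0, 1, 2, 3]
  ex := [[0, 0, 0, 0, 0, 0, 0, 0], [2, 2, 2, 2, 2, 2, 2, 2], [4, 4, 4, 4, 4, 4, 4, 4], [0, 0, 2, 1, 1, 3], [0, 2, 0, 3, 1, 3], [3, 1, 4, 0, 5, 0, 2, 5], [0, 0, 2, 5, 2, 4, 3, 1, 1, 5], [0, 2, 4, 0, 4, 1, 5, 3, 1, 5], [0, 5, 5, 5, 0, 4, 4, 4, 1, 5], [2, 5, 0, 4, 0, 5, 1, 4, 3, 5], [2, 5, 5, 5, 2, 4, 4, 4, 3, 5]]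
  ws := []
  steps := [
  (0, 5, 3), (5, 6, 9), (2, 9, 9), (2, 10, 2), (8, 7, 0), (8, 8, 2), (0, 9, 8), (7, 8, 0), (7, 3, 2), (3, 4, 4), (5, 4, 5), (8, 4, 5),
  (8, 5, 0), (3, 6, 7), (6, 6, 9), (7, 6, 4), (1, 7, 9)]
  E₀ := 0x205022614c6a1f
  cl := []

theorem L2_valid : L2.Valid :=
  ⟨by decide +kernel, by decide +kernel, by decide +kernel, by decide, by decide, by decide⟩

def L3 : Chain.LD where
  n := 27
  k := 8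
  k₀ := 6
  T := tbl 5 8 0x260d0bc18f5946cb5c6cd3ed7a9ad7ab70bceb147b0380e65885e479610711d85316f09ccae809e4890557545664a318c6313d749d4e8ac596a5a7530ae6854928ba1ad6b5adb47343af3a766ef63cc5529e42ba024a602790ae689c320dd5a42a61b2a6180fac50ebc8e93a2969969414a2612991941c39451329855203896158833040000000
  Lb := tbl 1 8 0x0
  par := vec 5 0x5ed6aca508398a4a507314a318c6108400
  gam := vec 4 0x220602122613072020326710360
  S := [0, 1, 2, 3, 4, 5]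
  ex := [[0, 0, 0, 0, 0, 0, 0, 0], [2, 2, 2, 2, 2, 2, 2, 2], [4, 4, 4, 4, 4, 4, 4, 4], [6, 6, 6, 6, 6, 6, 6, 6], [0, 0, 2, 1, 1, 3], [0, 2, 0, 3, 1, 3], [3, 1, 4, 0, 5, 0, 2, 5], [0, 0, 2, 5, 2, 4, 3, 1, 1, 5], [0, 2, 4, 0, 4, 1, 5, 3, 1, 5], [0, 5, 5, 5, 0, 4, 4, 4, 1, 5], [2, 5, 0, 4, 0, 5, 1, 4, 3, 5], [2, 5, 5, 5, 2, 4, 4, 4, 3, 5], [0, 2, 7, 2, 6, 3, 1, 7], [0, 3, 3, 0, 6, 1, 2, 2, 1, 7], [3, 6, 3, 7, 4, 6, 2, 7, 2, 7], [4, 6, 2, 4, 6, 5, 3, 7, 5, 7], [7, 1, 4, 6, 4, 7, 5, 0, 6, 1], [0, 0, 7, 3, 4, 0, 5, 2, 6, 1, 1, 7], [0, 4, 6, 4, 7, 0, 6, 5, 7, 5, 1, 7], [0, 7, 2, 1, 6, 4, 7, 0, 3, 6, 1, 3], [1, 6, 0, 3, 7, 0, 6, 2, 1, 7, 0, 5], [2, 7, 0, 0, 0, 6, 1, 1, 1, 6, 3, 3], [2, 7, 5, 2, 6, 4, 7, 3, 4, 6, 3, 3]]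
  ws := []
  steps := [
  (0, 13, 6), (0, 20, 5), (4, 21, 6), (9, 4, 5), (5, 5, 4), (9, 5, 3), (10, 5, 5), (14, 5, 2), (16, 5, 4), (20, 5, 5), (10, 12, 7), (10, 14, 4),
  (19, 17, 11), (2, 4, 0), (10, 4, 3), (14, 4, 2), (15, 4, 0), (19, 4, 5), (2, 5, 2), (18, 5, 2), (19, 12, 3), (9, 17, 11), (2, 21, 9), (14, 19, 5),
  (9, 20, 11), (4, 22, 8), (9, 7, 5), (8, 16, 8), (4, 19, 5), (10, 20, 11), (19, 20, 11), (1, 6, 4), (4, 6, 2), (8, 6, 4), (14, 6, 2), (22, 6, 7),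
  (5, 7, 3), (14, 7, 5), (15, 8, 9), (8, 9, 1), (18, 9, 7), (2, 12, 7), (0, 18, 8), (5, 18, 7), (13, 18, 8), (3, 2, 2), (5, 15, 4), (13, 15, 6),
  (16, 15, 4), (18, 15, 3), (17, 16, 9), (20, 16, 3), (4, 17, 10), (5, 17, 8), (15, 17, 9), (25, 17, 1), (1, 18, 7), (18, 18, 2), (5, 19, 9), (6, 19, 1),
  (24, 19, 11), (1, 20, 3), (2, 20, 7), (3, 20, 7), (8, 20, 2), (21, 20, 8), (24, 20, 11), (1, 21, 9), (3, 21, 1), (9, 21, 5), (10, 21, 9), (16, 21, 6),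
  (18, 21, 9), (19, 21, 5), (22, 21, 10), (2, 22, 8), (10, 22, 7), (21, 22, 5), (22, 22, 2)]
  E₀ := 0x8080284074801080d800704064048020a0b840c814501ce048b7f
  cl := []

theorem L3_valid : L3.Valid :=
  ⟨by decide +kernel, by decide +kernel, by decide +kernel, by decide, by decide, by decide⟩

def Ls : List Chain.LD := [L0, L1, L2, L3]

theorem valid : ∀ d ∈ Ls, d.Valid := by
  intro d hd
  simp only [Ls, List.mem_cons, List.not_mem_nil, or_false] at hd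
  rcases hd with rfl | rfl | rfl | rfl
  · exact L0_valid
  · exact L1_valid
  · exact L2_valid
  · exact L3_valid

theorem chained : Chain.Chained E [] 0 Ls := by
  refine ⟨rfl, by decide, ?_⟩
  refine ⟨rfl, by decide, ?_⟩
  refine ⟨rfl, by decide, ?_⟩
  refine ⟨rfl, by decide, ?_⟩
  trivial

theorem ws_nil : ∀ d ∈ Ls, d.ws = [] := by decide

theorem E_ok : ∀ w ∈ E, w ∈ Chain.powW ps ∨ Chain.cxOK w = true := by decide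

theorem ps_dvd : ∀ q ∈ ps, q.2 ∣ 8 := by decide

theorem lastK_eq : Chain.lastK 0 Ls = 8 := rfl

theorem prodN_eq : Chain.prodN Ls = 5832 := by decide

end Cfsg.Agent.Helper89.J3s
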