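import Cfsg.Agent.Helper89.ChainGen

/-!
# The subgroup generated by a list, as a group with generators (helper89)

For a list `l` of elements of a group, `SubGen.sub l` is the subgroup generated by `l` and
`SubGen.gens l` is the same list inside this subgroup: words are evaluated in the same way, the
list generates the subgroup, and distinct words give a lower bound for its order.
-/

set_option autoImplicit false

namespace Cfsg.Agent.Helper89.SubGen

open Subgroup

variable {G : Type*} [Group G]

/-- The subgroup generated by a list. -/
def sub (l : List G) : Subgroup G := closure {x | x ∈ l}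

/-- The list, inside the subgroup that it generates. -/
def gens (l : List G) : List ↥(sub l) := l.attach.map fun x => ⟨x.1, subset_closure x.2⟩

theorem gens_length (l : List G) : (gens l).length = l.length := by
  simp [gens]

theorem gens_map (l : List G) : (gens l).map (sub l).subtype = l := by
  rw [gens, List.map_map]
  exact List.attach_map_subtype_val l

theorem coe_gl (l : List G) (j : ℕ) : ((gl (gens l) j : ↥(sub l)) : G) = gl l j := by
  have h := map_gl (sub l).subtype (gens l) j
  rw [gens_map] at h
  exact h

theorem coe_ev (l : List G) (w : List ℕ) :
    ((ev (gl (gens l)) w : ↥(sub l)) : G) = ev (gl l) w := by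
  have h := map_ev (sub l).subtype (gl (gens l)) w
  exact h.trans (ev_congr (coe_gl l) w)

/-- Relators of the list are relators inside the subgroup. -/
theorem ev_eq_one (l : List G) (w : List ℕ) (h : ev (gl l) w = 1) : ev (gl (gens l)) w = 1 := by
  apply Subtype.ext
  rw [coe_ev, h]
  rfl

/-- The list generates the subgroup. -/
theorem gen_top (l : List G) : closure (gl (gens l) '' Set.Iio (2 * l.length)) = ⊤ := by
  apply Subgroup.map_injective (sub l).subtype_injective
  rw [MonoidHom.map_closure, ← MonoidHom.range_eq_map, Subgroup.range_subtype, Set.image_image]
  have e : (fun j => (sub l).subtype (gl (gens l) j)) = gl l := funext (coe_gl l)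
  rw [e]
  apply le_antisymm
  · rw [closure_le]
    rintro _ ⟨j, _, rfl⟩
    exact gl_mem (sub l) l (fun x hx => subset_closure hx) j
  · rw [sub, closure_le]
    intro x hx
    obtain ⟨i, hi, rfl⟩ := List.getElem_of_mem hx
    apply Subgroup.subset_closure
    refine ⟨2 * i, ?_, ?_⟩
    · rw [Set.mem_Iio]
      omega
    · rw [Chain.gl_two_mul, List.getD_eq_getElem _ _ hi]

/-- Words with distinct values bound the order of the subgroup from below. -/
theorem card_ge [Finite G] (l : List G) (ws : List (List ℕ))
    (hnd : (ws.map (ev (gl l))).Nodup) : ws.length ≤ Nat.card ↥(sub l) := by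
  have h1 : ((ws.map (ev (gl (gens l)))).map (sub l).subtype).Nodup := by
    rw [List.map_map]
    have e : ((sub l).subtype ∘ ev (gl (gens l))) = ev (gl l) := funext (coe_ev l)
    rw [e]
    exact hnd
  have h2 : (ws.map (ev (gl (gens l)))).Nodup := List.Nodup.of_map _ h1
  have : Fintype ↥(sub l) := Fintype.ofFinite _
  have h3 := List.Nodup.length_le_card h2
  rw [List.length_map] at h3
  rw [Nat.card_eq_fintype_card]
  exact h3

end Cfsg.Agent.Helper89.SubGen
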