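import Cfsg.Agent.Helper89.J3sModel
import Cfsg.Agent.Helper89.SubGen
import Cfsg.Agent.Helper7.PRestrict
import Cfsg.Agent.Helper7.J3MultAsm

/-!
# The 3-part of the Schur multiplier of the triple cover of `J₃` is trivial (helper89)

Four elements of order 8 of `3.J₃`, given as words in helper7's generators, generate a subgroup
`S` (the normaliser of a Sylow 3-subgroup, of order 5832).  They satisfy relators of conjugation
type with a chain certificate `J3s.Ls` of total index `5832 = 8 · 3 · 9 · 27`, so that central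
extensions of `S` with kernel of exponent 3 inside the commutator subgroup split
(`Chain.p_of_chain`).  A list of 1945 words with distinct codes shows that the order of `S` is
2916 or 5832, so that its index is prime to 3, and the restriction to `S` (helper7's `p_restrict`,
by transfer) gives the same for `3.J₃`.  With helper7's `schur_J3_of_three` (the primes other
than 3) the Schur multiplier of `J₃` is cyclic of order 3.
-/

set_option autoImplicit false
set_option maxRecDepth 100000

namespace Cfsg.Agent.Helper89.J3c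

open Cfsg Subgroup Cfsg.Agent.Helper7.J3

universe u

variable {F : Type u} [Field F] {ω : F}

/-- The generators `x, y, z` of the triple cover. -/
noncomputable def bl (H : Ctx ω) : List ↥(Spor.threeJ3 F ω) :=
  [⟨gx H, (gens_spec H).1⟩, ⟨gy H, (gens_spec H).2.1⟩, ⟨gz H, (gens_spec H).2.2.1⟩]

theorem bl_code (H : Ctx ω) :
    ∀ j, IsCode ω ((gl (bl H) j : ↥(Spor.threeJ3 F ω)) : GL Spor.F9 F) (bcs.getD j idC) := by
  apply isCode_gl H (bl H) bcs rfl
  intro i hi
  have hi3 : i < 3 := hi
  refine ⟨?_, bcs_ok i hi3⟩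
  interval_cases i
  · show IsCode ω (gx H) (bcs.getD 0 idC)
    rw [bcs_eq.1]
    exact (gens_spec H).2.2.2.1
  · show IsCode ω (gy H) (bcs.getD 2 idC)
    rw [bcs_eq.2.1]
    exact (gens_spec H).2.2.2.2.1
  · show IsCode ω (gz H) (bcs.getD 4 idC)
    rw [bcs_eq.2.2]
    exact (gens_spec H).2.2.2.2.2.1

/-- Four elements of order 8. -/
noncomputable def ls (H : Ctx ω) : List ↥(Spor.threeJ3 F ω) := sw.map (ev (gl (bl H)))

theorem ls_length (H : Ctx ω) : (ls H).length = 4 := by
  rw [ls, List.length_map]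
  rfl

theorem ls_code (H : Ctx ω) :
    ∀ j, IsCode ω ((gl (ls H) j : ↥(Spor.threeJ3 F ω)) : GL Spor.F9 F) (sc.getD j idC) :=
  isCode_gl_words H (gl (bl H)) bcs (bl_code H) sw sc sc_ok

theorem ls_rels (H : Ctx ω) : ∀ w ∈ J3s.E, ev (gl (ls H)) w = 1 :=
  rels_hold H (gl (ls H)) sc (ls_code H) J3s.E sE_ok

/-- The subgroup generated by the four elements. -/
noncomputable abbrev S (H : Ctx ω) : Subgroup ↥(Spor.threeJ3 F ω) := SubGen.sub (ls H)

/-- The four elements inside `S`. -/
noncomputable abbrev lS (H : Ctx ω) : List ↥(S H) := SubGen.gens (ls H)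

theorem genS (H : Ctx ω) : closure (gl (lS H) '' Set.Iio 8) = ⊤ := by
  have h := SubGen.gen_top (ls H)
  rwa [ls_length] at h

theorem hE (H : Ctx ω) : ∀ w ∈ J3s.E, ev (gl (lS H)) w = 1 :=
  fun w hw => SubGen.ev_eq_one (ls H) w (ls_rels H w hw)

theorem hN (H : Ctx ω) : ∀ i, ((lS H).getD i 1) ^ 8 = 1 := by
  intro i
  by_cases hi : i < 4
  · have h := hE H (List.replicate 8 (2 * i))
      (List.mem_append_left _ (List.mem_map.2 ⟨(i, 8), by
        interval_cases i <;> decide, rfl⟩))
    rwa [ev_replicate, Chain.gl_two_mul] at h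
  · rw [List.getD_eq_default _ _ (by rw [SubGen.gens_length, ls_length]; omega), one_pow]

theorem finΓ (H : Ctx ω) : Finite ↥(Spor.threeJ3 F ω) :=
  Nat.finite_of_card_ne_zero (by rw [card_threeJ3 H]; norm_num)

theorem card_dvd (H : Ctx ω) : Nat.card ↥(S H) ∣ 5832 := by
  have := finΓ H
  have h := Chain.gchain (gl (lS H)) (gl_inv _) J3s.E (hE H) J3s.Ls [] 0 J3s.valid J3s.chained
    (by simp) (fun d hd w hw => absurd hw (by rw [J3s.ws_nil d hd]; simp))
  have h0 : Nat.card (closure (gl (lS H) '' Set.Iio 0)) = 1 := by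
    have e : (gl (lS H) '' Set.Iio 0) = ∅ := by
      ext x; simp
    rw [e, Subgroup.closure_empty, Subgroup.card_bot]
  rw [J3s.lastK_eq, genS H, Subgroup.card_top, J3s.prodN_eq, h0, mul_one] at h
  exact h

theorem tw_nodup (H : Ctx ω) : (tw.map (ev (gl (ls H)))).Nodup := by
  have h1 : (tw.map (evA sc idC)).Nodup := (incB_spec _ 0 tw_ok).2
  have h2 : tw.Nodup := List.Nodup.of_map _ h1
  refine List.Nodup.map_on ?_ h2
  intro w hw w' hw' h
  exact List.inj_on_of_nodup_map h1 hw hw' (ev_ne_of_code H (gl (ls H)) sc (ls_code H) w w' h)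

theorem card_ge (H : Ctx ω) : 1945 ≤ Nat.card ↥(S H) := by
  have := finΓ H
  have h := SubGen.card_ge (ls H) tw (tw_nodup H)
  rwa [tw_length] at h

/-- The order of `S` is 5832 or 2916. -/
theorem exists_c (H : Ctx ω) :
    ∃ c : ℕ, Nat.Coprime c 3 ∧ 5832 = c * Nat.card ↥(S H) ∧ ¬ 3 ∣ (S H).index := by
  obtain ⟨c, hc⟩ := card_dvd H
  have hge := card_ge H
  have hidx := Subgroup.card_mul_index (S H)
  rw [card_threeJ3 H] at hidx
  have hc2 : c ≤ 2 := by
    by_contra hcon
    have h3 : 3 ≤ c := by omega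
    have : Nat.card ↥(S H) * 3 ≤ Nat.card ↥(S H) * c := Nat.mul_le_mul_left _ h3
    omega
  have hc0 : c ≠ 0 := by
    rintro rfl
    simp at hc
  have h1 : c = 1 ∨ c = 2 := by omega
  rcases h1 with rfl | rfl
  · refine ⟨1, by decide, by omega, ?_⟩
    have hcard : Nat.card ↥(S H) = 5832 := by omega
    rw [hcard] at hidx
    have e : (S H).index = 25840 := by omega
    rw [e]
    decide
  · refine ⟨2, by decide, by omega, ?_⟩
    have hcard : Nat.card ↥(S H) = 2916 := by omega
    rw [hcard] at hidx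
    have e : (S H).index = 51680 := by omega
    rw [e]
    decide

/-- Central extensions of `3.J₃` with kernel of exponent 3 inside the commutator subgroup are
trivial. -/
theorem three_J3 (H : Ctx ω) (X : Type u) [Group X] [Finite X] (τ : X →* ↥(Spor.threeJ3 F ω))
    (hτ : Function.Surjective τ) (hker : ∀ x, τ x = 1 → x ∈ center X ∧ x ^ 3 = 1)
    (hd : τ.ker ≤ commutator X) : ∀ x, τ x = 1 → x = 1 := by
  have := finΓ H
  obtain ⟨c, hc, hcard, hidx⟩ := exists_c H
  exact Cfsg.Agent.Helper7.p_restrict 3 Nat.prime_three (S H) hidx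
    (fun Y _ _ σ hσ hk hd' =>
      Chain.p_of_chain 3 8 c Nat.prime_three (by decide) hc (lS H) J3s.E J3s.ps J3s.Ls
        J3s.ps_dvd (hN H) J3s.E_ok J3s.valid J3s.chained J3s.ws_nil
        (by rw [J3s.prodN_eq]; exact hcard) (by rw [J3s.lastK_eq]; exact genS H) (hE H)
        σ hσ hk hd')
    X τ hτ hker hd

/-- The Schur multiplier of `J₃` is cyclic of order 3. -/
theorem schurJ3 (H : Ctx ω) : HasCyclicSchurMultiplier (Spor.J3 F ω) 3 :=
  schur_J3_of_three H (fun X _ _ τ hτ hker hd => three_J3 H X τ hτ hker hd)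

end Cfsg.Agent.Helper89.J3c
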