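import Cfsg.Agent.Helper5.SLGen
import Cfsg.Agent.Helper98.F4
import Cfsg.Agent.Helper89.Gens3
import Cfsg.Agent.Helper89.L34Cert

/-!
# Generators and relations of `PSL(3, 4)` (helper89)

Three explicit matrices `h, k, t` of `SL(3, F4)` (orders 7, 3, 7 with `k h k⁻¹ = h²`) whose
images generate `PSL(3, F)` for every field `F` with four elements and satisfy the seven relators
of `L34.rels`.  Matrix products are computed on 9-tuples over the concrete field `Helper98.F4`.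
-/

set_option autoImplicit false

namespace Cfsg.Agent.Helper89.L34

open Cfsg.Agent.Helper98

/-- A 3×3 matrix over `F4` as a 9-tuple. -/
structure M9 where
  a : F4
  b : F4
  c : F4
  d : F4
  e : F4
  f : F4
  g : F4
  h : F4
  i : F4
  deriving DecidableEq

namespace M9

def mul (x y : M9) : M9 :=
  ⟨x.a * y.a + x.b * y.d + x.c * y.g, x.a * y.b + x.b * y.e + x.c * y.h,
    x.a * y.c + x.b * y.f + x.c * y.i,
   x.d * y.a + x.e * y.d + x.f * y.g, x.d * y.b + x.e * y.e + x.f * y.h,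
    x.d * y.c + x.e * y.f + x.f * y.i,
   x.g * y.a + x.h * y.d + x.i * y.g, x.g * y.b + x.h * y.e + x.i * y.h,
    x.g * y.c + x.h * y.f + x.i * y.i⟩

def one : M9 := ⟨1, 0, 0, 0, 1, 0, 0, 0, 1⟩

def toMat (x : M9) : Matrix (Fin 3) (Fin 3) F4 :=
  !![x.a, x.b, x.c; x.d, x.e, x.f; x.g, x.h, x.i]

def det (x : M9) : F4 :=
  x.a * x.e * x.i - x.a * x.f * x.h - x.b * x.d * x.i + x.b * x.f * x.g + x.c * x.d * x.h
    - x.c * x.e * x.g

theorem toMat_mul (x y : M9) : (x.mul y).toMat = x.toMat * y.toMat := by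
  ext i j
  fin_cases i <;> fin_cases j <;>
    simp [mul, toMat, Matrix.mul_apply, Fin.sum_univ_three]

theorem toMat_one : one.toMat = 1 := by
  ext i j
  fin_cases i <;> fin_cases j <;> simp [one, toMat]

theorem det_toMat (x : M9) : x.toMat.det = x.det := by
  simp [Matrix.det_fin_three, toMat, det]

/-- The scalar matrix. -/
def scalar (c : F4) : M9 := ⟨c, 0, 0, 0, c, 0, 0, 0, c⟩

theorem toMat_scalar (c : F4) : (scalar c).toMat = Matrix.scalar (Fin 3) c := by
  ext i j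
  fin_cases i <;> fin_cases j <;> simp [scalar, toMat]

/-- The 9-tuple of a function. -/
def ofFn (f : Fin 3 → Fin 3 → F4) : M9 :=
  ⟨f 0 0, f 0 1, f 0 2, f 1 0, f 1 1, f 1 2, f 2 0, f 2 1, f 2 2⟩

theorem toMat_ofFn (f : Fin 3 → Fin 3 → F4) : (ofFn f).toMat = Matrix.of f := by
  ext i j
  fin_cases i <;> fin_cases j <;> simp [ofFn, toMat]

end M9

def gH : M9 := ⟨0, 0, 1, 1, 0, 1, 0, 1, 0⟩
def gHi : M9 := ⟨1, 1, 0, 0, 0, 1, 1, 0, 0⟩
def gK : M9 := ⟨1, 0, 0, 0, 0, 1, 0, 1, 1⟩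
def gKi : M9 := ⟨1, 0, 0, 0, 1, 1, 0, 1, 0⟩
def gT : M9 := ⟨.v, 1, .v, .v, 1, 0, .v, .w, .w⟩
def gTi : M9 := ⟨.w, .v, .v, 1, .v, .w, .w, .w, 0⟩

/-- The six symbols as 9-tuples. -/
def gm (j : ℕ) : M9 :=
  if j = 0 then gH else if j = 1 then gHi else if j = 2 then gK else if j = 3 then gKi
  else if j = 4 then gT else if j = 5 then gTi else M9.one

/-- Evaluate a word on 9-tuples. -/
def evM : List ℕ → M9
  | [] => M9.one
  | j :: w => (gm j).mul (evM w)

theorem gm_det (j : ℕ) : (gm j).det = 1 := by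
  unfold gm
  split_ifs <;> decide +kernel

/-- The six symbols in `SL(3, F4)`. -/
def gS (j : ℕ) : Matrix.SpecialLinearGroup (Fin 3) F4 :=
  ⟨(gm j).toMat, by rw [M9.det_toMat, gm_det]⟩

theorem coe_ev (w : List ℕ) :
    ((ev gS w : Matrix.SpecialLinearGroup (Fin 3) F4) : Matrix (Fin 3) (Fin 3) F4) =
      (evM w).toMat := by
  induction w with
  | nil => simp [ev, evM, M9.toMat_one]
  | cons j w ih =>
    simp only [ev, evM, Matrix.SpecialLinearGroup.coe_mul, ih, M9.toMat_mul]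
    rfl

theorem gS_of_ge {j : ℕ} (h : 6 ≤ j) : gS j = 1 := by
  apply Subtype.ext
  have : gm j = M9.one := by
    unfold gm
    rw [if_neg (by omega), if_neg (by omega), if_neg (by omega), if_neg (by omega),
      if_neg (by omega), if_neg (by omega)]
  show (gm j).toMat = 1
  rw [this, M9.toMat_one]

theorem gS_mul_inv (j : ℕ) (h : (gm j).mul (gm (j + 1)) = M9.one) :
    gS (j + 1) = (gS j)⁻¹ := by
  apply eq_inv_of_mul_eq_one_right
  apply Subtype.ext
  show (gm j).toMat * (gm (j + 1)).toMat = 1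
  rw [← M9.toMat_mul, h, M9.toMat_one]

theorem gS_eq (j : ℕ) : gS j = gens3 (gS 0) (gS 2) (gS 4) j := by
  by_cases h : j < 6
  · have h1 : gS 1 = (gS 0)⁻¹ := gS_mul_inv 0 (by decide +kernel)
    have h3 : gS 3 = (gS 2)⁻¹ := gS_mul_inv 2 (by decide +kernel)
    have h5 : gS 5 = (gS 4)⁻¹ := gS_mul_inv 4 (by decide +kernel)
    interval_cases j <;> simp [gens3, h1, h3, h5]
  · rw [gS_of_ge (by omega), gens3_of_ge _ _ _ (by omega)]

/-- A 9-tuple is a nonzero scalar matrix. -/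
def isScalar (x : M9) : Bool :=
  x.b == 0 && x.c == 0 && x.d == 0 && x.f == 0 && x.g == 0 && x.h == 0 && x.a == x.e
    && x.e == x.i && x.a != 0

theorem cube_eq_one : ∀ c : F4, c ≠ 0 → c ^ 3 = 1 := by decide +kernel

theorem mem_center_of_isScalar (A : Matrix.SpecialLinearGroup (Fin 3) F4) (x : M9)
    (hA : (A : Matrix (Fin 3) (Fin 3) F4) = x.toMat) (hx : isScalar x = true) :
    A ∈ Subgroup.center (Matrix.SpecialLinearGroup (Fin 3) F4) := by
  rw [Matrix.SpecialLinearGroup.mem_center_iff]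
  unfold isScalar at hx
  simp only [Bool.and_eq_true, beq_iff_eq, bne_iff_ne] at hx
  obtain ⟨⟨⟨⟨⟨⟨⟨⟨hb, hc⟩, hd⟩, hf⟩, hg⟩, hh⟩, hae⟩, hei⟩, ha⟩ := hx
  refine ⟨x.a, ?_, ?_⟩
  · rw [Fintype.card_fin]; exact cube_eq_one _ ha
  · rw [hA, ← M9.toMat_scalar]
    congr 1
    cases x
    simp only [M9.scalar] at *
    subst hb hc hd hf hg hh
    rw [← hei, ← hae]

theorem rels_scalar : ∀ ρ ∈ rels, isScalar (evM ρ.1) = true := by decide +kernel

theorem rels_center (ρ : List ℕ × ℕ) (hρ : ρ ∈ rels) :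
    ev gS ρ.1 ∈ Subgroup.center (Matrix.SpecialLinearGroup (Fin 3) F4) :=
  mem_center_of_isScalar _ _ (coe_ev ρ.1) (rels_scalar ρ hρ)

/-- Words for the elementary transvections, with the scalar factors. -/
def tw : ℕ → ℕ → F4 → List ℕ × F4
  | 0, 1, .o => ([4, 4, 3, 5, 2, 1, 4], .w)
  | 0, 1, .w => ([0, 5, 1, 3, 5, 1, 3], .o)
  | 0, 1, .v => ([4, 4, 4, 1, 1, 4, 4], .w)
  | 0, 2, .o => ([0, 2, 5, 2, 4, 4, 0, 5, 1], .v)
  | 0, 2, .w => ([0, 4, 1, 4, 4, 4, 3], .o)
  | 0, 2, .v => ([0, 2, 5, 2, 5, 5, 3], .v)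
  | 1, 0, .o => ([0, 4, 0, 5, 0, 0, 4, 0, 4], .w)
  | 1, 0, .w => ([5, 3, 1, 4, 3, 1, 4, 4], .o)
  | 1, 0, .v => ([0, 2, 4, 4, 3, 4, 1, 3], .w)
  | 1, 2, .o => ([5, 0, 4, 4, 0, 4], .v)
  | 1, 2, .w => ([5, 0, 3, 4, 4, 2, 4], .v)
  | 1, 2, .v => ([2, 4, 1, 2, 4, 1, 4], .v)
  | 2, 0, .o => ([1, 4, 1, 5, 5, 3, 4], .w)
  | 2, 0, .w => ([1, 2, 4, 1, 4, 4, 0], .w)
  | 2, 0, .v => ([3, 1, 4, 0, 4, 4, 4], .w)
  | 2, 1, .o => ([3, 5, 0, 4, 4, 0, 4], .v)
  | 2, 1, .w => ([1, 4, 0, 4, 3, 4, 2], .o)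
  | 2, 1, .v => ([0, 0, 4, 4, 3, 4, 0], .w)
  | _, _, _ => ([], .o)

/-- The elementary transvection as a 9-tuple. -/
def tv9 (i j : Fin 3) (a : F4) : M9 :=
  M9.ofFn fun r c => if r = i ∧ c = j then a else if r = c then 1 else 0

theorem toMat_tv9 (i j : Fin 3) (hij : i ≠ j) (a : F4) :
    (tv9 i j a).toMat = Matrix.transvection i j a := by
  rw [tv9, M9.toMat_ofFn]
  ext r c
  simp only [Matrix.of_apply, Matrix.transvection, Matrix.add_apply, Matrix.one_apply,
    Matrix.single_apply]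
  by_cases h1 : r = i ∧ c = j
  · obtain ⟨rfl, rfl⟩ := h1
    simp [hij]
  · have h2 : ¬ (i = r ∧ j = c) := fun h => h1 ⟨h.1.symm, h.2.symm⟩
    simp [h1, h2]

theorem tw_ok : ∀ i j : Fin 3, ∀ a : F4, i ≠ j →
    evM (tw i.val j.val a).1 = (M9.scalar (tw i.val j.val a).2).mul (tv9 i j a) ∧
      isScalar (M9.scalar (tw i.val j.val a).2) = true := by
  decide +kernel

section psl

variable (F : Type) [Field F] [Fintype F]

/-- The isomorphism from the concrete field with four elements. -/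
noncomputable def fieldIso (hF : Fintype.card F = 4) : F4 ≃+* F :=
  FiniteField.ringEquivOfCardEq (by rw [F4.card_eq, hF])

/-- `SL(3, F4) → PSL(3, F)`. -/
noncomputable def toPSL (hF : Fintype.card F = 4) :
    Matrix.SpecialLinearGroup (Fin 3) F4 →* Matrix.ProjectiveSpecialLinearGroup (Fin 3) F :=
  (QuotientGroup.mk' (Subgroup.center (Matrix.SpecialLinearGroup (Fin 3) F))).comp
    (Matrix.SpecialLinearGroup.map (fieldIso F hF).toRingHom)

theorem map_surj (hF : Fintype.card F = 4) :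
    Function.Surjective (Matrix.SpecialLinearGroup.map (n := Fin 3) (fieldIso F hF).toRingHom) := by
  intro B
  refine ⟨Matrix.SpecialLinearGroup.map (fieldIso F hF).symm.toRingHom B, ?_⟩
  apply Subtype.ext
  ext i j
  show (fieldIso F hF) ((fieldIso F hF).symm ((B : Matrix (Fin 3) (Fin 3) F) i j)) = _
  simp

theorem toPSL_surj (hF : Fintype.card F = 4) : Function.Surjective (toPSL F hF) := by
  intro q
  obtain ⟨B, rfl⟩ := QuotientGroup.mk'_surjective _ q
  obtain ⟨A, rfl⟩ := map_surj F hF B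
  exact ⟨A, rfl⟩

theorem toPSL_center (hF : Fintype.card F = 4) (A : Matrix.SpecialLinearGroup (Fin 3) F4)
    (hA : A ∈ Subgroup.center (Matrix.SpecialLinearGroup (Fin 3) F4)) : toPSL F hF A = 1 := by
  show QuotientGroup.mk' _ (Matrix.SpecialLinearGroup.map (fieldIso F hF).toRingHom A) = 1
  rw [QuotientGroup.mk'_apply, QuotientGroup.eq_one_iff, Subgroup.mem_center_iff]
  intro B
  obtain ⟨B', rfl⟩ := map_surj F hF B
  rw [← map_mul, ← map_mul, Subgroup.mem_center_iff.1 hA B']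

/-- Generators of `PSL(3, F)` satisfying the relators. -/
theorem exists_gens (hF : Fintype.card F = 4) :
    ∃ x y u : Matrix.ProjectiveSpecialLinearGroup (Fin 3) F,
      Subgroup.closure {x, y, u} = ⊤ ∧ ∀ ρ ∈ rels, ev (gens3 x y u) ρ.1 = 1 := by
  have hg : ∀ j, gens3 (toPSL F hF (gS 0)) (toPSL F hF (gS 2)) (toPSL F hF (gS 4)) j =
      toPSL F hF (gS j) := by
    intro j
    rw [← map_gens3, ← gS_eq]
  have hev : ∀ w : List ℕ,
      ev (gens3 (toPSL F hF (gS 0)) (toPSL F hF (gS 2)) (toPSL F hF (gS 4))) w =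
        toPSL F hF (ev gS w) := by
    intro w
    rw [map_ev]
    exact ev_congr hg w
  refine ⟨toPSL F hF (gS 0), toPSL F hF (gS 2), toPSL F hF (gS 4), ?_, ?_⟩
  · rw [eq_top_iff]
    intro q _
    obtain ⟨A, rfl⟩ := toPSL_surj F hF q
    refine Cfsg.Agent.Helper5.SL_transvection_induction
      (fun A => toPSL F hF A ∈ Subgroup.closure
        {toPSL F hF (gS 0), toPSL F hF (gS 2), toPSL F hF (gS 4)}) ?_ ?_ A
    · intro i j hij a
      obtain ⟨h1, h2⟩ := tw_ok i j a hij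
      have hmem : ev gS (tw i.val j.val a).1 * (Matrix.SpecialLinearGroup.transvection hij a)⁻¹ ∈
          Subgroup.center (Matrix.SpecialLinearGroup (Fin 3) F4) := by
        apply mem_center_of_isScalar _ _ _ h2
        have e1 : ((ev gS (tw i.val j.val a).1 : Matrix.SpecialLinearGroup (Fin 3) F4) :
            Matrix (Fin 3) (Fin 3) F4) = (M9.scalar (tw i.val j.val a).2).toMat *
              ((Matrix.SpecialLinearGroup.transvection hij a :
                Matrix.SpecialLinearGroup (Fin 3) F4) : Matrix (Fin 3) (Fin 3) F4) := by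
          rw [coe_ev, h1, M9.toMat_mul, toMat_tv9 i j hij a]
          rfl
        rw [Matrix.SpecialLinearGroup.coe_mul, e1, Matrix.mul_assoc,
          ← Matrix.SpecialLinearGroup.coe_mul, mul_inv_cancel, Matrix.SpecialLinearGroup.coe_one,
          Matrix.mul_one]
      have h3 := toPSL_center F hF _ hmem
      rw [map_mul, map_inv, mul_inv_eq_one] at h3
      show toPSL F hF (Matrix.SpecialLinearGroup.transvection hij a) ∈ _
      rw [← h3, ← hev]
      exact ev_mem _ _ (gens3_mem _ (Subgroup.subset_closure (by simp))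
        (Subgroup.subset_closure (by simp)) (Subgroup.subset_closure (by simp))) _
    · intro A B hA hB
      show toPSL F hF (A * B) ∈ _
      rw [map_mul]
      exact Subgroup.mul_mem _ hA hB
  · intro ρ hρ
    rw [hev, toPSL_center F hF _ (rels_center ρ hρ)]

end psl

end Cfsg.Agent.Helper89.L34
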