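import Cfsg.Agent.Helper89.L34Mat
import Cfsg.Agent.Helper89.CovTools

/-!
# Computing in `SL(3, 4)` (helper89)

Strict evaluation of words in 3×3 matrices over the concrete field `Helper98.F4` (9-tuples
`L34.M9`), the elements of `SL(3, F)` they define for a field `F` isomorphic to `F4`, and generation
of `SL(3, F)` by words for the elementary transvections.
-/

set_option autoImplicit false
set_option linter.unusedSectionVars false

namespace Cfsg.Agent.Helper89.L34c

open Cfsg.Agent.Helper98 (F4)
open Cfsg.Agent.Helper89.L34 (M9 tv9 toMat_tv9)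
open Subgroup

/-- Strict evaluation of a field element. -/
def seq {α : Type} (x : F4) (k : F4 → α) : α :=
  match x with
  | .z => k .z
  | .o => k .o
  | .w => k .w
  | .v => k .v

theorem seq_eq {α : Type} (x : F4) (k : F4 → α) : seq x k = k x := by
  cases x <;> rfl

/-- Strict multiplication in continuation-passing style. -/
def mulK {α : Type} (x y : M9) (k : M9 → α) : α :=
  seq (x.a * y.a + x.b * y.d + x.c * y.g) fun b00 =>
  seq (x.a * y.b + x.b * y.e + x.c * y.h) fun b01 =>
  seq (x.a * y.c + x.b * y.f + x.c * y.i) fun b02 =>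
  seq (x.d * y.a + x.e * y.d + x.f * y.g) fun b10 =>
  seq (x.d * y.b + x.e * y.e + x.f * y.h) fun b11 =>
  seq (x.d * y.c + x.e * y.f + x.f * y.i) fun b12 =>
  seq (x.g * y.a + x.h * y.d + x.i * y.g) fun b20 =>
  seq (x.g * y.b + x.h * y.e + x.i * y.h) fun b21 =>
  seq (x.g * y.c + x.h * y.f + x.i * y.i) fun b22 =>
  k ⟨b00, b01, b02, b10, b11, b12, b20, b21, b22⟩

theorem mulK_eq {α : Type} (x y : M9) (k : M9 → α) : mulK x y k = k (x.mul y) := by
  simp only [mulK, seq_eq, M9.mul]

def ofMat (A : Matrix (Fin 3) (Fin 3) F4) : M9 :=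
  ⟨A 0 0, A 0 1, A 0 2, A 1 0, A 1 1, A 1 2, A 2 0, A 2 1, A 2 2⟩

theorem ofMat_toMat (x : M9) : ofMat x.toMat = x := rfl

theorem toMat_injective : Function.Injective M9.toMat := fun x y h => by
  rw [← ofMat_toMat x, ← ofMat_toMat y, h]

theorem mul_assoc' (x y z : M9) : (x.mul y).mul z = x.mul (y.mul z) :=
  toMat_injective (by simp only [M9.toMat_mul, Matrix.mul_assoc])

theorem one_mul' (x : M9) : M9.one.mul x = x :=
  toMat_injective (by rw [M9.toMat_mul, M9.toMat_one, Matrix.one_mul])

section words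

variable (bs : List (M9 × M9))

/-- The matrix of the symbol `j`. -/
def gm (j : ℕ) : M9 :=
  if j % 2 = 0 then (bs.getD (j / 2) (M9.one, M9.one)).1 else (bs.getD (j / 2) (M9.one, M9.one)).2

/-- Evaluation of a word. -/
def evM : List ℕ → M9
  | [] => M9.one
  | j :: w => (gm bs j).mul (evM w)

/-- Strict evaluation of a word with an accumulator: `acc * w`. -/
def evA : List ℕ → M9 → M9
  | [], acc => acc
  | j :: w, acc => mulK acc (gm bs j) (evA w)

theorem evA_eq (w : List ℕ) (acc : M9) : evA bs w acc = acc.mul (evM bs w) := by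
  induction w generalizing acc with
  | nil =>
    show acc = acc.mul M9.one
    apply toMat_injective
    rw [M9.toMat_mul, M9.toMat_one, Matrix.mul_one]
  | cons j w ih =>
    show mulK acc (gm bs j) (evA bs w) = acc.mul ((gm bs j).mul (evM bs w))
    rw [mulK_eq, ih, mul_assoc']

theorem evA_one (w : List ℕ) : evA bs w M9.one = evM bs w := by
  rw [evA_eq, one_mul']

/-- Relator check. -/
abbrev mok (w : List ℕ) : Bool := decide (evA bs w M9.one = M9.one)

/-- A pair of mutually inverse matrices of determinant 1. -/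
def okP (p : M9 × M9) : Bool :=
  decide (p.1.det = 1) && (decide (p.2.det = 1) && decide (p.1.mul p.2 = M9.one))

end words

section grp

universe u

variable {F : Type u} [Field F] (e : F4 ≃+* F)

theorem det_map (x : M9) (h : x.det = 1) : (x.toMat.map e).det = 1 := by
  have h1 := RingHom.map_det (e : F4 →+* F) x.toMat
  rw [M9.det_toMat, h, map_one] at h1
  exact h1.symm

/-- The element of `SL(3, F)` with a given matrix (or `1`). -/
noncomputable def slT (x : M9) : Matrix.SpecialLinearGroup (Fin 3) F :=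
  if h : x.det = 1 then ⟨x.toMat.map e, det_map e x h⟩ else 1

theorem coe_slT {x : M9} (h : x.det = 1) :
    ((slT e x : Matrix.SpecialLinearGroup (Fin 3) F) : Matrix (Fin 3) (Fin 3) F) =
      x.toMat.map e := by
  have h1 : slT e x = ⟨x.toMat.map e, det_map e x h⟩ := dif_pos h
  rw [h1]

theorem map_toMat_one : (M9.one.toMat.map e : Matrix (Fin 3) (Fin 3) F) = 1 := by
  rw [M9.toMat_one]
  exact Matrix.map_one _ (map_zero e) (map_one e)

theorem slT_one : slT e M9.one = (1 : Matrix.SpecialLinearGroup (Fin 3) F) := by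
  apply Subtype.ext
  rw [coe_slT e (by decide), map_toMat_one]
  rfl

theorem slT_inv {p : M9 × M9} (h : okP p = true) : (slT e p.1)⁻¹ = slT e p.2 := by
  rw [okP, Bool.and_eq_true, Bool.and_eq_true] at h
  obtain ⟨h1, h2, h3⟩ := h
  have h1 := of_decide_eq_true h1
  have h2 := of_decide_eq_true h2
  have h3 := of_decide_eq_true h3
  symm
  apply eq_inv_of_mul_eq_one_right
  apply Subtype.ext
  rw [Matrix.SpecialLinearGroup.coe_mul, coe_slT e h1, coe_slT e h2, ← Matrix.map_mul,
    ← M9.toMat_mul, h3, map_toMat_one]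
  rfl

variable (bs : List (M9 × M9))

/-- The generators. -/
noncomputable def gsS : List (Matrix.SpecialLinearGroup (Fin 3) F) := bs.map fun p => slT e p.1

theorem length_gsS : (gsS e bs).length = bs.length := List.length_map _

theorem okP_getD (hbs : bs.all okP = true) (i : ℕ) : okP (bs.getD i (M9.one, M9.one)) = true := by
  rw [List.getD_eq_getElem?_getD]
  rcases hi : bs[i]? with _ | x
  · rfl
  · exact List.all_eq_true.1 hbs x (List.mem_of_getElem? hi)

theorem getD_gsS (i : ℕ) : (gsS e bs).getD i 1 = slT e (bs.getD i (M9.one, M9.one)).1 := by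
  unfold gsS
  rw [← slT_one e]
  exact List.getD_map bs (M9.one, M9.one) (fun p : M9 × M9 => slT e p.1)

theorem coe_gl (hbs : bs.all okP = true) (j : ℕ) :
    ((gl (gsS e bs) j : Matrix.SpecialLinearGroup (Fin 3) F) : Matrix (Fin 3) (Fin 3) F) =
      (gm bs j).toMat.map e := by
  have hok := okP_getD bs hbs (j / 2)
  have hok' := hok
  rw [okP, Bool.and_eq_true, Bool.and_eq_true] at hok'
  unfold gl gm
  by_cases hj : j % 2 = 0
  · rw [if_pos hj, if_pos hj, getD_gsS]
    exact coe_slT e (of_decide_eq_true hok'.1)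
  · rw [if_neg hj, if_neg hj, getD_gsS, slT_inv e hok]
    exact coe_slT e (of_decide_eq_true hok'.2.1)

theorem coe_ev (hbs : bs.all okP = true) (w : List ℕ) :
    ((ev (gl (gsS e bs)) w : Matrix.SpecialLinearGroup (Fin 3) F) : Matrix (Fin 3) (Fin 3) F) =
      (evM bs w).toMat.map e := by
  induction w with
  | nil => exact (map_toMat_one e).symm
  | cons j w ih =>
    show ((gl (gsS e bs) j * ev (gl (gsS e bs)) w : Matrix.SpecialLinearGroup (Fin 3) F) :
      Matrix (Fin 3) (Fin 3) F) = ((gm bs j).mul (evM bs w)).toMat.map e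
    rw [Matrix.SpecialLinearGroup.coe_mul, coe_gl e bs hbs, ih, M9.toMat_mul, Matrix.map_mul]

theorem eq_ev (hbs : bs.all okP = true) (g : Matrix.SpecialLinearGroup (Fin 3) F) (w : List ℕ)
    (x : M9) (hx : evA bs w M9.one = x)
    (hg : (g : Matrix (Fin 3) (Fin 3) F) = x.toMat.map e) : g = ev (gl (gsS e bs)) w := by
  apply Subtype.ext
  rw [hg, coe_ev e bs hbs, ← evA_one, hx]

theorem ev_eq_one (hbs : bs.all okP = true) (w : List ℕ) (h : mok bs w = true) :
    ev (gl (gsS e bs)) w = 1 :=
  (eq_ev e bs hbs 1 w M9.one (of_decide_eq_true h) (map_toMat_one e).symm).symm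

theorem rels_hold (hbs : bs.all okP = true) (ws : List (List ℕ))
    (h : ws.all (mok bs) = true) : ∀ w ∈ ws, ev (gl (gsS e bs)) w = 1 := fun w hw =>
  ev_eq_one e bs hbs w (List.all_eq_true.1 h w hw)

theorem ev_ne_one (hbs : bs.all okP = true) (w : List ℕ) (h : mok bs w = false) :
    ev (gl (gsS e bs)) w ≠ 1 := by
  intro h1
  have h2 : ((ev (gl (gsS e bs)) w : Matrix.SpecialLinearGroup (Fin 3) F) :
      Matrix (Fin 3) (Fin 3) F) = ((1 : Matrix.SpecialLinearGroup (Fin 3) F) :
      Matrix (Fin 3) (Fin 3) F) := by rw [h1]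
  rw [coe_ev e bs hbs, ← evA_one] at h2
  have h3 : (evA bs w M9.one).toMat.map e = M9.one.toMat.map e := by
    rw [h2, map_toMat_one]
    rfl
  have h4 := toMat_injective (Matrix.map_injective e.injective h3)
  have h5 : mok bs w = true := decide_eq_true h4
  rw [h] at h5
  exact Bool.false_ne_true h5

/-- A word whose value is a scalar matrix gives a central element. -/
theorem ev_mem_center (hbs : bs.all okP = true) (w : List ℕ) (c : F4)
    (h : evA bs w M9.one = M9.scalar c) :
    ev (gl (gsS e bs)) w ∈ center (Matrix.SpecialLinearGroup (Fin 3) F) := by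
  rw [mem_center_iff]
  intro B
  apply Subtype.ext
  have h1 : ((ev (gl (gsS e bs)) w : Matrix.SpecialLinearGroup (Fin 3) F) :
      Matrix (Fin 3) (Fin 3) F) = Matrix.scalar (Fin 3) (e c) := by
    rw [coe_ev e bs hbs, ← evA_one, h, M9.toMat_scalar]
    ext i j
    simp [Matrix.scalar, Matrix.diagonal_apply]
    split_ifs <;> simp
  rw [Matrix.SpecialLinearGroup.coe_mul, Matrix.SpecialLinearGroup.coe_mul, h1]
  exact (Matrix.scalar_commute (e c) (fun r => mul_comm _ _) _).symm.eq

theorem map_tv9 (i j : Fin 3) (hij : i ≠ j) (a : F4) :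
    ((tv9 i j a).toMat.map e : Matrix (Fin 3) (Fin 3) F) = Matrix.transvection i j (e a) := by
  rw [toMat_tv9 i j hij]
  ext r c
  simp only [Matrix.map_apply, Matrix.transvection, Matrix.add_apply, Matrix.one_apply,
    Matrix.single_apply]
  split_ifs <;> simp

/-- Generation of `SL(3, F)` from words for the elementary transvections. -/
theorem gen_top (hbs : bs.all okP = true) (k : ℕ) (tw : Fin 3 → Fin 3 → F4 → List ℕ)
    (htw : ∀ i j : Fin 3, i ≠ j → ∀ a : F4,
      evA bs (tw i j a) M9.one = tv9 i j a ∧ ∀ s ∈ tw i j a, s < k) :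
    closure (gl (gsS e bs) '' Set.Iio k) = ⊤ := by
  rw [eq_top_iff]
  intro A _
  refine Cfsg.Agent.Helper5.SL_transvection_induction
    (fun A => A ∈ closure (gl (gsS e bs) '' Set.Iio k)) ?_ ?_ A
  · intro i j hij a
    obtain ⟨a, rfl⟩ := e.surjective a
    show Matrix.SpecialLinearGroup.transvection hij (e a) ∈ _
    rw [eq_ev e bs hbs (Matrix.SpecialLinearGroup.transvection hij (e a)) (tw i j a) (tv9 i j a)
      (htw i j hij a).1 (by rw [map_tv9 e i j hij]; rfl)]
    exact CT.ev_mem_closure' _ _ _ (htw i j hij a).2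
  · intro A B hA hB
    exact mul_mem hA hB

end grp

end Cfsg.Agent.Helper89.L34c
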