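import Cfsg.Agent.Helper89.StemCover2

/-!
# Schur multipliers with two or three cyclic factors from an explicit cover (helper89)

`Stem.hasSchurMultiplier_two` / `Stem.hasSchurMultiplier_three`: a perfect group `Γ₀` with trivial
multiplier mapping onto `G`, of order at most `m n |G|` (resp. `m n k |G|`), with independent central
elements of orders dividing `m, n (, k)` in the kernel, shows that the Schur multiplier of `G` is
`ℤ/m × ℤ/n (× ℤ/k)`.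
-/

set_option autoImplicit false

namespace Cfsg.Agent.Helper89.Stem

open Subgroup

universe u

section hom

variable {Γ : Type*} [Group Γ]

theorem pow_val_add (ζ : Γ) (m : ℕ) [NeZero m] (h : ζ ^ m = 1) (a b : ZMod m) :
    ζ ^ (a + b).val = ζ ^ a.val * ζ ^ b.val := by
  rw [ZMod.val_add, ← pow_add, ← pow_eq_pow_mod _ h]

theorem val_eq_zero_of {m : ℕ} [NeZero m] (a : ZMod m) (h : a.val = 0) : a = 0 :=
  (ZMod.val_eq_zero a).1 h

theorem mul3_comm (x1 y1 x2 y2 x3 y3 : Γ) (h1 : Commute y1 x2) (h2 : Commute (y1 * y2) x3) :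
    x1 * y1 * (x2 * y2) * (x3 * y3) = x1 * x2 * x3 * (y1 * y2 * y3) := by
  rw [h1.mul_mul_mul_comm, h2.mul_mul_mul_comm]

end hom

/-- Two cyclic factors: the kernel. -/
theorem ker_two {G Γ₀ : Type*} [Group G] [Finite G] [Group Γ₀] [Finite Γ₀]
    (π : Γ₀ →* G) (hπ : Function.Surjective π) (m n : ℕ) [NeZero m] [NeZero n]
    (hcard : Nat.card Γ₀ ∣ m * n * Nat.card G)
    (ζ₁ ζ₂ : Γ₀) (hk1 : π ζ₁ = 1) (hk2 : π ζ₂ = 1) (ho1 : ζ₁ ^ m = 1) (ho2 : ζ₂ ^ n = 1)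
    (hc1 : ∀ x, ζ₁ * x = x * ζ₁) (hc2 : ∀ x, ζ₂ * x = x * ζ₂)
    (hind : ∀ i < m, ∀ j < n, ζ₁ ^ i * ζ₂ ^ j = 1 → i = 0 ∧ j = 0) :
    Nat.card Γ₀ = m * n * Nat.card G ∧ π.ker ≤ center Γ₀ ∧
      Nonempty (π.ker ≃* Multiplicative (ZMod m × ZMod n)) := by
  have c1 : ∀ x, Commute ζ₁ x := hc1
  have c2 : ∀ x, Commute ζ₂ x := hc2
  have hmem : ∀ a : ZMod m × ZMod n, ζ₁ ^ a.1.val * ζ₂ ^ a.2.val ∈ π.ker := by
    intro a
    rw [MonoidHom.mem_ker, map_mul, map_pow, map_pow, hk1, hk2, one_pow, one_pow, one_mul]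
  let f : Multiplicative (ZMod m × ZMod n) →* π.ker :=
    MonoidHom.mk' (fun a => ⟨ζ₁ ^ (Multiplicative.toAdd a).1.val * ζ₂ ^ (Multiplicative.toAdd a).2.val,
      hmem _⟩) (by
      intro a b
      apply Subtype.ext
      show ζ₁ ^ ((Multiplicative.toAdd a).1 + (Multiplicative.toAdd b).1).val *
          ζ₂ ^ ((Multiplicative.toAdd a).2 + (Multiplicative.toAdd b).2).val =
        ζ₁ ^ (Multiplicative.toAdd a).1.val * ζ₂ ^ (Multiplicative.toAdd a).2.val *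
          (ζ₁ ^ (Multiplicative.toAdd b).1.val * ζ₂ ^ (Multiplicative.toAdd b).2.val)
      rw [pow_val_add ζ₁ m ho1, pow_val_add ζ₂ n ho2]
      exact Commute.mul_mul_mul_comm ((c1 _).pow_left _) _ _)
  have hf : ∀ a, ((f a : π.ker) : Γ₀) =
      ζ₁ ^ (Multiplicative.toAdd a).1.val * ζ₂ ^ (Multiplicative.toAdd a).2.val := fun _ => rfl
  have hinj : Function.Injective f := by
    rw [injective_iff_map_eq_one]
    intro a ha
    have h1 := congrArg Subtype.val ha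
    rw [hf] at h1
    obtain ⟨e1, e2⟩ := hind _ (ZMod.val_lt _) _ (ZMod.val_lt _) h1
    have : Multiplicative.toAdd a = 0 :=
      Prod.ext (val_eq_zero_of _ e1) (val_eq_zero_of _ e2)
    exact this
  have h1 := card_ker_mul π hπ
  have hdvd : Nat.card π.ker ∣ m * n := by
    have h2 : Nat.card π.ker * Nat.card G ∣ m * n * Nat.card G := by rw [h1]; exact hcard
    exact Nat.dvd_of_mul_dvd_mul_right Nat.card_pos h2
  have hA : Nat.card (Multiplicative (ZMod m × ZMod n)) = m * n := by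
    show Nat.card (ZMod m × ZMod n) = m * n
    rw [Nat.card_prod, Nat.card_zmod, Nat.card_zmod]
  have hbij : Function.Bijective f := by
    apply hinj.bijective_of_nat_card_le
    rw [hA]
    exact Nat.le_of_dvd (Nat.mul_pos (NeZero.pos m) (NeZero.pos n)) hdvd
  have hc : π.ker ≤ center Γ₀ := by
    intro x hx
    obtain ⟨a, ha⟩ := hbij.2 ⟨x, hx⟩
    have hx' : x = ζ₁ ^ (Multiplicative.toAdd a).1.val * ζ₂ ^ (Multiplicative.toAdd a).2.val := by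
      rw [← hf, ha]
    rw [mem_center_iff]
    intro g
    rw [hx']
    exact (((c1 g).pow_left _).mul_left ((c2 g).pow_left _)).symm.eq
  refine ⟨?_, hc, ⟨(MulEquiv.ofBijective f hbij).symm⟩⟩
  rw [← h1, ← Nat.card_congr (Equiv.ofBijective f hbij), hA]

/-- Two cyclic factors. -/
theorem hasSchurMultiplier_two {G Γ₀ : Type u} [Group G] [Finite G] [Group Γ₀] [Finite Γ₀]
    (π : Γ₀ →* G) (hπ : Function.Surjective π) (m n : ℕ) [NeZero m] [NeZero n]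
    (hcard : Nat.card Γ₀ ∣ m * n * Nat.card G)
    (ζ₁ ζ₂ : Γ₀) (hk1 : π ζ₁ = 1) (hk2 : π ζ₂ = 1) (ho1 : ζ₁ ^ m = 1) (ho2 : ζ₂ ^ n = 1)
    (hc1 : ∀ x, ζ₁ * x = x * ζ₁) (hc2 : ∀ x, ζ₂ * x = x * ζ₂)
    (hind : ∀ i < m, ∀ j < n, ζ₁ ^ i * ζ₂ ^ j = 1 → i = 0 ∧ j = 0)
    (hperf : commutator Γ₀ = ⊤)
    (huniv : ∀ (X : Type u) [Group X] [Finite X] (τ : X →* Γ₀), Function.Surjective τ →
      τ.ker ≤ center X → τ.ker ≤ commutator X → τ.ker = ⊥) :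
    HasSchurMultiplier G (Multiplicative (ZMod m × ZMod n)) := by
  obtain ⟨-, hc, ⟨e⟩⟩ := ker_two π hπ m n hcard ζ₁ ζ₂ hk1 hk2 ho1 ho2 hc1 hc2 hind
  exact hasSchurMultiplier_of_cover π hπ hc hperf huniv e

/-- Three cyclic factors: the kernel. -/
theorem ker_three {G Γ₀ : Type*} [Group G] [Finite G] [Group Γ₀] [Finite Γ₀]
    (π : Γ₀ →* G) (hπ : Function.Surjective π) (m n k : ℕ) [NeZero m] [NeZero n] [NeZero k]
    (hcard : Nat.card Γ₀ ∣ m * n * k * Nat.card G)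
    (ζ₁ ζ₂ ζ₃ : Γ₀) (hk1 : π ζ₁ = 1) (hk2 : π ζ₂ = 1) (hk3 : π ζ₃ = 1)
    (ho1 : ζ₁ ^ m = 1) (ho2 : ζ₂ ^ n = 1) (ho3 : ζ₃ ^ k = 1)
    (hc1 : ∀ x, ζ₁ * x = x * ζ₁) (hc2 : ∀ x, ζ₂ * x = x * ζ₂) (hc3 : ∀ x, ζ₃ * x = x * ζ₃)
    (hind : ∀ i < m, ∀ j < n, ∀ l < k, ζ₁ ^ i * ζ₂ ^ j * ζ₃ ^ l = 1 → i = 0 ∧ j = 0 ∧ l = 0) :
    Nat.card Γ₀ = m * n * k * Nat.card G ∧ π.ker ≤ center Γ₀ ∧
      Nonempty (π.ker ≃* Multiplicative (ZMod m × ZMod n × ZMod k)) := by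
  have c1 : ∀ x, Commute ζ₁ x := hc1
  have c2 : ∀ x, Commute ζ₂ x := hc2
  have c3 : ∀ x, Commute ζ₃ x := hc3
  have hmem : ∀ a : ZMod m × ZMod n × ZMod k,
      ζ₁ ^ a.1.val * ζ₂ ^ a.2.1.val * ζ₃ ^ a.2.2.val ∈ π.ker := by
    intro a
    rw [MonoidHom.mem_ker, map_mul, map_mul, map_pow, map_pow, map_pow, hk1, hk2, hk3, one_pow,
      one_pow, one_pow, one_mul, one_mul]
  let f : Multiplicative (ZMod m × ZMod n × ZMod k) →* π.ker :=
    MonoidHom.mk' (fun a => ⟨ζ₁ ^ (Multiplicative.toAdd a).1.val *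
      ζ₂ ^ (Multiplicative.toAdd a).2.1.val * ζ₃ ^ (Multiplicative.toAdd a).2.2.val, hmem _⟩) (by
      intro a b
      apply Subtype.ext
      show ζ₁ ^ ((Multiplicative.toAdd a).1 + (Multiplicative.toAdd b).1).val *
          ζ₂ ^ ((Multiplicative.toAdd a).2.1 + (Multiplicative.toAdd b).2.1).val *
          ζ₃ ^ ((Multiplicative.toAdd a).2.2 + (Multiplicative.toAdd b).2.2).val =
        ζ₁ ^ (Multiplicative.toAdd a).1.val * ζ₂ ^ (Multiplicative.toAdd a).2.1.val *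
            ζ₃ ^ (Multiplicative.toAdd a).2.2.val *
          (ζ₁ ^ (Multiplicative.toAdd b).1.val * ζ₂ ^ (Multiplicative.toAdd b).2.1.val *
            ζ₃ ^ (Multiplicative.toAdd b).2.2.val)
      rw [pow_val_add ζ₁ m ho1, pow_val_add ζ₂ n ho2, pow_val_add ζ₃ k ho3]
      exact mul3_comm _ _ _ _ _ _ ((c1 _).pow_left _)
        (((c1 _).pow_left _).mul_left ((c2 _).pow_left _)))
  have hf : ∀ a, ((f a : π.ker) : Γ₀) = ζ₁ ^ (Multiplicative.toAdd a).1.val *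
      ζ₂ ^ (Multiplicative.toAdd a).2.1.val * ζ₃ ^ (Multiplicative.toAdd a).2.2.val := fun _ => rfl
  have hinj : Function.Injective f := by
    rw [injective_iff_map_eq_one]
    intro a ha
    have h1 := congrArg Subtype.val ha
    rw [hf] at h1
    obtain ⟨e1, e2, e3⟩ := hind _ (ZMod.val_lt _) _ (ZMod.val_lt _) _ (ZMod.val_lt _) h1
    have : Multiplicative.toAdd a = 0 :=
      Prod.ext (val_eq_zero_of _ e1) (Prod.ext (val_eq_zero_of _ e2) (val_eq_zero_of _ e3))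
    exact this
  have h1 := card_ker_mul π hπ
  have hdvd : Nat.card π.ker ∣ m * n * k := by
    have h2 : Nat.card π.ker * Nat.card G ∣ m * n * k * Nat.card G := by rw [h1]; exact hcard
    exact Nat.dvd_of_mul_dvd_mul_right Nat.card_pos h2
  have hA : Nat.card (Multiplicative (ZMod m × ZMod n × ZMod k)) = m * n * k := by
    show Nat.card (ZMod m × ZMod n × ZMod k) = m * n * k
    rw [Nat.card_prod, Nat.card_prod, Nat.card_zmod, Nat.card_zmod, Nat.card_zmod, mul_assoc]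
  have hbij : Function.Bijective f := by
    apply hinj.bijective_of_nat_card_le
    rw [hA]
    exact Nat.le_of_dvd (Nat.mul_pos (Nat.mul_pos (NeZero.pos m) (NeZero.pos n)) (NeZero.pos k)) hdvd
  have hc : π.ker ≤ center Γ₀ := by
    intro x hx
    obtain ⟨a, ha⟩ := hbij.2 ⟨x, hx⟩
    have hx' : x = ζ₁ ^ (Multiplicative.toAdd a).1.val * ζ₂ ^ (Multiplicative.toAdd a).2.1.val *
        ζ₃ ^ (Multiplicative.toAdd a).2.2.val := by
      rw [← hf, ha]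
    rw [mem_center_iff]
    intro g
    rw [hx']
    exact ((((c1 g).pow_left _).mul_left ((c2 g).pow_left _)).mul_left ((c3 g).pow_left _)).symm.eq
  refine ⟨?_, hc, ⟨(MulEquiv.ofBijective f hbij).symm⟩⟩
  rw [← h1, ← Nat.card_congr (Equiv.ofBijective f hbij), hA]

/-- Three cyclic factors. -/
theorem hasSchurMultiplier_three {G Γ₀ : Type u} [Group G] [Finite G] [Group Γ₀] [Finite Γ₀]
    (π : Γ₀ →* G) (hπ : Function.Surjective π) (m n k : ℕ) [NeZero m] [NeZero n] [NeZero k]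
    (hcard : Nat.card Γ₀ ∣ m * n * k * Nat.card G)
    (ζ₁ ζ₂ ζ₃ : Γ₀) (hk1 : π ζ₁ = 1) (hk2 : π ζ₂ = 1) (hk3 : π ζ₃ = 1)
    (ho1 : ζ₁ ^ m = 1) (ho2 : ζ₂ ^ n = 1) (ho3 : ζ₃ ^ k = 1)
    (hc1 : ∀ x, ζ₁ * x = x * ζ₁) (hc2 : ∀ x, ζ₂ * x = x * ζ₂) (hc3 : ∀ x, ζ₃ * x = x * ζ₃)
    (hind : ∀ i < m, ∀ j < n, ∀ l < k, ζ₁ ^ i * ζ₂ ^ j * ζ₃ ^ l = 1 → i = 0 ∧ j = 0 ∧ l = 0)
    (hperf : commutator Γ₀ = ⊤)
    (huniv : ∀ (X : Type u) [Group X] [Finite X] (τ : X →* Γ₀), Function.Surjective τ →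
      τ.ker ≤ center X → τ.ker ≤ commutator X → τ.ker = ⊥) :
    HasSchurMultiplier G (Multiplicative (ZMod m × ZMod n × ZMod k)) := by
  obtain ⟨-, hc, ⟨e⟩⟩ := ker_three π hπ m n k hcard ζ₁ ζ₂ ζ₃ hk1 hk2 hk3 ho1 ho2 ho3 hc1 hc2 hc3 hind
  exact hasSchurMultiplier_of_cover π hπ hc hperf huniv e

end Cfsg.Agent.Helper89.Stem
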