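import Cfsg.Agent.Helper89.L34kTab
import Cfsg.Agent.Helper89.L34cMat
import Cfsg.Agent.Helper89.StemCover3
import Cfsg.Agent.Helper89.MConcBase
import Cfsg.Agent.Helper89.Stem3
import Cfsg.Agent.S5387

/-!
# The Schur multiplier of `PSL(3, 4)` is `ℤ/3 × ℤ/4 × ℤ/4` (helper89)

The cover is the subgroup of `SL(3, F) × Sym(112 × 4)` generated by seven pairs, for any field `F`
isomorphic to the concrete field `Helper98.F4`; it maps onto `PSL(3, F)` with kernel generated by a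
scalar matrix and two label shifts.  The chain certificate `L34k.Ls` gives its order `48 · |PSL(3,4)|`
and the triviality of the 2-part of its multiplier; its Sylow 3-subgroup is extraspecial of order 27
and the Sylow subgroups for 5 and 7 are cyclic.
-/

set_option autoImplicit false
set_option maxRecDepth 100000
set_option linter.unusedSectionVars false

namespace Cfsg.Agent.Helper89.L34k

open Cfsg Subgroup L34c MConc
open Cfsg.Agent.Helper98 (F4)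
open Cfsg.Agent.Helper89.L34 (M9 tv9)

/-- The matrices of the seven generators and their inverses. -/
def bs : List (M9 × M9) := [(⟨.v, .z, .v, .w, .z, .z, .w, .o, .o⟩, ⟨.z, .v, .z, .w, .w, .o, .w, .v, .z⟩),
  (⟨.z, .v, .w, .o, .v, .o, .o, .w, .z⟩, ⟨.w, .v, .w, .o, .w, .w, .o, .v, .v⟩),
  (⟨.z, .o, .v, .z, .o, .z, .w, .o, .o⟩, ⟨.o, .w, .v, .z, .o, .z, .w, .w, .z⟩),
  (⟨.z, .v, .z, .w, .v, .z, .v, .w, .o⟩, ⟨.v, .v, .z, .w, .z, .z, .o, .w, .o⟩),
  (⟨.o, .z, .z, .z, .w, .z, .z, .z, .v⟩, ⟨.o, .z, .z, .z, .v, .z, .z, .z, .w⟩),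
  (⟨.z, .o, .z, .z, .z, .o, .o, .z, .z⟩, ⟨.z, .z, .o, .o, .z, .z, .z, .o, .z⟩),
  (⟨.o, .z, .z, .z, .z, .o, .z, .o, .z⟩, ⟨.o, .z, .z, .z, .z, .o, .z, .o, .z⟩)]

theorem bs_ok : bs.all okP = true := by decide +kernel

/-- Words for the elementary transvections, indexed by `4 (3 i + j) + a`. -/
def twL : List (List ℕ) := [[], [], [], [], [], [1, 5, 7, 5, 6, 4], [1, 1, 6, 3, 7, 0, 4], [2, 0, 0, 2], [], [1, 6, 1, 7, 2, 6, 2], [2, 7, 3, 7, 7, 5], [3, 5, 7, 7, 3, 4, 7], [], [1, 5, 0, 6, 1, 6, 5], [3, 4, 1, 5], [1, 7, 4, 6, 5, 1, 4], [], [], [], [], [], [1, 7, 2, 2, 6, 5], [2, 4, 2, 6, 6, 1, 7], [5, 1, 7, 4, 3, 6], [], [1, 4, 7, 1, 4, 7], [1, 4, 2, 2, 4], [4, 6, 4, 0, 5, 7], [], [0, 5, 1, 4, 3], [4, 1, 5, 7, 5, 6], [5, 0, 6, 5, 0, 6], [], [], [], []]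

def f4c : F4 → ℕ
  | .z => 0
  | .o => 1
  | .w => 2
  | .v => 3

def tw (i j : Fin 3) (a : F4) : List ℕ := twL.getD (4 * (3 * i.val + j.val) + f4c a) []

theorem htw : ∀ i j : Fin 3, i ≠ j → ∀ a : F4,
    evA bs (tw i j a) M9.one = tv9 i j a ∧ ∀ s ∈ tw i j a, s < 14 := by
  decide +kernel

/-! ### The cover -/

def qs : List (Equiv.Perm (Fin 112 × Fin 4)) :=
  TP.perms 112 4 cT cL (by norm_num) (by norm_num) 14 inv_ok hk

theorem qs_length : qs.length = 7 := by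
  simp [qs, TP.perms]

universe u

variable {F : Type u} [Field F] (e : F4 ≃+* F)

theorem genS : closure (gl (gsS e bs) '' Set.Iio 14) = ⊤ := gen_top e bs bs_ok 14 tw htw

theorem hlen : (gsS e bs).length = qs.length := by
  rw [length_gsS, qs_length]
  rfl

/-- The generators of the cover. -/
noncomputable abbrev l : List ↥(CP.cov (gsS e bs) qs) := CP.gens (gsS e bs) qs

theorem cov_rels (ws : List (List ℕ)) (h1 : ws.all (mok bs) = true) (h2 : ws.all rok = true) :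
    ∀ w ∈ ws, ev (gl (l e)) w = 1 :=
  CP.rels_hold (gsS e bs) qs (hlen e) ws (rels_hold e bs bs_ok ws h1)
    (TP.rels_hold 112 4 cT cL _ _ 14 inv_ok hk ws h2)

theorem hE : ∀ w ∈ Chain.powW ps, ev (gl (l e)) w = 1 := cov_rels e _ (by decide +kernel) tab_pw

theorem hW : ∀ d ∈ Ls, ∀ w ∈ d.ws, ev (gl (l e)) w = 1 := by
  intro d hd
  simp only [Ls, List.mem_cons, List.not_mem_nil, or_false] at hd
  rcases hd with rfl | rfl | rfl | rfl
  · intro w hw
    exact absurd hw (by simp [L0])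
  · exact cov_rels e _ (by decide +kernel) tab_w1
  · exact cov_rels e _ (by decide +kernel) tab_w2
  · exact cov_rels e _ (by decide +kernel) tab_w3

theorem gen14 : closure (gl (l e) '' Set.Iio 14) = ⊤ := by
  have h := CP.gen_top (gsS e bs) qs (hlen e)
  rw [length_gsS] at h
  exact h

theorem gen8 : closure (gl (l e) '' Set.Iio 8) = ⊤ :=
  CT.closure_of_defs (gl (l e)) (gl_inv (l e)) 8 14 defs (by decide)
    (cov_rels e _ (by decide +kernel) tab_defs) (gen14 e)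

variable [Fintype F]

theorem card_dvd : Nat.card ↥(CP.cov (gsS e bs) qs) ∣ 967680 := by
  have h := Chain.card_dvd (l e) ps Ls valid chained (hE e) (hW e)
  rw [lastK_eq, gen8, Subgroup.card_top, prodN_eq] at h
  exact h

theorem covπ_surj : Function.Surjective (CP.covπ (gsS e bs) qs) :=
  CP.π_surj (gsS e bs) qs (hlen e) (by rw [length_gsS]; exact genS e)

/-- The projection onto `PSL(3, F)`. -/
noncomputable def π : ↥(CP.cov (gsS e bs) qs) →* Matrix.ProjectiveSpecialLinearGroup (Fin 3) F :=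
  (QuotientGroup.mk' (center (Matrix.SpecialLinearGroup (Fin 3) F))).comp
    (CP.covπ (gsS e bs) qs)

theorem π_surj : Function.Surjective (π e) :=
  (QuotientGroup.mk'_surjective _).comp (covπ_surj e)

theorem π_eq_one {x : ↥(CP.cov (gsS e bs) qs)}
    (h : CP.covπ (gsS e bs) qs x ∈ center (Matrix.SpecialLinearGroup (Fin 3) F)) : π e x = 1 :=
  (QuotientGroup.eq_one_iff _).2 h

theorem card_G (hF : Fintype.card F = 4) :
    Nat.card (Matrix.ProjectiveSpecialLinearGroup (Fin 3) F) = 20160 :=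
  Cfsg.Agent.S5387.card_psl3 hF

/-- Three generators of the kernel. -/
noncomputable def ζ₁ : ↥(CP.cov (gsS e bs) qs) := ev (gl (l e)) zw1

noncomputable def ζ₂ : ↥(CP.cov (gsS e bs) qs) := ev (gl (l e)) zw2

noncomputable def ζ₃ : ↥(CP.cov (gsS e bs) qs) := ev (gl (l e)) zw3

theorem ζ₁_ker : π e (ζ₁ e) = 1 := by
  apply π_eq_one
  rw [ζ₁, CP.π_ev (gsS e bs) qs (hlen e)]
  exact ev_mem_center e bs bs_ok zw1 .w (by decide +kernel)

theorem ζ₂_cov : CP.covπ (gsS e bs) qs (ζ₂ e) = 1 := by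
  rw [ζ₂, CP.π_ev (gsS e bs) qs (hlen e)]
  exact ev_eq_one e bs bs_ok zw2 (by decide +kernel)

theorem ζ₃_cov : CP.covπ (gsS e bs) qs (ζ₃ e) = 1 := by
  rw [ζ₃, CP.π_ev (gsS e bs) qs (hlen e)]
  exact ev_eq_one e bs bs_ok zw3 (by decide +kernel)

theorem ζ₂_ker : π e (ζ₂ e) = 1 := by
  apply π_eq_one
  rw [ζ₂_cov]
  exact one_mem _

theorem ζ₃_ker : π e (ζ₃ e) = 1 := by
  apply π_eq_one
  rw [ζ₃_cov]
  exact one_mem _

theorem ζ_pow : ζ₁ e ^ 3 = 1 ∧ ζ₂ e ^ 4 = 1 ∧ ζ₃ e ^ 4 = 1 := by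
  have h := cov_rels e [CT.rep zw1 3, CT.rep zw2 4, CT.rep zw3 4] (by decide +kernel) tab_zp
  refine ⟨?_, ?_, ?_⟩
  · rw [ζ₁, ← CT.ev_rep]
    exact h _ (by simp)
  · rw [ζ₂, ← CT.ev_rep]
    exact h _ (by simp)
  · rw [ζ₃, ← CT.ev_rep]
    exact h _ (by simp)

theorem ζ₁_central : ∀ x, ζ₁ e * x = x * ζ₁ e :=
  CT.central_of_gens (gl (l e)) 8 (gen8 e) (ζ₁ e)
    (CT.comm_of_words (gl (l e)) (gl_inv (l e)) zw1 4
      (cov_rels e _ (by decide +kernel) tab_zc1))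

theorem ζ₂_central : ∀ x, ζ₂ e * x = x * ζ₂ e :=
  CT.central_of_gens (gl (l e)) 8 (gen8 e) (ζ₂ e)
    (CT.comm_of_words (gl (l e)) (gl_inv (l e)) zw2 4
      (cov_rels e _ (by decide +kernel) tab_zc2))

theorem ζ₃_central : ∀ x, ζ₃ e * x = x * ζ₃ e :=
  CT.central_of_gens (gl (l e)) 8 (gen8 e) (ζ₃ e)
    (CT.comm_of_words (gl (l e)) (gl_inv (l e)) zw3 4
      (cov_rels e _ (by decide +kernel) tab_zc3))

theorem ζ₁_cov_ne : CP.covπ (gsS e bs) qs (ζ₁ e) ≠ 1 := by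
  rw [ζ₁, CP.π_ev (gsS e bs) qs (hlen e)]
  exact ev_ne_one e bs bs_ok zw1 (by decide +kernel)

theorem ζ₁_cov_sq_ne : CP.covπ (gsS e bs) qs (ζ₁ e) ^ 2 ≠ 1 := by
  rw [ζ₁, CP.π_ev (gsS e bs) qs (hlen e), ← CT.ev_rep]
  exact ev_ne_one e bs bs_ok _ (by decide +kernel)

theorem hind : ∀ i < 3, ∀ j < 4, ∀ k < 4, ζ₁ e ^ i * ζ₂ e ^ j * ζ₃ e ^ k = 1 →
    i = 0 ∧ j = 0 ∧ k = 0 := by
  intro i hi j hj k hk' h
  have hπ := congrArg (CP.covπ (gsS e bs) qs) h
  rw [map_mul, map_mul, map_pow, map_pow, map_pow, ζ₂_cov, ζ₃_cov, one_pow, one_pow, mul_one,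
    mul_one, map_one] at hπ
  have hi0 : i = 0 := by
    interval_cases i
    · rfl
    · rw [pow_one] at hπ
      exact absurd hπ (ζ₁_cov_ne e)
    · exact absurd hπ (ζ₁_cov_sq_ne e)
  subst hi0
  rw [pow_zero, one_mul] at h
  by_cases h0 : j = 0 ∧ k = 0
  · exact ⟨rfl, h0.1, h0.2⟩
  · exfalso
    have hρ : ev (gl (l e)) (CT.rep zw2 j ++ CT.rep zw3 k) = 1 := by
      rw [ev_append, CT.ev_rep, CT.ev_rep]
      exact h
    obtain ⟨hsym, hwalk⟩ := tab_ind j hj k hk' (by omega)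
    exact CP.ev_ne_one (gsS e bs) qs (hlen e) _
      (TP.ev_ne_one 112 4 cT cL _ _ 14 inv_ok hk _ hsym _ (by split <;> norm_num) hwalk) hρ

theorem hcard (hF : Fintype.card F = 4) :
    Nat.card ↥(CP.cov (gsS e bs) qs) ∣
      3 * 4 * 4 * Nat.card (Matrix.ProjectiveSpecialLinearGroup (Fin 3) F) := by
  rw [card_G hF]
  exact card_dvd e

instance finPSL : Finite (Matrix.ProjectiveSpecialLinearGroup (Fin 3) F) :=
  inferInstanceAs (Finite (Matrix.SpecialLinearGroup (Fin 3) F ⧸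
    center (Matrix.SpecialLinearGroup (Fin 3) F)))

theorem card_cov (hF : Fintype.card F = 4) : Nat.card ↥(CP.cov (gsS e bs) qs) = 967680 := by
  have h := (Stem.ker_three (π e) (π_surj e) 3 4 4 (hcard e hF) (ζ₁ e) (ζ₂ e) (ζ₃ e)
    (ζ₁_ker e) (ζ₂_ker e) (ζ₃_ker e) (ζ_pow e).1 (ζ_pow e).2.1 (ζ_pow e).2.2
    (ζ₁_central e) (ζ₂_central e) (ζ₃_central e) (hind e)).1
  rw [h, card_G hF]

theorem perfect : commutator ↥(CP.cov (gsS e bs) qs) = ⊤ :=
  Stem.perfect_of_conj (gl (l e)) (gl_inv (l e)) 4 (gen8 e) cj (by decide)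
    (cov_rels e _ (by decide +kernel) tab_cj) (cov_rels e _ (by decide +kernel) tab_cp)

/-! ### The prime 3 -/

theorem h3rels : ∀ w ∈ ws3, ev (gl [gl (l e) 8, gl (l e) 10, gl (l e) 12]) w = 1 := by
  intro w hw
  have h1 := CT.ev_sub3 (gl (l e)) (gl_inv (l e)) 4 w (by
    revert w
    decide)
  have h2 := cov_rels e x3 (by decide +kernel) tab_x3 (w.map (· + 2 * 4))
    (List.mem_map.2 ⟨w, hw, rfl⟩)
  exact h1.trans h2

theorem hne : gl (l e) 8 * gl (l e) 10 ≠ gl (l e) 10 * gl (l e) 8 := by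
  intro h
  have hw : ev (gl (l e)) [8, 10, 9, 11] ≠ 1 := by
    intro h1
    have h2 := congrArg (CP.covπ (gsS e bs) qs) h1
    rw [CP.π_ev (gsS e bs) qs (hlen e), map_one] at h2
    exact ev_ne_one e bs bs_ok [8, 10, 9, 11] (by decide +kernel) h2
  apply hw
  have e9 : gl (l e) 9 = (gl (l e) 8)⁻¹ := Stem.g_iv (gl (l e)) (gl_inv (l e)) 4
  have e11 : gl (l e) 11 = (gl (l e) 10)⁻¹ := Stem.g_iv (gl (l e)) (gl_inv (l e)) 5
  show gl (l e) 8 * (gl (l e) 10 * (gl (l e) 9 * (gl (l e) 11 * 1))) = 1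
  rw [e9, e11, mul_one, ← mul_assoc, h]
  group

/-- The cover has trivial Schur multiplier. -/
theorem univ (hF : Fintype.card F = 4) (X : Type u) [Group X] [Finite X]
    (τ : X →* ↥(CP.cov (gsS e bs) qs))
    (hτ : Function.Surjective τ) (hc : τ.ker ≤ center X) (hd : τ.ker ≤ commutator X) :
    τ.ker = ⊥ := by
  apply Stem.ker_eq_bot_of_primes
  intro p hp
  by_cases h2 : p = 2
  · subst h2
    exact Chain.two_universal (l e) ps Ls ps_odd valid chained (by rw [card_cov e hF, prodN_eq])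
      (by rw [lastK_eq]; exact gen8 e) (hE e) (hW e) X τ hτ hc hd
  by_cases h3 : p = 3
  · subst h3
    obtain ⟨ha, hb, hca, hcb, hna, hnb⟩ :=
      extra_of_words (gl (l e) 8) (gl (l e) 10) (gl (l e) 12) (h3rels e)
    exact Stem.not_dvd_card_ker_of_extraspecial τ hτ hc hd (gl (l e) 8) (gl (l e) 10)
      (gl (l e) 12) ha hb (hne e) hca hcb hna hnb (by rw [card_cov e hF]; decide)
  · have : Fact p.Prime := ⟨hp⟩
    exact Stem.not_dvd_card_ker_of_sq τ hc hd p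
      (not_sq_dvd (by rw [card_cov e hF]; decide) hp h2 h3)

/-- The Schur multiplier of `PSL(3, 4)` is `ℤ/3 × ℤ/4 × ℤ/4`. -/
theorem schurL34 (e : F4 ≃+* F) (hF : Fintype.card F = 4) :
    HasSchurMultiplier (Matrix.ProjectiveSpecialLinearGroup (Fin 3) F)
      (Multiplicative (ZMod 3 × ZMod 4 × ZMod 4)) :=
  Stem.hasSchurMultiplier_three (π e) (π_surj e) 3 4 4 (hcard e hF) (ζ₁ e) (ζ₂ e) (ζ₃ e)
    (ζ₁_ker e) (ζ₂_ker e) (ζ₃_ker e) (ζ_pow e).1 (ζ_pow e).2.1 (ζ_pow e).2.2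
    (ζ₁_central e) (ζ₂_central e) (ζ₃_central e) (hind e) (perfect e) (univ e hF)

end Cfsg.Agent.Helper89.L34k
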