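import Cfsg.Agent.Helper89.Level

/-!
# Canonical lifts of odd-order elements to central extensions with kernel of exponent 2 (helper89)

Let `τ : X →* G` be a homomorphism whose kernel is central of exponent 2.  Elements of odd order
of `G` lift uniquely to elements of the same order; conjugation relations between such elements
lift.  `Lift.ker_trivial_of_lifts`: if the kernel lies in the commutator subgroup and a subgroup
`Y` with `τ Y = G` has at most `|G|` elements, then `τ` is injective.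
-/

set_option autoImplicit false

namespace Cfsg.Agent.Helper89.Lift

open Subgroup
open scoped commutatorElement

variable {X G : Type*} [Group X] [Group G]

theorem sq_pow_odd {z : X} (hz : z * z = 1) {n : ℕ} (hn : Odd n) : z ^ n = z := by
  obtain ⟨m, rfl⟩ := hn
  rw [pow_succ, pow_mul, sq, hz, one_pow, one_mul]

theorem odd_lift_unique (τ : X →* G) (hker : ∀ x, τ x = 1 → x ∈ center X ∧ x * x = 1)
    {a b : X} {n : ℕ} (hn : Odd n) (ha : a ^ n = 1) (hb : b ^ n = 1) (hab : τ a = τ b) :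
    a = b := by
  have hz := hker (a⁻¹ * b) (by rw [map_mul, map_inv, hab, inv_mul_cancel])
  have hcomm : Commute a (a⁻¹ * b) := Subgroup.mem_center_iff.1 hz.1 a
  have h1 : (a * (a⁻¹ * b)) ^ n = a ^ n * (a⁻¹ * b) ^ n := hcomm.mul_pow n
  rw [mul_inv_cancel_left, hb, ha, one_mul, sq_pow_odd hz.2 hn] at h1
  exact inv_mul_eq_one.1 h1.symm

theorem exists_odd_lift (τ : X →* G) (hτ : Function.Surjective τ)
    (hker : ∀ x, τ x = 1 → x ∈ center X ∧ x * x = 1) {s : G} {n : ℕ} (hn : Odd n)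
    (hs : s ^ n = 1) : ∃ a : X, τ a = s ∧ a ^ n = 1 := by
  obtain ⟨x, rfl⟩ := hτ s
  have hz := hker (x ^ n) (by rw [map_pow, hs])
  have hcomm : Commute x (x ^ n) := Subgroup.mem_center_iff.1 hz.1 x
  refine ⟨x * x ^ n, ?_, ?_⟩
  · rw [map_mul, map_pow, hs, mul_one]
  · rw [hcomm.mul_pow, sq_pow_odd hz.2 hn]
    exact hz.2

/-- A conjugation relation between lifts of odd order. -/
theorem conj_lift (τ : X →* G) (hker : ∀ x, τ x = 1 → x ∈ center X ∧ x * x = 1)
    {x y : X} {n k : ℕ} (hn : Odd n) (hy : y ^ n = 1)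
    (h : τ x * τ y * (τ x)⁻¹ = τ y ^ k) : x * y * x⁻¹ = y ^ k := by
  apply odd_lift_unique τ hker hn
  · rw [conj_pow, hy, mul_one, mul_inv_cancel]
  · rw [← pow_mul, mul_comm, pow_mul, hy, one_pow]
  · rw [map_mul, map_mul, map_inv, map_pow, h]

theorem inj_of_card_le [Finite X] (τ : X →* G) (H : Subgroup X)
    (h : Nat.card H ≤ Nat.card (H.map τ)) : ∀ c ∈ H, τ c = 1 → c = 1 := by
  let f : H →* H.map τ := (τ.subgroupMap H)
  have hsurj : Function.Surjective f := τ.subgroupMap_surjective H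
  have hbij := hsurj.bijective_of_nat_card_le h
  intro c hc hc1
  have h1 : f ⟨c, hc⟩ = f 1 := by
    apply Subtype.ext
    rw [map_one]
    exact hc1
  exact congrArg Subtype.val (hbij.1 h1)

theorem ker_trivial_of_lifts [Finite X] [Finite G] (τ : X →* G)
    (hker : ∀ x, τ x = 1 → x ∈ center X ∧ x * x = 1) (hd : τ.ker ≤ commutator X)
    (Y : Subgroup X) (hY : Y.map τ = ⊤) (hcard : Nat.card Y ≤ Nat.card G) :
    ∀ x, τ x = 1 → x = 1 := by
  have hdec : ∀ x : X, ∃ y ∈ Y, ∃ z ∈ center X, x = y * z := by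
    intro x
    have h1 : τ x ∈ Y.map τ := by rw [hY]; trivial
    obtain ⟨y, hy, hyx⟩ := h1
    refine ⟨y, hy, y⁻¹ * x, (hker _ ?_).1, by group⟩
    rw [map_mul, map_inv, hyx, inv_mul_cancel]
  have hcomm : commutator X ≤ Y := by
    rw [commutator_eq_closure, closure_le]
    rintro _ ⟨l₁, l₂, rfl⟩
    obtain ⟨t₁, ht₁, z₁, hz₁, rfl⟩ := hdec l₁
    obtain ⟨t₂, ht₂, z₂, hz₂, rfl⟩ := hdec l₂
    have c₁ := Subgroup.mem_center_iff.1 hz₁
    have c₂ := Subgroup.mem_center_iff.1 hz₂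
    have e : ⁅t₁ * z₁, t₂ * z₂⁆ = ⁅t₁, t₂⁆ := by
      rw [commutatorElement_def, commutatorElement_def]
      have e1 : ∀ w : X, t₁ * z₁ * w * (t₁ * z₁)⁻¹ = t₁ * w * t₁⁻¹ := by
        intro w
        calc t₁ * z₁ * w * (t₁ * z₁)⁻¹ = t₁ * (z₁ * w) * z₁⁻¹ * t₁⁻¹ := by group
          _ = t₁ * (w * z₁) * z₁⁻¹ * t₁⁻¹ := by rw [c₁ w]
          _ = t₁ * w * t₁⁻¹ := by group
      have e2 : ∀ v : X, t₁ * (t₂ * z₂) * v * (t₂ * z₂)⁻¹ = t₁ * t₂ * v * t₂⁻¹ := by
        intro v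
        calc t₁ * (t₂ * z₂) * v * (t₂ * z₂)⁻¹ = t₁ * t₂ * (z₂ * v) * z₂⁻¹ * t₂⁻¹ := by group
          _ = t₁ * t₂ * (v * z₂) * z₂⁻¹ * t₂⁻¹ := by rw [c₂ v]
          _ = t₁ * t₂ * v * t₂⁻¹ := by group
      rw [e1, e2]
    rw [SetLike.mem_coe, e, commutatorElement_def]
    exact Y.mul_mem (Y.mul_mem (Y.mul_mem ht₁ ht₂) (Y.inv_mem ht₁)) (Y.inv_mem ht₂)
  have hinj := inj_of_card_le τ Y (by rw [hY, Subgroup.card_top]; exact hcard)
  intro x hx
  exact hinj x (hcomm (hd (MonoidHom.mem_ker.2 hx))) hx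

/-- The image of the subgroup generated by the first `k` symbols. -/
theorem map_closure_image (τ : X →* G) (g : ℕ → X) (gG : ℕ → G) (h : ∀ j, τ (g j) = gG j)
    (k : ℕ) : (closure (g '' Set.Iio k)).map τ = closure (gG '' Set.Iio k) := by
  rw [MonoidHom.map_closure, Set.image_image]
  congr 1
  exact Set.image_congr (fun j _ => h j)

theorem map_ev' (τ : X →* G) (g : ℕ → X) (gG : ℕ → G) (h : ∀ j, τ (g j) = gG j)
    (w : List ℕ) : τ (ev g w) = ev gG w := by
  rw [map_ev]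
  exact ev_congr h w

end Cfsg.Agent.Helper89.Lift
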