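import Cfsg.Agent.Helper89.MathieuTwo
import Cfsg.Agent.Helper89.M12cCert

/-!
# The 2-part of the Schur multiplier of the double cover of `M12` (helper89)

Abstract form: a finite group `G` of order `190080` generated by elements `a, b, t, m` satisfying
the relators of the certificates `M11C` and `M12cC` has no non-trivial central extension with
kernel of exponent 2 inside the commutator subgroup (`Mathieu.two12c`); moreover any group
generated by four elements satisfying these relators has order dividing `190080`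
(`Mathieu.card12c`).
-/

set_option autoImplicit false
set_option linter.unusedSectionVars false

namespace Cfsg.Agent.Helper89.Mathieu

open Subgroup

variable {G X : Type*} [Group G] [Group X]

def E12 : List (List ℕ) := [List.replicate 3 6]

theorem ex12_eq : M12cC.ex = M11C.ex ++ M11C.ws ++ E12 := by decide

theorem core12 [Finite X] (g : ℕ → X) (hinv : ∀ j, g j * g (CT2.iv j) = 1) (K : Subgroup X)
    (hKc : ∀ c ∈ K, ∀ x, c * x = x * c) (hKs : ∀ c ∈ K, c * c = 1)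
    (hE11 : ∀ w ∈ M11C.ex, ev g w = 1) (hW11 : ∀ w ∈ M11C.ws, ev g w ∈ K)
    (hE12 : ∀ w ∈ E12, ev g w = 1) (hW12 : ∀ w ∈ M12cC.ws, ev g w ∈ K)
    (hinj : ∀ c ∈ closure (g '' Set.Iio 6), c ∈ K → c = 1) :
    (∀ w ∈ M11C.ws, ev g w = 1) ∧ (∀ w ∈ M12cC.ws, ev g w = 1) ∧
      Nat.card (closure (g '' Set.Iio 8)) ∣ 24 * Nat.card (closure (g '' Set.Iio 6)) := by
  obtain ⟨h11, _⟩ := core11 g hinv K hKc hKs hE11 hW11
  have hE : ∀ w ∈ M12cC.ex, ev g w = 1 := by
    intro w hw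
    rw [ex12_eq, List.mem_append, List.mem_append] at hw
    rcases hw with (hw | hw) | hw
    · exact hE11 w hw
    · exact h11 w hw
    · exact hE12 w hw
  obtain ⟨h1, h2⟩ := Level.level g hinv K hKc hKs 24 8 6 (tbl 5 8 M12cC.tab)
    (tbl 3 8 M12cC.ltab) (vec 5 M12cC.par) (vec 4 M12cC.gam) [0, 1, 2, 3, 4, 5] M12cC.ex
    M12cC.ws M12cC.steps M12cC.E₀ M12cC.cl M12cC.pre_ok M12cC.run_ok M12cC.cl_ok (by decide)
    (by norm_num) hE hW12 hinj
  exact ⟨h11, h1, h2⟩

theorem ex12_of (g : ℕ → X) (h6 : g 6 ^ 3 = 1) : ∀ w ∈ E12, ev g w = 1 := by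
  intro w hw
  simp only [E12, List.mem_cons, List.not_mem_nil, or_false] at hw
  subst hw
  rw [ev_replicate]; exact h6

theorem ex12_facts (g : ℕ → X) (hE : ∀ w ∈ E12, ev g w = 1) : g 6 ^ 3 = 1 := by
  rw [← ev_replicate]; exact hE _ (by simp [E12])

/-- Any group generated by four elements satisfying the relators has order dividing `190080`. -/
theorem card12c [Finite G] (gG : ℕ → G) (hinv : ∀ j, gG j * gG (CT2.iv j) = 1)
    (hE11 : ∀ w ∈ M11C.ex, ev gG w = 1) (hW11 : ∀ w ∈ M11C.ws, ev gG w = 1)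
    (hE12 : ∀ w ∈ E12, ev gG w = 1) (hW12 : ∀ w ∈ M12cC.ws, ev gG w = 1) :
    Nat.card (closure (gG '' Set.Iio 8)) ∣ 190080 := by
  have h1 := gside11 gG hinv hE11 hW11
  have h2 := (core12 gG hinv ⊥ bot_c bot_s hE11 (mem_bot_of gG hW11) hE12 (mem_bot_of gG hW12)
    (fun c _ hc => Subgroup.mem_bot.1 hc)).2.2
  refine h2.trans ?_
  have := Nat.mul_dvd_mul_left 24 h1
  simpa using this

theorem gside12 [Finite G] (gG : ℕ → G) (hinv : ∀ j, gG j * gG (CT2.iv j) = 1)
    (hcard : 190080 ∣ Nat.card (closure (gG '' Set.Iio 8)))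
    (hE11 : ∀ w ∈ M11C.ex, ev gG w = 1) (hW11 : ∀ w ∈ M11C.ws, ev gG w = 1)
    (hE12 : ∀ w ∈ E12, ev gG w = 1) (hW12 : ∀ w ∈ M12cC.ws, ev gG w = 1) :
    Nat.card (closure (gG '' Set.Iio 6)) = 7920 := by
  have h1 := gside11 gG hinv hE11 hW11
  have h2 := (core12 gG hinv ⊥ bot_c bot_s hE11 (mem_bot_of gG hW11) hE12 (mem_bot_of gG hW12)
    (fun c _ hc => Subgroup.mem_bot.1 hc)).2.2
  have h3 : 24 * 7920 ∣ 24 * Nat.card (closure (gG '' Set.Iio 6)) := by
    have : (190080 : ℕ) = 24 * 7920 := by norm_num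
    rw [← this]
    exact hcard.trans h2
  exact Nat.dvd_antisymm h1 (Nat.dvd_of_mul_dvd_mul_left (by norm_num) h3)

section xside

variable [Finite X] [Finite G] (τ : X →* G)
  (hker : ∀ x, τ x = 1 → x ∈ center X ∧ x * x = 1) (g : ℕ → X) (gG : ℕ → G)
  (hinv : ∀ j, g j * g (CT2.iv j) = 1) (hg : ∀ j, τ (g j) = gG j)

include hker hinv hg

theorem xside12 (hc6 : 7920 ∣ Nat.card (closure (gG '' Set.Iio 6)))
    (hE11 : ∀ w ∈ M11C.ex, ev g w = 1) (hW11 : ∀ w ∈ M11C.ws, ev gG w = 1)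
    (hE12 : ∀ w ∈ E12, ev g w = 1) (hW12 : ∀ w ∈ M12cC.ws, ev gG w = 1) :
    Nat.card (closure (g '' Set.Iio 8)) ∣ 190080 := by
  have h6 := xside11 τ hker g gG hinv hg hE11 hW11
  have h := (core12 g hinv τ.ker (kc τ hker g gG hinv hg) (ks τ hker g gG hinv hg) hE11
    (mem_ker_of τ hker g gG hinv hg hW11) hE12 (mem_ker_of τ hker g gG hinv hg hW12)
    (inj_level τ hker g gG hinv hg 6 7920 h6 (by norm_num) hc6)).2.2
  refine h.trans ?_
  have := Nat.mul_dvd_mul_left 24 h6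
  simpa using this

end xside

/-- The double cover of `M12`: no central extension with kernel of exponent 2 inside the
commutator subgroup. -/
theorem two12c [Finite G] [Finite X] (a b t m : G) (hcard : Nat.card G = 190080)
    (hgen : closure (gl [a, b, t, m] '' Set.Iio 8) = ⊤)
    (hE11 : ∀ w ∈ M11C.ex, ev (gl [a, b, t, m]) w = 1)
    (hW11 : ∀ w ∈ M11C.ws, ev (gl [a, b, t, m]) w = 1)
    (hE12 : ∀ w ∈ E12, ev (gl [a, b, t, m]) w = 1)
    (hW12 : ∀ w ∈ M12cC.ws, ev (gl [a, b, t, m]) w = 1)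
    (τ : X →* G) (hτ : Function.Surjective τ)
    (hker : ∀ x, τ x = 1 → x ∈ center X ∧ x * x = 1) (hd : τ.ker ≤ commutator X) :
    ∀ x, τ x = 1 → x = 1 := by
  obtain ⟨h0, h2, h4, hc⟩ := ex11_facts (gl [a, b, t, m]) (gl_inv _) hE11
  have h6 := ex12_facts (gl [a, b, t, m]) hE12
  change a ^ 11 = 1 at h0
  change b ^ 5 = 1 at h2
  change t ^ 5 = 1 at h4
  change b * a * b⁻¹ = a ^ 3 at hc
  change m ^ 3 = 1 at h6
  obtain ⟨a', hA, ha'⟩ := Lift.exists_odd_lift τ hτ hker (by decide : Odd 11) h0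
  obtain ⟨b', hB, hb'⟩ := Lift.exists_odd_lift τ hτ hker (by decide : Odd 5) h2
  obtain ⟨t', hT, ht'⟩ := Lift.exists_odd_lift τ hτ hker (by decide : Odd 5) h4
  obtain ⟨m', hM, hm'⟩ := Lift.exists_odd_lift τ hτ hker (by decide : Odd 3) h6
  have hc' : b' * a' * b'⁻¹ = a' ^ 3 :=
    Lift.conj_lift τ hker (by decide : Odd 11) ha' (by rw [hA, hB]; exact hc)
  have hg : ∀ j, τ (gl [a', b', t', m'] j) = gl [a, b, t, m] j := by
    intro j
    rw [map_gl]
    simp only [List.map_cons, List.map_nil, hA, hB, hT, hM]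
  have hE := ex11_of (gl [a', b', t', m']) (gl_inv _) ha' hb' ht' hc'
  have hE' := ex12_of (gl [a', b', t', m']) hm'
  have hc6 := gside12 (gl [a, b, t, m]) (gl_inv _)
    (by rw [hgen, Subgroup.card_top, hcard]) hE11 hW11 hE12 hW12
  have hX := xside12 τ hker _ _ (gl_inv _) hg (by rw [hc6]) hE hW11 hE' hW12
  exact Lift.ker_trivial_of_lifts τ hker hd (closure (gl [a', b', t', m'] '' Set.Iio 8))
    (by rw [Lift.map_closure_image τ _ _ hg, hgen])
    (by rw [hcard]; exact Nat.le_of_dvd (by norm_num) hX)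

end Cfsg.Agent.Helper89.Mathieu
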