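import Cfsg.Agent.Helper89.M22cTab
import Cfsg.Agent.Helper89.MConcBase
import Cfsg.Agent.Helper89.Stem3
import Cfsg.Agent.Helper7.OutM22
import Cfsg.Agent.Helper7.MathieuSimple

/-!
# The Schur multiplier of `M₂₂` is cyclic of order 12 (helper89)

The cover is the subgroup of `M₂₂ × Sym(1463 × 12)` generated by seven pairs; the first four
generate it and satisfy the relators of the chain certificate `M22c.Ls`, which gives its order
`12 · |M₂₂|` and the triviality of the 2-part of its multiplier; an extraspecial Sylow 3-subgroup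
and cyclic Sylow subgroups for the other primes give the rest.
-/

set_option autoImplicit false
set_option maxRecDepth 100000

namespace Cfsg.Agent.Helper89.M22c

open Cfsg Subgroup MConc

theorem card_stab_pair {p q : GolayPt} (hpq : p ≠ q) :
    Nat.card ↥(M24 ⊓ MulAction.stabilizer (Equiv.Perm GolayPt) (p, q)) = 443520 := by
  obtain ⟨h, hh, rfl, rfl⟩ := Helper7.m24_trans2 (p := Helper7.pt 0) (q := Helper7.pt 1)
    (by decide) hpq
  exact (Nat.card_congr ((Helper7.conjStabEquiv M24 h hh (Helper7.pt 0, Helper7.pt 1)).trans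
    (MulEquiv.subgroupCongr Helper7.stabilizer_pt01)).toEquiv).trans Helper7.card_M24_fix.2.1

theorem card_M22 : Nat.card ↥Spor.M22 = 443520 := by
  have h : Spor.M22 = M24 ⊓ MulAction.stabilizer (Equiv.Perm GolayPt)
      ((none : GolayPt), (some 0 : GolayPt)) := by
    ext g
    constructor
    · intro hg
      obtain ⟨⟨h1, h2⟩, h3⟩ := Helper7.mem_M22_iff.1 hg
      exact Subgroup.mem_inf.2 ⟨h1, MulAction.mem_stabilizer_iff.2 (Prod.ext h2 h3)⟩
    · intro hg
      obtain ⟨h1, h2⟩ := Subgroup.mem_inf.1 hg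
      have h3 := MulAction.mem_stabilizer_iff.1 h2
      exact Helper7.mem_M22_iff.2 ⟨⟨h1, congrArg Prod.fst h3⟩, congrArg Prod.snd h3⟩
  rw [h]
  exact card_stab_pair (by decide)

theorem mem_M22_of_code {c : ℕ} (h1 : Helper7.codeM24 c = true) (h2 : Helper7.tbl c 23 = 23)
    (h3 : Helper7.tbl c 0 = 0) : Helper7.permOf c ∈ Spor.M22 :=
  Helper7.mem_M22_iff.2 ⟨⟨Helper7.permOf_mem_M24 h1,
    fix_none (Helper7.isTbl_of_codeM24 h1) h2⟩, fix_zero (Helper7.isTbl_of_codeM24 h1) h3⟩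

def csM : List (ℕ × ℕ) := [(0xb9d3184e453388bad84a6b061a3d00, 0xba96394693138e6622a1b3e0d2a480), (0xbb452816ca5b90f4c6b3a308139860, 0xbc5274515363ac67c16d18a450d480), (0xbcd941c1045c8a64b84a0bcf16d6c0, 0xb8454b3892328757a1712b1b09a4e0), (0xbbe346a666214e35a2cea883283140, 0xba4f4892a3b22625864a6c1cf618a0), (0xbc84d546d05b8ec316a4a3e6342420, 0xbc5272da5033a8c7cc436ad4825420), (0xbb525b1e8e7866c5c84451a2345600, 0xbcc516a8a17c2cc59ea391a88225c0), (0xbc533a4ace340ac59ea853da320820, 0xbc533a4ace340ac59ea853da320820)]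

theorem csM_ok : pairsOK csM = true := by decide +kernel

theorem g0_mem : Helper7.permOf 0xb9d3184e453388bad84a6b061a3d00 ∈ Spor.M22 :=
  mem_M22_of_code (by decide +kernel) (by decide +kernel) (by decide +kernel)

noncomputable def g0 : ↥Spor.M22 := ⟨Helper7.permOf 0xb9d3184e453388bad84a6b061a3d00, g0_mem⟩

theorem g1_mem : Helper7.permOf 0xbb452816ca5b90f4c6b3a308139860 ∈ Spor.M22 :=
  mem_M22_of_code (by decide +kernel) (by decide +kernel) (by decide +kernel)

noncomputable def g1 : ↥Spor.M22 := ⟨Helper7.permOf 0xbb452816ca5b90f4c6b3a308139860, g1_mem⟩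

theorem g2_mem : Helper7.permOf 0xbcd941c1045c8a64b84a0bcf16d6c0 ∈ Spor.M22 :=
  mem_M22_of_code (by decide +kernel) (by decide +kernel) (by decide +kernel)

noncomputable def g2 : ↥Spor.M22 := ⟨Helper7.permOf 0xbcd941c1045c8a64b84a0bcf16d6c0, g2_mem⟩

theorem g3_mem : Helper7.permOf 0xbbe346a666214e35a2cea883283140 ∈ Spor.M22 :=
  mem_M22_of_code (by decide +kernel) (by decide +kernel) (by decide +kernel)

noncomputable def g3 : ↥Spor.M22 := ⟨Helper7.permOf 0xbbe346a666214e35a2cea883283140, g3_mem⟩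

theorem g4_mem : Helper7.permOf 0xbc84d546d05b8ec316a4a3e6342420 ∈ Spor.M22 :=
  mem_M22_of_code (by decide +kernel) (by decide +kernel) (by decide +kernel)

noncomputable def g4 : ↥Spor.M22 := ⟨Helper7.permOf 0xbc84d546d05b8ec316a4a3e6342420, g4_mem⟩

theorem g5_mem : Helper7.permOf 0xbb525b1e8e7866c5c84451a2345600 ∈ Spor.M22 :=
  mem_M22_of_code (by decide +kernel) (by decide +kernel) (by decide +kernel)

noncomputable def g5 : ↥Spor.M22 := ⟨Helper7.permOf 0xbb525b1e8e7866c5c84451a2345600, g5_mem⟩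

theorem g6_mem : Helper7.permOf 0xbc533a4ace340ac59ea853da320820 ∈ Spor.M22 :=
  mem_M22_of_code (by decide +kernel) (by decide +kernel) (by decide +kernel)

noncomputable def g6 : ↥Spor.M22 := ⟨Helper7.permOf 0xbc533a4ace340ac59ea853da320820, g6_mem⟩

noncomputable def gsM : List ↥Spor.M22 := [g0, g1, g2, g3, g4, g5, g6]

theorem hlM : gsM.map (Spor.M22).subtype = permsOf csM := rfl

abbrev mok (w : List ℕ) : Bool := Nat.beq (evC (flat csM) w) Helper7.idCode

theorem genM : closure (gl gsM '' Set.Iio 14) = ⊤ := by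
  refine closure_eq_top _ _ csM hlM csM_ok 14
    {Helper7.gDbl, cubeTwist, Helper7.gU22} Helper7.M22_le ?_
  intro s hs
  simp only [Set.mem_insert_iff, Set.mem_singleton_iff] at hs
  rcases hs with rfl | rfl | rfl
  · refine ⟨[0, 6, 4, 3, 1, 6, 0], by decide, ?_⟩
    rw [show evC (flat csM) [0, 6, 4, 3, 1, 6, 0] = Helper7.cDbl by decide +kernel]
    exact Helper7.isTbl_gDbl
  · refine ⟨[3, 6, 6, 4, 2, 0, 0], by decide, ?_⟩
    rw [show evC (flat csM) [3, 6, 6, 4, 2, 0, 0] = Helper7.cC by decide +kernel]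
    exact Helper7.isTbl_cubeTwist
  · refine ⟨[3, 4, 1, 6, 5, 1, 3], by decide, ?_⟩
    rw [show evC (flat csM) [3, 4, 1, 6, 5, 1, 3] = Helper7.cU22 by decide +kernel]
    exact Helper7.isTbl_gU22

/-! ### The cover -/

def qs : List (Equiv.Perm (Fin 1463 × Fin 12)) :=
  TP.perms 1463 12 cT cL (by norm_num) (by norm_num) 14 inv_ok hk

theorem hlen : gsM.length = qs.length := by
  simp [gsM, qs, TP.perms]

/-- The generators of the cover. -/
noncomputable abbrev l : List ↥(CP.cov gsM qs) := CP.gens gsM qs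

theorem cov_rels (ws : List (List ℕ)) (h1 : ws.all mok = true) (h2 : ws.all rok = true) :
    ∀ w ∈ ws, ev (gl l) w = 1 :=
  CP.rels_hold gsM qs hlen ws (rels_hold _ _ csM hlM csM_ok ws h1)
    (TP.rels_hold 1463 12 cT cL _ _ 14 inv_ok hk ws h2)

theorem hE : ∀ w ∈ Chain.powW ps, ev (gl l) w = 1 := cov_rels _ (by decide +kernel) tab_pw

theorem hW : ∀ d ∈ Ls, ∀ w ∈ d.ws, ev (gl l) w = 1 := by
  intro d hd
  simp only [Ls, List.mem_cons, List.not_mem_nil, or_false] at hd
  rcases hd with rfl | rfl | rfl | rfl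
  · intro w hw
    exact absurd hw (by simp [L0])
  · exact cov_rels _ (by decide +kernel) tab_w1
  · exact cov_rels _ (by decide +kernel) tab_w2
  · exact cov_rels _ (by decide +kernel) tab_w3

theorem gen14 : closure (gl l '' Set.Iio 14) = ⊤ := CP.gen_top gsM qs hlen

theorem gen8 : closure (gl l '' Set.Iio 8) = ⊤ :=
  CT.closure_of_defs (gl l) (gl_inv l) 8 14 defs (by decide)
    (cov_rels _ (by decide +kernel) tab_defs) gen14

theorem card_dvd : Nat.card ↥(CP.cov gsM qs) ∣ 5322240 := by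
  have h := Chain.card_dvd l ps Ls valid chained hE hW
  rw [lastK_eq, gen8, Subgroup.card_top, prodN_eq] at h
  exact h

theorem π_surj : Function.Surjective (CP.covπ gsM qs) := CP.π_surj gsM qs hlen genM

/-- A generator of the kernel. -/
noncomputable def ζ : ↥(CP.cov gsM qs) := ev (gl l) zw

theorem ζ_ker : CP.covπ gsM qs ζ = 1 := by
  rw [ζ, CP.π_ev gsM qs hlen]
  exact ev_eq_one _ _ csM hlM csM_ok zw (by decide +kernel)

theorem ζ_12 : ζ ^ 12 = 1 := by
  have h1 := Stem.card_ker_mul (CP.covπ gsM qs) π_surj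
  have h2 : Nat.card (CP.covπ gsM qs).ker * Nat.card ↥Spor.M22 ∣ 12 * Nat.card ↥Spor.M22 := by
    rw [h1, card_M22]; exact card_dvd
  have h3 : Nat.card (CP.covπ gsM qs).ker ∣ 12 := Nat.dvd_of_mul_dvd_mul_right Nat.card_pos h2
  have h4 : (⟨ζ, MonoidHom.mem_ker.2 ζ_ker⟩ : (CP.covπ gsM qs).ker) ^ 12 = 1 :=
    orderOf_dvd_iff_pow_eq_one.1 ((_root_.orderOf_dvd_natCard _).trans h3)
  exact congrArg Subtype.val h4

theorem ζ_6 : ζ ^ 6 ≠ 1 := by
  rw [ζ, ← CT.ev_rep]
  exact CP.ev_ne_one gsM qs hlen _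
    (TP.ev_ne_one 1463 12 cT cL _ _ 14 inv_ok hk _ (by decide +kernel) 0 (by norm_num) tab_z6)

theorem ζ_4 : ζ ^ 4 ≠ 1 := by
  rw [ζ, ← CT.ev_rep]
  exact CP.ev_ne_one gsM qs hlen _
    (TP.ev_ne_one 1463 12 cT cL _ _ 14 inv_ok hk _ (by decide +kernel) 1232 (by norm_num) tab_z4)

theorem ζ_ord : orderOf ζ = 12 := by
  apply orderOf_eq_of_pow_and_pow_div_prime (by norm_num) ζ_12
  intro p hp hd
  have h23 : p = 2 ∨ p = 3 := by
    rcases (Nat.Prime.dvd_mul hp).1 (show p ∣ 2 ^ 2 * 3 from hd) with h | h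
    · left
      exact (Nat.prime_dvd_prime_iff_eq hp Nat.prime_two).1 (hp.dvd_of_dvd_pow h)
    · right
      exact (Nat.prime_dvd_prime_iff_eq hp Nat.prime_three).1 h
  rcases h23 with rfl | rfl
  · exact ζ_6
  · exact ζ_4

theorem hzc : ∀ r ∈ CT.commWords zw 4, ev (gl l) r = 1 := by
  intro r hr
  rw [← List.take_append_drop 2 (CT.commWords zw 4)] at hr
  rcases List.mem_append.1 hr with h | h
  · exact cov_rels _ (by decide +kernel) tab_zc1 r h
  · exact cov_rels _ (by decide +kernel) tab_zc2 r h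

theorem ζ_central : ∀ x, ζ * x = x * ζ :=
  CT.central_of_gens (gl l) 8 gen8 ζ (CT.comm_of_words (gl l) (gl_inv l) zw 4 hzc)

theorem card_cov : Nat.card ↥(CP.cov gsM qs) = 5322240 := by
  have h := CT.card_cover (CP.covπ gsM qs) π_surj 12 (by rw [card_M22]; exact card_dvd) ζ ζ_ker
    ζ_ord
  rw [h, card_M22]

theorem perfect : commutator ↥(CP.cov gsM qs) = ⊤ :=
  Stem.perfect_of_conj (gl l) (gl_inv l) 4 gen8 cj (by decide)
    (cov_rels _ (by decide +kernel) tab_cj) (cov_rels _ (by decide +kernel) tab_cp)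

/-! ### The prime 3 -/

theorem h3rels : ∀ w ∈ ws3, ev (gl [gl l 8, gl l 10, gl l 12]) w = 1 := by
  intro w hw
  have h1 := CT.ev_sub3 (gl l) (gl_inv l) 4 w (by
    revert w
    decide)
  have h2 := cov_rels x3 (by decide +kernel) tab_x3 (w.map (· + 2 * 4))
    (List.mem_map.2 ⟨w, hw, rfl⟩)
  exact h1.trans h2

theorem hne : gl l 8 * gl l 10 ≠ gl l 10 * gl l 8 := by
  intro h
  have hw : ev (gl l) [8, 10, 9, 11] ≠ 1 := CP.ev_ne_one gsM qs hlen _
    (TP.ev_ne_one 1463 12 cT cL _ _ 14 inv_ok hk _ (by decide +kernel) 1232 (by norm_num) tab_comm)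
  apply hw
  have e9 : gl l 9 = (gl l 8)⁻¹ := Stem.g_iv (gl l) (gl_inv l) 4
  have e11 : gl l 11 = (gl l 10)⁻¹ := Stem.g_iv (gl l) (gl_inv l) 5
  show gl l 8 * (gl l 10 * (gl l 9 * (gl l 11 * 1))) = 1
  rw [e9, e11, mul_one, ← mul_assoc, h]
  group

/-- The cover has trivial Schur multiplier. -/
theorem univ (X : Type) [Group X] [Finite X] (τ : X →* ↥(CP.cov gsM qs))
    (hτ : Function.Surjective τ) (hc : τ.ker ≤ center X) (hd : τ.ker ≤ commutator X) :
    τ.ker = ⊥ := by
  apply Stem.ker_eq_bot_of_primes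
  intro p hp
  by_cases h2 : p = 2
  · subst h2
    exact Chain.two_universal l ps Ls ps_odd valid chained (by rw [card_cov, prodN_eq])
      (by rw [lastK_eq]; exact gen8) hE hW X τ hτ hc hd
  by_cases h3 : p = 3
  · subst h3
    obtain ⟨ha, hb, hca, hcb, hna, hnb⟩ := extra_of_words (gl l 8) (gl l 10) (gl l 12) h3rels
    exact Stem.not_dvd_card_ker_of_extraspecial τ hτ hc hd (gl l 8) (gl l 10) (gl l 12) ha hb hne
      hca hcb hna hnb (by rw [card_cov]; decide)
  · have : Fact p.Prime := ⟨hp⟩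
    exact Stem.not_dvd_card_ker_of_sq τ hc hd p
      (not_sq_dvd (by rw [card_cov]; decide) hp h2 h3)

/-- The Schur multiplier of `M₂₂` is cyclic of order 12. -/
theorem schur22 : HasCyclicSchurMultiplier ↥Spor.M22 12 :=
  Stem.cover_cyclic (CP.covπ gsM qs) π_surj 12 (by rw [card_M22]; exact card_dvd) ζ ζ_ker ζ_ord
    ζ_central perfect univ

end Cfsg.Agent.Helper89.M22c

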