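import Cfsg.Agent.Helper89.MathieuCore

/-!
# The 2-part of the Schur multipliers of `M11`, `M23`, `M24`: lifting and counting (helper89)

`Mathieu.two11`, `Mathieu.two23`, `Mathieu.two24`: a finite group of the right order generated by
elements satisfying the relators of the certificates has no non-trivial central extension with
kernel of exponent 2 inside the commutator subgroup.
-/

set_option autoImplicit false
set_option linter.unusedSectionVars false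

namespace Cfsg.Agent.Helper89.Mathieu

open Subgroup

variable {G X : Type*} [Group G] [Group X]

/-! ### Exact relators -/

theorem ex11_of (g : ℕ → X) (hinv : ∀ j, g j * g (CT2.iv j) = 1) (h0 : g 0 ^ 11 = 1)
    (h2 : g 2 ^ 5 = 1) (h4 : g 4 ^ 5 = 1) (hc : g 2 * g 0 * (g 2)⁻¹ = g 0 ^ 3) :
    ∀ w ∈ M11C.ex, ev g w = 1 := by
  intro w hw
  rw [ex11_eq] at hw
  simp only [List.mem_cons, List.not_mem_nil, or_false] at hw
  rcases hw with rfl | rfl | rfl | rfl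
  · rw [ev_replicate]; exact h0
  · rw [ev_replicate]; exact h2
  · simp only [ev, mul_one]
    rw [g_one g hinv 0 rfl, g_one g hinv 2 rfl]
    have : g 2 * (g 0 * ((g 2)⁻¹ * ((g 0)⁻¹ * ((g 0)⁻¹ * (g 0)⁻¹)))) =
        g 2 * g 0 * (g 2)⁻¹ * (g 0 ^ 3)⁻¹ := by group
    rw [this, hc, mul_inv_cancel]
  · rw [ev_replicate]; exact h4

theorem ex11_facts (g : ℕ → X) (hinv : ∀ j, g j * g (CT2.iv j) = 1)
    (hE : ∀ w ∈ M11C.ex, ev g w = 1) :
    g 0 ^ 11 = 1 ∧ g 2 ^ 5 = 1 ∧ g 4 ^ 5 = 1 ∧ g 2 * g 0 * (g 2)⁻¹ = g 0 ^ 3 := by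
  refine ⟨?_, ?_, ?_, ?_⟩
  · rw [← ev_replicate]; exact hE _ (by decide)
  · rw [← ev_replicate]; exact hE _ (by decide)
  · rw [← ev_replicate]; exact hE _ (by decide)
  · have h := hE [2, 0, 3, 1, 1, 1] (by decide)
    simp only [ev, mul_one] at h
    rw [g_one g hinv 0 rfl, g_one g hinv 2 rfl] at h
    have : g 2 * (g 0 * ((g 2)⁻¹ * ((g 0)⁻¹ * ((g 0)⁻¹ * (g 0)⁻¹)))) =
        g 2 * g 0 * (g 2)⁻¹ * (g 0 ^ 3)⁻¹ := by group
    rw [this] at h
    exact mul_inv_eq_one.1 h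

theorem ex23_of (g : ℕ → X) (hinv : ∀ j, g j * g (CT2.iv j) = 1) (h6 : g 6 ^ 23 = 1)
    (hc : g 0 * g 6 * (g 0)⁻¹ = g 6 ^ 2) : ∀ w ∈ E23, ev g w = 1 := by
  intro w hw
  simp only [E23, List.mem_cons, List.not_mem_nil, or_false] at hw
  rcases hw with rfl | rfl
  · rw [ev_replicate]; exact h6
  · simp only [ev, mul_one]
    rw [g_one g hinv 0 rfl, g_one g hinv 6 rfl]
    have : g 0 * (g 6 * ((g 0)⁻¹ * ((g 6)⁻¹ * (g 6)⁻¹))) =
        g 0 * g 6 * (g 0)⁻¹ * (g 6 ^ 2)⁻¹ := by group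
    rw [this, hc, mul_inv_cancel]

theorem ex23_facts (g : ℕ → X) (hinv : ∀ j, g j * g (CT2.iv j) = 1)
    (hE : ∀ w ∈ E23, ev g w = 1) : g 6 ^ 23 = 1 ∧ g 0 * g 6 * (g 0)⁻¹ = g 6 ^ 2 := by
  refine ⟨?_, ?_⟩
  · rw [← ev_replicate]; exact hE _ (by simp [E23])
  · have h := hE [0, 6, 1, 7, 7] (by simp [E23])
    simp only [ev, mul_one] at h
    rw [g_one g hinv 0 rfl, g_one g hinv 6 rfl] at h
    have : g 0 * (g 6 * ((g 0)⁻¹ * ((g 6)⁻¹ * (g 6)⁻¹))) =
        g 0 * g 6 * (g 0)⁻¹ * (g 6 ^ 2)⁻¹ := by group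
    rw [this] at h
    exact mul_inv_eq_one.1 h

theorem ex24_of (g : ℕ → X) (h8 : g 8 ^ 3 = 1) : ∀ w ∈ E24, ev g w = 1 := by
  intro w hw
  simp only [E24, List.mem_cons, List.not_mem_nil, or_false] at hw
  subst hw
  rw [ev_replicate]; exact h8

theorem ex24_facts (g : ℕ → X) (hE : ∀ w ∈ E24, ev g w = 1) : g 8 ^ 3 = 1 := by
  rw [← ev_replicate]; exact hE _ (by simp [E24])

/-! ### The side of `G` -/

theorem bot_c (c : G) (hc : c ∈ (⊥ : Subgroup G)) (x : G) : c * x = x * c := by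
  rw [Subgroup.mem_bot.1 hc, one_mul, mul_one]

theorem bot_s (c : G) (hc : c ∈ (⊥ : Subgroup G)) : c * c = 1 := by
  rw [Subgroup.mem_bot.1 hc, one_mul]

theorem mem_bot_of (gG : ℕ → G) {ws : List (List ℕ)} (h : ∀ w ∈ ws, ev gG w = 1) :
    ∀ w ∈ ws, ev gG w ∈ (⊥ : Subgroup G) := fun w hw => by
  rw [h w hw]; exact Subgroup.one_mem _

theorem gside11 [Finite G] (gG : ℕ → G) (hinv : ∀ j, gG j * gG (CT2.iv j) = 1)
    (hE11 : ∀ w ∈ M11C.ex, ev gG w = 1) (hW11 : ∀ w ∈ M11C.ws, ev gG w = 1) :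
    Nat.card (closure (gG '' Set.Iio 6)) ∣ 7920 :=
  (core11 gG hinv ⊥ bot_c bot_s hE11 (mem_bot_of gG hW11)).2

theorem gside23 [Finite G] (gG : ℕ → G) (hinv : ∀ j, gG j * gG (CT2.iv j) = 1)
    (hcard : 10200960 ∣ Nat.card (closure (gG '' Set.Iio 8)))
    (hE11 : ∀ w ∈ M11C.ex, ev gG w = 1) (hW11 : ∀ w ∈ M11C.ws, ev gG w = 1)
    (hE23 : ∀ w ∈ E23, ev gG w = 1) (hW23 : ∀ w ∈ M23C.ws, ev gG w = 1) :
    Nat.card (closure (gG '' Set.Iio 6)) = 7920 := by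
  have h1 := gside11 gG hinv hE11 hW11
  have h2 := (core23 gG hinv ⊥ bot_c bot_s hE11 (mem_bot_of gG hW11) hE23 (mem_bot_of gG hW23)
    (fun c _ hc => Subgroup.mem_bot.1 hc)).2.2
  have h3 : 1288 * 7920 ∣ 1288 * Nat.card (closure (gG '' Set.Iio 6)) := by
    have : (10200960 : ℕ) = 1288 * 7920 := by norm_num
    rw [← this]
    exact hcard.trans h2
  exact Nat.dvd_antisymm h1 (Nat.dvd_of_mul_dvd_mul_left (by norm_num) h3)

theorem gside24 [Finite G] (gG : ℕ → G) (hinv : ∀ j, gG j * gG (CT2.iv j) = 1)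
    (hcard : 244823040 ∣ Nat.card (closure (gG '' Set.Iio 10)))
    (hE11 : ∀ w ∈ M11C.ex, ev gG w = 1) (hW11 : ∀ w ∈ M11C.ws, ev gG w = 1)
    (hE23 : ∀ w ∈ E23, ev gG w = 1) (hW23 : ∀ w ∈ M23C.ws, ev gG w = 1)
    (hE24 : ∀ w ∈ E24, ev gG w = 1) (hW24 : ∀ w ∈ M24C.ws, ev gG w = 1) :
    10200960 ∣ Nat.card (closure (gG '' Set.Iio 8)) := by
  have h2 := core24 gG hinv ⊥ bot_c bot_s hE11 (mem_bot_of gG hW11) hE23 (mem_bot_of gG hW23)
    hE24 (mem_bot_of gG hW24) (fun c _ hc => Subgroup.mem_bot.1 hc)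
    (fun c _ hc => Subgroup.mem_bot.1 hc)
  have h3 : 24 * 10200960 ∣ 24 * Nat.card (closure (gG '' Set.Iio 8)) := by
    have : (244823040 : ℕ) = 24 * 10200960 := by norm_num
    rw [← this]
    exact hcard.trans h2
  exact Nat.dvd_of_mul_dvd_mul_left (by norm_num) h3

/-! ### The side of `X` -/

section xside

variable [Finite X] [Finite G] (τ : X →* G)
  (hker : ∀ x, τ x = 1 → x ∈ center X ∧ x * x = 1) (g : ℕ → X) (gG : ℕ → G)
  (hinv : ∀ j, g j * g (CT2.iv j) = 1) (hg : ∀ j, τ (g j) = gG j)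

include hker hinv hg

theorem kc (c : X) (hc : c ∈ τ.ker) (x : X) : c * x = x * c :=
  (Subgroup.mem_center_iff.1 (hker c (MonoidHom.mem_ker.1 hc)).1 x).symm

theorem ks (c : X) (hc : c ∈ τ.ker) : c * c = 1 := (hker c (MonoidHom.mem_ker.1 hc)).2

theorem mem_ker_of {ws : List (List ℕ)} (h : ∀ w ∈ ws, ev gG w = 1) :
    ∀ w ∈ ws, ev g w ∈ τ.ker := fun w hw => by
  rw [MonoidHom.mem_ker, Lift.map_ev' τ g gG hg]; exact h w hw

theorem inj_level (k N : ℕ) (h1 : Nat.card (closure (g '' Set.Iio k)) ∣ N) (hN : 0 < N)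
    (h2 : N ∣ Nat.card (closure (gG '' Set.Iio k))) :
    ∀ c ∈ closure (g '' Set.Iio k), c ∈ τ.ker → c = 1 := by
  intro c hc hcK
  apply Lift.inj_of_card_le τ (closure (g '' Set.Iio k)) ?_ c hc (MonoidHom.mem_ker.1 hcK)
  rw [Lift.map_closure_image τ g gG hg]
  exact (Nat.le_of_dvd hN h1).trans (Nat.le_of_dvd Nat.card_pos h2)

theorem xside11 (hE11 : ∀ w ∈ M11C.ex, ev g w = 1) (hW11 : ∀ w ∈ M11C.ws, ev gG w = 1) :
    Nat.card (closure (g '' Set.Iio 6)) ∣ 7920 :=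
  (core11 g hinv τ.ker (kc τ hker g gG hinv hg) (ks τ hker g gG hinv hg) hE11
    (mem_ker_of τ hker g gG hinv hg hW11)).2

theorem xside23 (hc6 : 7920 ∣ Nat.card (closure (gG '' Set.Iio 6)))
    (hE11 : ∀ w ∈ M11C.ex, ev g w = 1) (hW11 : ∀ w ∈ M11C.ws, ev gG w = 1)
    (hE23 : ∀ w ∈ E23, ev g w = 1) (hW23 : ∀ w ∈ M23C.ws, ev gG w = 1) :
    Nat.card (closure (g '' Set.Iio 8)) ∣ 10200960 := by
  have h6 := xside11 τ hker g gG hinv hg hE11 hW11
  have h := (core23 g hinv τ.ker (kc τ hker g gG hinv hg) (ks τ hker g gG hinv hg) hE11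
    (mem_ker_of τ hker g gG hinv hg hW11) hE23 (mem_ker_of τ hker g gG hinv hg hW23)
    (inj_level τ hker g gG hinv hg 6 7920 h6 (by norm_num) hc6)).2.2
  refine h.trans ?_
  have := Nat.mul_dvd_mul_left 1288 h6
  simpa using this

theorem xside24 (hc6 : 7920 ∣ Nat.card (closure (gG '' Set.Iio 6)))
    (hc8 : 10200960 ∣ Nat.card (closure (gG '' Set.Iio 8)))
    (hE11 : ∀ w ∈ M11C.ex, ev g w = 1) (hW11 : ∀ w ∈ M11C.ws, ev gG w = 1)
    (hE23 : ∀ w ∈ E23, ev g w = 1) (hW23 : ∀ w ∈ M23C.ws, ev gG w = 1)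
    (hE24 : ∀ w ∈ E24, ev g w = 1) (hW24 : ∀ w ∈ M24C.ws, ev gG w = 1) :
    Nat.card (closure (g '' Set.Iio 10)) ∣ 244823040 := by
  have h6 := xside11 τ hker g gG hinv hg hE11 hW11
  have h8 := xside23 τ hker g gG hinv hg hc6 hE11 hW11 hE23 hW23
  have h := core24 g hinv τ.ker (kc τ hker g gG hinv hg) (ks τ hker g gG hinv hg) hE11
    (mem_ker_of τ hker g gG hinv hg hW11) hE23 (mem_ker_of τ hker g gG hinv hg hW23)
    hE24 (mem_ker_of τ hker g gG hinv hg hW24)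
    (inj_level τ hker g gG hinv hg 6 7920 h6 (by norm_num) hc6)
    (inj_level τ hker g gG hinv hg 8 10200960 h8 (by norm_num) hc8)
  refine h.trans ?_
  have := Nat.mul_dvd_mul_left 24 h8
  simpa using this

end xside

/-! ### The three groups -/

section main

variable [Finite G] [Finite X]

/-- `M11`: no central extension with kernel of exponent 2 inside the commutator subgroup. -/
theorem two11 (a b t : G) (hcard : Nat.card G = 7920)
    (hgen : closure (gl [a, b, t] '' Set.Iio 6) = ⊤)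
    (hE11 : ∀ w ∈ M11C.ex, ev (gl [a, b, t]) w = 1)
    (hW11 : ∀ w ∈ M11C.ws, ev (gl [a, b, t]) w = 1)
    (τ : X →* G) (hτ : Function.Surjective τ)
    (hker : ∀ x, τ x = 1 → x ∈ center X ∧ x * x = 1) (hd : τ.ker ≤ commutator X) :
    ∀ x, τ x = 1 → x = 1 := by
  obtain ⟨h0, h2, h4, hc⟩ := ex11_facts (gl [a, b, t]) (gl_inv _) hE11
  change a ^ 11 = 1 at h0
  change b ^ 5 = 1 at h2
  change t ^ 5 = 1 at h4
  change b * a * b⁻¹ = a ^ 3 at hc
  obtain ⟨a', hA, ha'⟩ := Lift.exists_odd_lift τ hτ hker (by decide : Odd 11) h0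
  obtain ⟨b', hB, hb'⟩ := Lift.exists_odd_lift τ hτ hker (by decide : Odd 5) h2
  obtain ⟨t', hT, ht'⟩ := Lift.exists_odd_lift τ hτ hker (by decide : Odd 5) h4
  have hc' : b' * a' * b'⁻¹ = a' ^ 3 :=
    Lift.conj_lift τ hker (by decide : Odd 11) ha' (by rw [hA, hB]; exact hc)
  have hg : ∀ j, τ (gl [a', b', t'] j) = gl [a, b, t] j := by
    intro j
    rw [map_gl]
    simp only [List.map_cons, List.map_nil, hA, hB, hT]
  have hE := ex11_of (gl [a', b', t']) (gl_inv _) ha' hb' ht' hc'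
  have hX := xside11 τ hker _ _ (gl_inv _) hg hE hW11
  exact Lift.ker_trivial_of_lifts τ hker hd (closure (gl [a', b', t'] '' Set.Iio 6))
    (by rw [Lift.map_closure_image τ _ _ hg, hgen])
    (by rw [hcard]; exact Nat.le_of_dvd (by norm_num) hX)

/-- `M23`: no central extension with kernel of exponent 2 inside the commutator subgroup. -/
theorem two23 (a b t u : G) (hcard : Nat.card G = 10200960)
    (hgen : closure (gl [a, b, t, u] '' Set.Iio 8) = ⊤)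
    (hE11 : ∀ w ∈ M11C.ex, ev (gl [a, b, t, u]) w = 1)
    (hW11 : ∀ w ∈ M11C.ws, ev (gl [a, b, t, u]) w = 1)
    (hE23 : ∀ w ∈ E23, ev (gl [a, b, t, u]) w = 1)
    (hW23 : ∀ w ∈ M23C.ws, ev (gl [a, b, t, u]) w = 1)
    (τ : X →* G) (hτ : Function.Surjective τ)
    (hker : ∀ x, τ x = 1 → x ∈ center X ∧ x * x = 1) (hd : τ.ker ≤ commutator X) :
    ∀ x, τ x = 1 → x = 1 := by
  obtain ⟨h0, h2, h4, hc⟩ := ex11_facts (gl [a, b, t, u]) (gl_inv _) hE11
  obtain ⟨h6, hcu⟩ := ex23_facts (gl [a, b, t, u]) (gl_inv _) hE23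
  change a ^ 11 = 1 at h0
  change b ^ 5 = 1 at h2
  change t ^ 5 = 1 at h4
  change b * a * b⁻¹ = a ^ 3 at hc
  change u ^ 23 = 1 at h6
  change a * u * a⁻¹ = u ^ 2 at hcu
  obtain ⟨a', hA, ha'⟩ := Lift.exists_odd_lift τ hτ hker (by decide : Odd 11) h0
  obtain ⟨b', hB, hb'⟩ := Lift.exists_odd_lift τ hτ hker (by decide : Odd 5) h2
  obtain ⟨t', hT, ht'⟩ := Lift.exists_odd_lift τ hτ hker (by decide : Odd 5) h4
  obtain ⟨u', hU, hu'⟩ := Lift.exists_odd_lift τ hτ hker (by decide : Odd 23) h6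
  have hc' : b' * a' * b'⁻¹ = a' ^ 3 :=
    Lift.conj_lift τ hker (by decide : Odd 11) ha' (by rw [hA, hB]; exact hc)
  have hcu' : a' * u' * a'⁻¹ = u' ^ 2 :=
    Lift.conj_lift τ hker (by decide : Odd 23) hu' (by rw [hA, hU]; exact hcu)
  have hg : ∀ j, τ (gl [a', b', t', u'] j) = gl [a, b, t, u] j := by
    intro j
    rw [map_gl]
    simp only [List.map_cons, List.map_nil, hA, hB, hT, hU]
  have hE := ex11_of (gl [a', b', t', u']) (gl_inv _) ha' hb' ht' hc'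
  have hE' := ex23_of (gl [a', b', t', u']) (gl_inv _) hu' hcu'
  have hc6 := gside23 (gl [a, b, t, u]) (gl_inv _)
    (by rw [hgen, Subgroup.card_top, hcard]) hE11 hW11 hE23 hW23
  have hX := xside23 τ hker _ _ (gl_inv _) hg (by rw [hc6]) hE hW11 hE' hW23
  exact Lift.ker_trivial_of_lifts τ hker hd (closure (gl [a', b', t', u'] '' Set.Iio 8))
    (by rw [Lift.map_closure_image τ _ _ hg, hgen])
    (by rw [hcard]; exact Nat.le_of_dvd (by norm_num) hX)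

/-- `M24`: no central extension with kernel of exponent 2 inside the commutator subgroup. -/
theorem two24 (a b t u v : G) (hcard : Nat.card G = 244823040)
    (hgen : closure (gl [a, b, t, u, v] '' Set.Iio 10) = ⊤)
    (hE11 : ∀ w ∈ M11C.ex, ev (gl [a, b, t, u, v]) w = 1)
    (hW11 : ∀ w ∈ M11C.ws, ev (gl [a, b, t, u, v]) w = 1)
    (hE23 : ∀ w ∈ E23, ev (gl [a, b, t, u, v]) w = 1)
    (hW23 : ∀ w ∈ M23C.ws, ev (gl [a, b, t, u, v]) w = 1)
    (hE24 : ∀ w ∈ E24, ev (gl [a, b, t, u, v]) w = 1)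
    (hW24 : ∀ w ∈ M24C.ws, ev (gl [a, b, t, u, v]) w = 1)
    (τ : X →* G) (hτ : Function.Surjective τ)
    (hker : ∀ x, τ x = 1 → x ∈ center X ∧ x * x = 1) (hd : τ.ker ≤ commutator X) :
    ∀ x, τ x = 1 → x = 1 := by
  obtain ⟨h0, h2, h4, hc⟩ := ex11_facts (gl [a, b, t, u, v]) (gl_inv _) hE11
  obtain ⟨h6, hcu⟩ := ex23_facts (gl [a, b, t, u, v]) (gl_inv _) hE23
  have h8 := ex24_facts (gl [a, b, t, u, v]) hE24
  change a ^ 11 = 1 at h0
  change b ^ 5 = 1 at h2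
  change t ^ 5 = 1 at h4
  change b * a * b⁻¹ = a ^ 3 at hc
  change u ^ 23 = 1 at h6
  change a * u * a⁻¹ = u ^ 2 at hcu
  change v ^ 3 = 1 at h8
  obtain ⟨a', hA, ha'⟩ := Lift.exists_odd_lift τ hτ hker (by decide : Odd 11) h0
  obtain ⟨b', hB, hb'⟩ := Lift.exists_odd_lift τ hτ hker (by decide : Odd 5) h2
  obtain ⟨t', hT, ht'⟩ := Lift.exists_odd_lift τ hτ hker (by decide : Odd 5) h4
  obtain ⟨u', hU, hu'⟩ := Lift.exists_odd_lift τ hτ hker (by decide : Odd 23) h6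
  obtain ⟨v', hV, hv'⟩ := Lift.exists_odd_lift τ hτ hker (by decide : Odd 3) h8
  have hc' : b' * a' * b'⁻¹ = a' ^ 3 :=
    Lift.conj_lift τ hker (by decide : Odd 11) ha' (by rw [hA, hB]; exact hc)
  have hcu' : a' * u' * a'⁻¹ = u' ^ 2 :=
    Lift.conj_lift τ hker (by decide : Odd 23) hu' (by rw [hA, hU]; exact hcu)
  have hg : ∀ j, τ (gl [a', b', t', u', v'] j) = gl [a, b, t, u, v] j := by
    intro j
    rw [map_gl]
    simp only [List.map_cons, List.map_nil, hA, hB, hT, hU, hV]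
  have hE := ex11_of (gl [a', b', t', u', v']) (gl_inv _) ha' hb' ht' hc'
  have hE' := ex23_of (gl [a', b', t', u', v']) (gl_inv _) hu' hcu'
  have hE'' := ex24_of (gl [a', b', t', u', v']) hv'
  have hc8 := gside24 (gl [a, b, t, u, v]) (gl_inv _)
    (by rw [hgen, Subgroup.card_top, hcard]) hE11 hW11 hE23 hW23 hE24 hW24
  have hc6 := gside23 (gl [a, b, t, u, v]) (gl_inv _) hc8 hE11 hW11 hE23 hW23
  have hX := xside24 τ hker _ _ (gl_inv _) hg (by rw [hc6]) hc8 hE hW11 hE' hW23 hE'' hW24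
  exact Lift.ker_trivial_of_lifts τ hker hd (closure (gl [a', b', t', u', v'] '' Set.Iio 10))
    (by rw [Lift.map_closure_image τ _ _ hg, hgen])
    (by rw [hcard]; exact Nat.le_of_dvd (by norm_num) hX)

end main

end Cfsg.Agent.Helper89.Mathieu
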