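import Cfsg.Agent.Helper89.MConcBase
import Cfsg.Agent.Helper89.MathieuTwo
import Cfsg.Agent.Helper89.Stem
import Cfsg.Agent.Helper91.M11Chain

/-!
# The Mathieu group `M₁₁`: trivial Schur multiplier (helper89)

Explicit generators (by table codes) satisfying the relators of the coset-enumeration chain, and
the local data for the prime 3; then the Schur multiplier is trivial.
-/

set_option autoImplicit false

namespace Cfsg.Agent.Helper89.MConc

open Cfsg Subgroup

def cs11 : List (ℕ × ℕ) := [(0xbaecaaa68899e468960478dc268580, 0xbd6717b56939461b52507314831040), (0xbd9f328dc489c26a2d2cac94d44040, 0xbd8eba19e2ac4885152373270905a0), (0x5da8abcaa18cc702bdac3a1c2224c0, 0x9da35749ec51528bd0463856369200)]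

theorem cs11_ok : pairsOK cs11 = true := by decide +kernel

theorem a11_mem : Helper7.permOf 0xbaecaaa68899e468960478dc268580 ∈ Spor.M11 :=
  mem_M11_of_code (by decide +kernel) (by decide +kernel) (by decide +kernel)

noncomputable def a11 : ↥Spor.M11 := ⟨Helper7.permOf 0xbaecaaa68899e468960478dc268580, a11_mem⟩

theorem b11_mem : Helper7.permOf 0xbd9f328dc489c26a2d2cac94d44040 ∈ Spor.M11 :=
  mem_M11_of_code (by decide +kernel) (by decide +kernel) (by decide +kernel)

noncomputable def b11 : ↥Spor.M11 := ⟨Helper7.permOf 0xbd9f328dc489c26a2d2cac94d44040, b11_mem⟩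

theorem t11_mem : Helper7.permOf 0x5da8abcaa18cc702bdac3a1c2224c0 ∈ Spor.M11 :=
  mem_M11_of_code (by decide +kernel) (by decide +kernel) (by decide +kernel)

noncomputable def t11 : ↥Spor.M11 := ⟨Helper7.permOf 0x5da8abcaa18cc702bdac3a1c2224c0, t11_mem⟩

theorem hl11 : [a11, b11, t11].map (Spor.M11).subtype = permsOf cs11 := rfl

theorem E11 : ∀ w ∈ M11C.ex, ev (gl [a11, b11, t11]) w = 1 :=
  rels_hold _ _ cs11 hl11 cs11_ok M11C.ex (by decide +kernel)

theorem W11 : ∀ w ∈ M11C.ws, ev (gl [a11, b11, t11]) w = 1 :=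
  rels_hold _ _ cs11 hl11 cs11_ok M11C.ws (by decide +kernel)

theorem gen11 : closure (gl [a11, b11, t11] '' Set.Iio 6) = ⊤ := by
  refine closure_eq_top _ _ cs11 hl11 cs11_ok 6
    {Helper7.gDbl, cubeTwist, Helper7.gU11} Helper7.M11_le ?_
  intro s hs
  simp only [Set.mem_insert_iff, Set.mem_singleton_iff] at hs
  rcases hs with rfl | rfl | rfl
  · refine ⟨[1], by decide, ?_⟩
    rw [show evC (flat cs11) [1] = Helper7.cDbl by decide +kernel]
    exact Helper7.isTbl_gDbl
  · refine ⟨[2, 0, 0], by decide, ?_⟩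
    rw [show evC (flat cs11) [2, 0, 0] = Helper7.cC by decide +kernel]
    exact Helper7.isTbl_cubeTwist
  · refine ⟨[1, 2, 2, 5, 2, 5], by decide, ?_⟩
    rw [show evC (flat cs11) [1, 2, 2, 5, 2, 5] = Helper7.cU11 by decide +kernel]
    exact Helper7.isTbl_gU11

/-! ### The prime 3 -/

def ct11 : List (ℕ × ℕ) := [(0xbda6f28e2d750493acd2532a444020, 0xbd8aeaa222a3e0651d835a66493420), (0xb44b4ab2f27b8703ada650a644a020, 0x8de742c2cc7b93251c625a2a469820), (0xbd8f45a22273da699532ab1411c080, 0xbd8f45a22273da699532ab1411c080)]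

theorem ct11_ok : pairsOK ct11 = true := by decide +kernel

theorem x11_mem : Helper7.permOf 0xbda6f28e2d750493acd2532a444020 ∈ Spor.M11 :=
  mem_M11_of_code (by decide +kernel) (by decide +kernel) (by decide +kernel)

noncomputable def x11 : ↥Spor.M11 := ⟨Helper7.permOf 0xbda6f28e2d750493acd2532a444020, x11_mem⟩

theorem y11_mem : Helper7.permOf 0xb44b4ab2f27b8703ada650a644a020 ∈ Spor.M11 :=
  mem_M11_of_code (by decide +kernel) (by decide +kernel) (by decide +kernel)

noncomputable def y11 : ↥Spor.M11 := ⟨Helper7.permOf 0xb44b4ab2f27b8703ada650a644a020, y11_mem⟩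

theorem s11_mem : Helper7.permOf 0xbd8f45a22273da699532ab1411c080 ∈ Spor.M11 :=
  mem_M11_of_code (by decide +kernel) (by decide +kernel) (by decide +kernel)

noncomputable def s11 : ↥Spor.M11 := ⟨Helper7.permOf 0xbd8f45a22273da699532ab1411c080, s11_mem⟩

theorem ht11 : [x11, y11, s11].map (Spor.M11).subtype = permsOf ct11 := rfl

theorem R11 : ∀ w ∈ ws2, ev (gl [x11, y11, s11]) w = 1 :=
  rels_hold _ _ ct11 ht11 ct11_ok ws2 (by decide +kernel)

theorem x11_ne : x11 ≠ 1 := fun h =>
  ev_ne_one _ [x11, y11, s11] ct11 ht11 ct11_ok [0] 2 (by norm_num) (by decide +kernel)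
    (by rw [show ev (gl [x11, y11, s11]) [0] = x11 * 1 from rfl, h, mul_one])

theorem y11_ne : y11 ≠ 1 := fun h =>
  ev_ne_one _ [x11, y11, s11] ct11 ht11 ct11_ok [2] 2 (by norm_num) (by decide +kernel)
    (by rw [show ev (gl [x11, y11, s11]) [2] = y11 * 1 from rfl, h, mul_one])

theorem y11_ne_x : y11 ≠ x11 := fun h =>
  ev_ne_ev _ [x11, y11, s11] ct11 ht11 ct11_ok [2] [0] 2 (by norm_num) (by decide +kernel)
    (by rw [show ev (gl [x11, y11, s11]) [2] = y11 * 1 from rfl, show ev (gl [x11, y11, s11]) [0] = x11 * 1 from rfl, h])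

theorem y11_ne_xinv : y11 ≠ x11⁻¹ := fun h =>
  ev_ne_ev _ [x11, y11, s11] ct11 ht11 ct11_ok [2] [1] 2 (by norm_num) (by decide +kernel)
    (by rw [show ev (gl [x11, y11, s11]) [2] = y11 * 1 from rfl, show ev (gl [x11, y11, s11]) [1] = x11⁻¹ * 1 from rfl, h])

/-- The Schur multiplier of the group is trivial. -/
theorem schur11 : HasCyclicSchurMultiplier ↥Spor.M11 1 := by
  apply Stem.hasCyclicSchurMultiplier_one
  intro Γ _ _ σ hσ
  obtain ⟨hsurj, hc, hd⟩ := hσ
  apply Stem.ker_eq_bot_of_primes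
  intro p hp
  by_cases h2 : p = 2
  · subst h2
    exact Stem.two_not_dvd_card_ker σ hsurj hc hd (fun X _ _ τ hτ hker hd' =>
      Mathieu.two11 a11 b11 t11 Helper91.card_M11 gen11 E11 W11 τ hτ hker hd')
  by_cases h3 : p = 3
  · subst h3
    have : Fact (Nat.Prime 3) := ⟨Nat.prime_three⟩
    obtain ⟨ha, hb, hab, hta, htb⟩ := rank_two_of_words x11 y11 s11 R11
    exact Stem.not_dvd_card_ker_of_rank_two σ hsurj hc hd 3 (by decide) x11 y11 s11 ha hb x11_ne
      (not_mem_zpowers_of ha y11_ne y11_ne_x y11_ne_xinv) hab hta htb (by rw [Helper91.card_M11]; decide)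
  · have : Fact p.Prime := ⟨hp⟩
    exact Stem.not_dvd_card_ker_of_sq σ hc hd p
      (not_sq_dvd (by rw [Helper91.card_M11]; decide) hp h2 h3)

end Cfsg.Agent.Helper89.MConc
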