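import Cfsg.Agent.Helper89.Stem

/-!
# Schur multiplier of order 2 from an explicit double cover (helper89)

`Stem.card_ker_dvd_of_cover`: let `π : Γ₀ →* G` be a surjection from a finite perfect group
which is "2-universal" (every finite stem extension of `Γ₀` has kernel of odd order), and let
`σ : Γ →* G` be a finite stem extension whose kernel has no odd prime divisor.  Then `|ker σ|`
divides `|ker π|`.  Proof: the commutator subgroup `D` of the fibre product of `σ` and `π` is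
perfect, maps onto `Γ` and onto `Γ₀`, and `D → Γ₀` is a stem extension, hence an isomorphism.

`Stem.hasCyclicSchurMultiplier_two` packages this into `HasCyclicSchurMultiplier G 2`.
-/

set_option autoImplicit false

namespace Cfsg.Agent.Helper89.Stem

open Subgroup Cfsg
open scoped commutatorElement

universe u v

section cover

variable {Γ Γ₀ : Type u} {G : Type v} [Group Γ] [Group Γ₀] [Group G]

/-- The fibre product of two homomorphisms. -/
def pull (σ : Γ →* G) (π : Γ₀ →* G) : Subgroup (Γ × Γ₀) where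
  carrier := {x | σ x.1 = π x.2}
  mul_mem' := by
    intro a b ha hb
    simp only [Set.mem_ofPred_eq, Prod.fst_mul, Prod.snd_mul, map_mul] at *
    rw [ha, hb]
  one_mem' := by simp
  inv_mem' := by
    intro a ha
    simp only [Set.mem_ofPred_eq, Prod.fst_inv, Prod.snd_inv, map_inv] at *
    rw [ha]

theorem perfect_of_surjective {A B : Type*} [Group A] [Group B] (f : A →* B)
    (hf : Function.Surjective f) (h : commutator A = ⊤) : commutator B = ⊤ := by
  have h1 : (commutator A).map f = commutator B := by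
    rw [commutator_def, Subgroup.map_commutator, Subgroup.map_top_of_surjective f hf,
      ← commutator_def]
  rw [← h1, h, Subgroup.map_top_of_surjective f hf]

theorem perfect_of_stem (σ : Γ →* G) (hσ : Function.Surjective σ)
    (hd : σ.ker ≤ commutator Γ) (hG : commutator G = ⊤) : commutator Γ = ⊤ := by
  rw [eq_top_iff]
  intro x _
  have h1 : σ x ∈ (commutator Γ).map σ := by
    rw [commutator_def, Subgroup.map_commutator, Subgroup.map_top_of_surjective σ hσ,
      ← commutator_def, hG]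
    trivial
  obtain ⟨c, hc, hcx⟩ := h1
  have h2 : c⁻¹ * x ∈ σ.ker := by
    rw [MonoidHom.mem_ker, map_mul, map_inv, hcx, inv_mul_cancel]
  have := mul_mem hc (hd h2)
  rwa [mul_inv_cancel_left] at this

theorem card_ker_mul (σ : Γ →* G) (hσ : Function.Surjective σ) :
    Nat.card σ.ker * Nat.card G = Nat.card Γ := by
  have := Subgroup.card_mul_index σ.ker
  rwa [Subgroup.index_ker, MonoidHom.range_eq_top.2 hσ, Subgroup.card_top] at this

theorem card_ker_dvd_of_cover [Finite Γ] [Finite Γ₀]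
    (σ : Γ →* G) (hσ : Function.Surjective σ) (hσc : σ.ker ≤ center Γ)
    (hσd : σ.ker ≤ commutator Γ)
    (π : Γ₀ →* G) (hπ : Function.Surjective π) (hperf : commutator Γ₀ = ⊤)
    (h2 : ∀ (X : Type u) [Group X] [Finite X] (τ : X →* Γ₀), Function.Surjective τ →
      τ.ker ≤ center X → τ.ker ≤ commutator X → ¬ 2 ∣ Nat.card τ.ker)
    (hodd : ∀ p : ℕ, p.Prime → p ≠ 2 → ¬ p ∣ Nat.card σ.ker) :
    Nat.card σ.ker ∣ Nat.card π.ker := by
  classical
  have hG : commutator G = ⊤ := perfect_of_surjective π hπ hperf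
  have hΓ : commutator Γ = ⊤ := perfect_of_stem σ hσ hσd hG
  obtain ⟨P, hP⟩ : ∃ P : Subgroup (Γ × Γ₀), P = pull σ π := ⟨_, rfl⟩
  have hPmem : ∀ x : Γ × Γ₀, x ∈ P → σ x.1 = π x.2 := fun x hx => by
    rw [hP] at hx; exact hx
  obtain ⟨D, hD⟩ : ∃ D : Subgroup (Γ × Γ₀), D = ⁅P, P⁆ := ⟨_, rfl⟩
  have hDP : D ≤ P := by
    rw [hD, Subgroup.commutator_le]
    intro g₁ h₁ g₂ h₂
    rw [commutatorElement_def]
    exact P.mul_mem (P.mul_mem (P.mul_mem h₁ h₂) (P.inv_mem h₁)) (P.inv_mem h₂)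
  have hPsnd : P.map (MonoidHom.snd Γ Γ₀) = ⊤ := by
    rw [eq_top_iff]
    intro y _
    obtain ⟨x, hx⟩ := hσ (π y)
    exact ⟨(x, y), by rw [hP]; exact hx, rfl⟩
  have hPfst : P.map (MonoidHom.fst Γ Γ₀) = ⊤ := by
    rw [eq_top_iff]
    intro x _
    obtain ⟨y, hy⟩ := hπ (σ x)
    exact ⟨(x, y), by rw [hP]; exact hy.symm, rfl⟩
  have hDsnd : D.map (MonoidHom.snd Γ Γ₀) = ⊤ := by
    rw [hD, Subgroup.map_commutator, hPsnd, ← commutator_def, hperf]
  have hDfst : D.map (MonoidHom.fst Γ Γ₀) = ⊤ := by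
    rw [hD, Subgroup.map_commutator, hPfst, ← commutator_def, hΓ]
  obtain ⟨τ, hτdef⟩ : ∃ τ : ↥D →* Γ₀, ∀ d : ↥D, τ d = d.1.2 :=
    ⟨(MonoidHom.snd Γ Γ₀).comp D.subtype, fun _ => rfl⟩
  obtain ⟨ρ, hρdef⟩ : ∃ ρ : ↥D →* Γ, ∀ d : ↥D, ρ d = d.1.1 :=
    ⟨(MonoidHom.fst Γ Γ₀).comp D.subtype, fun _ => rfl⟩
  have hτ : Function.Surjective τ := by
    intro y
    have : y ∈ D.map (MonoidHom.snd Γ Γ₀) := by rw [hDsnd]; trivial
    obtain ⟨d, hd, hdy⟩ := this
    exact ⟨⟨d, hd⟩, by rw [hτdef]; exact hdy⟩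
  have hρ : Function.Surjective ρ := by
    intro x
    have : x ∈ D.map (MonoidHom.fst Γ Γ₀) := by rw [hDfst]; trivial
    obtain ⟨d, hd, hdx⟩ := this
    exact ⟨⟨d, hd⟩, by rw [hρdef]; exact hdx⟩
  have hkerσ : ∀ d : ↥D, τ d = 1 → σ d.1.1 = 1 := by
    intro d hd
    rw [hPmem d.1 (hDP d.2), ← hτdef, hd, map_one]
  have cen : ∀ k : Γ, σ k = 1 → ∀ g, k * g = g * k := fun k hk g =>
    (Subgroup.mem_center_iff.1 (hσc (MonoidHom.mem_ker.2 hk)) g).symm
  have hτc : τ.ker ≤ center ↥D := by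
    intro d hd
    rw [Subgroup.mem_center_iff]
    intro g
    have h2' : d.1.2 = 1 := by rw [← hτdef]; exact MonoidHom.mem_ker.1 hd
    apply Subtype.ext
    apply Prod.ext
    · exact (cen d.1.1 (hkerσ d (MonoidHom.mem_ker.1 hd)) g.1.1).symm
    · show g.1.2 * d.1.2 = d.1.2 * g.1.2
      rw [h2', mul_one, one_mul]
  have hle : D ≤ ⁅D, D⁆ := by
    have h0 : ⁅P, P⁆ ≤ ⁅D, D⁆ := by
      rw [Subgroup.commutator_le]
      intro g₁ h₁ g₂ h₂
      have m1 : g₁.2 ∈ D.map (MonoidHom.snd Γ Γ₀) := by rw [hDsnd]; trivial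
      have m2 : g₂.2 ∈ D.map (MonoidHom.snd Γ Γ₀) := by rw [hDsnd]; trivial
      obtain ⟨d₁, hd₁, e₁⟩ := m1
      obtain ⟨d₂, hd₂, e₂⟩ := m2
      have e₁' : d₁.2 = g₁.2 := e₁
      have e₂' : d₂.2 = g₂.2 := e₂
      have k1 : σ (d₁.1⁻¹ * g₁.1) = 1 := by
        rw [map_mul, map_inv, hPmem d₁ (hDP hd₁), hPmem g₁ h₁, e₁', inv_mul_cancel]
      have k2 : σ (d₂.1⁻¹ * g₂.1) = 1 := by
        rw [map_mul, map_inv, hPmem d₂ (hDP hd₂), hPmem g₂ h₂, e₂', inv_mul_cancel]
      have key : ⁅g₁, g₂⁆ = ⁅d₁, d₂⁆ := by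
        rw [commutatorElement_def, commutatorElement_def]
        apply Prod.ext
        · show g₁.1 * g₂.1 * g₁.1⁻¹ * g₂.1⁻¹ = d₁.1 * d₂.1 * d₁.1⁻¹ * d₂.1⁻¹
          have := comm_central_mul (x := d₁.1) (y := d₂.1) (cen _ k1) (cen _ k2)
          rw [mul_inv_cancel_left, mul_inv_cancel_left] at this
          exact this
        · show g₁.2 * g₂.2 * g₁.2⁻¹ * g₂.2⁻¹ = d₁.2 * d₂.2 * d₁.2⁻¹ * d₂.2⁻¹
          rw [e₁', e₂']
      rw [key]
      exact Subgroup.commutator_mem_commutator hd₁ hd₂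
    rw [hD] at h0 ⊢
    exact h0
  have hDperf : commutator ↥D = ⊤ := by
    rw [eq_top_iff]
    intro d _
    have : (d : Γ × Γ₀) ∈ (commutator ↥D).map D.subtype := by
      rw [Subgroup.map_subtype_commutator]; exact hle d.2
    obtain ⟨c, hc, hcd⟩ := this
    have : c = d := Subtype.ext hcd
    rwa [← this]
  have hτd : τ.ker ≤ commutator ↥D := by rw [hDperf]; exact le_top
  have hτker : τ.ker = ⊥ := by
    apply ker_eq_bot_of_primes
    intro p hp
    by_cases hp2 : p = 2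
    · subst hp2; exact h2 ↥D τ hτ hτc hτd
    · intro hdvd
      apply hodd p hp hp2
      let f : τ.ker →* σ.ker :=
        { toFun := fun d => ⟨d.1.1.1, MonoidHom.mem_ker.2 (hkerσ d.1 (MonoidHom.mem_ker.1 d.2))⟩
          map_one' := rfl
          map_mul' := fun _ _ => rfl }
      have hf : Function.Injective f := by
        intro d d' h
        have h1 : d.1.1.1 = d'.1.1.1 := congrArg Subtype.val h
        have h2a : d.1.1.2 = 1 := by rw [← hτdef]; exact MonoidHom.mem_ker.1 d.2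
        have h2b : d'.1.1.2 = 1 := by rw [← hτdef]; exact MonoidHom.mem_ker.1 d'.2
        apply Subtype.ext
        apply Subtype.ext
        apply Prod.ext
        · exact h1
        · rw [h2a, h2b]
      exact hdvd.trans (Subgroup.card_dvd_of_injective f hf)
  have hτinj : Function.Injective τ := (MonoidHom.ker_eq_bot_iff τ).1 hτker
  have hcardD : Nat.card ↥D = Nat.card Γ₀ := Nat.card_congr (Equiv.ofBijective τ ⟨hτinj, hτ⟩)
  have h3 : Nat.card Γ ∣ Nat.card Γ₀ := hcardD ▸ Subgroup.card_dvd_of_surjective ρ hρ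
  have hfin : Finite G := Finite.of_surjective σ hσ
  rw [← card_ker_mul σ hσ, ← card_ker_mul π hπ] at h3
  exact Nat.dvd_of_mul_dvd_mul_right Nat.card_pos h3

end cover

theorem le_center_of_card_two {A : Type*} [Group A] (N : Subgroup A) [hN : N.Normal]
    (h : Nat.card N = 2) : N ≤ center A := by
  intro k hk
  rw [Subgroup.mem_center_iff]
  intro g
  by_cases hk1 : k = 1
  · rw [hk1, mul_one, one_mul]
  · have hc : g * k * g⁻¹ ∈ N := hN.conj_mem k hk g
    obtain ⟨y, _, huniq⟩ := (Nat.card_eq_two_iff' (1 : N)).1 h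
    have e1 : (⟨k, hk⟩ : N) = y := huniq _ (fun h' => hk1 (congrArg Subtype.val h'))
    have e2 : (⟨g * k * g⁻¹, hc⟩ : N) = y := huniq _ (fun h' => hk1 (by
      have : g * k * g⁻¹ = 1 := congrArg Subtype.val h'
      exact conj_eq_one_iff.1 this))
    have : g * k * g⁻¹ = k := congrArg Subtype.val (e2.trans e1.symm)
    exact mul_inv_eq_iff_eq_mul.1 this

theorem exists_surj_of_card (K : Type*) [Group K] (n : ℕ) (h : Nat.card K = n)
    (hc : IsCyclic K) : ∃ π : Multiplicative (ZMod n) →* K, Function.Surjective π := by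
  subst h
  exact ⟨(zmodCyclicMulEquiv hc).toMonoidHom, (zmodCyclicMulEquiv hc).surjective⟩

theorem exists_surj_of_card_dvd_two {K : Type*} [Group K] (h : Nat.card K ∣ 2) :
    ∃ π : Multiplicative (ZMod 2) →* K, Function.Surjective π := by
  rcases (Nat.dvd_prime Nat.prime_two).1 h with h1 | h2
  · have : Subsingleton K := (Nat.card_eq_one_iff_unique.1 h1).1
    exact ⟨1, fun y => ⟨1, Subsingleton.elim _ _⟩⟩
  · have : Fact (Nat.Prime 2) := ⟨Nat.prime_two⟩
    exact exists_surj_of_card K 2 h2 (isCyclic_of_prime_card h2)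

theorem nonempty_mulEquiv_of_card (K : Type*) [Group K] (n : ℕ) (h : Nat.card K = n)
    (hc : IsCyclic K) : Nonempty (K ≃* Multiplicative (ZMod n)) := by
  subst h
  exact ⟨(zmodCyclicMulEquiv hc).symm⟩

/-- Schur multiplier of order 2 from an explicit perfect, 2-universal double cover. -/
theorem hasCyclicSchurMultiplier_two {G Γ₀ : Type u} [Group G] [Group Γ₀] [Finite Γ₀]
    (π : Γ₀ →* G) (hπ : Function.Surjective π) (hcard : Nat.card π.ker = 2)
    (hperf : commutator Γ₀ = ⊤)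
    (h2 : ∀ (X : Type u) [Group X] [Finite X] (τ : X →* Γ₀), Function.Surjective τ →
      τ.ker ≤ center X → τ.ker ≤ commutator X → ¬ 2 ∣ Nat.card τ.ker)
    (hodd : ∀ (Γ : Type u) [Group Γ] [Finite Γ] (σ : Γ →* G), IsStemExtension σ →
      ∀ p : ℕ, p.Prime → p ≠ 2 → ¬ p ∣ Nat.card σ.ker) :
    HasCyclicSchurMultiplier G 2 := by
  have : Fact (Nat.Prime 2) := ⟨Nat.prime_two⟩
  refine ⟨⟨Γ₀, inferInstance, inferInstance, π,
    ⟨hπ, le_center_of_card_two π.ker hcard, by rw [hperf]; exact le_top⟩,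
    nonempty_mulEquiv_of_card _ 2 hcard (isCyclic_of_prime_card hcard)⟩, ?_⟩
  intro Γ _ _ σ hσ
  obtain ⟨hs, hc, hd⟩ := hσ
  have h := card_ker_dvd_of_cover σ hs hc hd π hπ hperf h2 (hodd Γ σ ⟨hs, hc, hd⟩)
  rw [hcard] at h
  exact exists_surj_of_card_dvd_two h

end Cfsg.Agent.Helper89.Stem
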