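import Cfsg.Agent.Helper89.MConcBase
import Cfsg.Agent.Helper89.M12cCore
import Cfsg.Agent.Helper89.StemCover
import Cfsg.Agent.Helper89.Stem3

/-!
# The Mathieu group `M₁₂`: Schur multiplier of order 2 (helper89)

The double cover is realised as the subgroup `cov` of `M₁₂ × Sym(24)` generated by four pairs
`(g, ĝ)`: `g` runs over generators `a, b, t, m` of `M₁₂` (orders 11, 5, 5, 3) and `ĝ` is a
permutation of 24 points (the cosets of the lifted `M₁₁` in the cover).  The first projection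
`covπ` is onto with kernel of order 2; `cov` is perfect and 2-universal (labelled coset
enumeration over `M₁₁`, `Mathieu.two12c`), and the odd part of the multiplier of `M₁₂` is trivial
by transfer.
-/

set_option autoImplicit false

namespace Cfsg.Agent.Helper89.MConc

open Cfsg Subgroup
open scoped commutatorElement

theorem isTbl_map_ev {Γ : Type*} [Group Γ] (φ : Γ →* Equiv.Perm GolayPt) (l : List Γ)
    (cs : List (ℕ × ℕ)) (hl : l.map φ = permsOf cs) (hcs : pairsOK cs = true) (w : List ℕ) :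
    Helper7.IsTbl (φ (ev (gl l) w)) (evC (flat cs) w) := by
  rw [map_ev φ (gl l) w, ev_congr (fun j => map_gl φ l j) w, hl]
  exact isTbl_ev _ (flat cs) (isTbl_gl cs hcs) w

theorem mem_M12_of_code {c : ℕ} (h1 : Helper7.codeM24 c = true)
    (h2 : Helper7.pm c Helper7.dMask = Helper7.dMask) : Helper7.permOf c ∈ Spor.M12 :=
  Helper7.mem_M12_of (Helper7.permOf_mem_M24 h1)
    (Helper7.smul_dMask_of_tbl (Helper7.isTbl_of_codeM24 h1) h2)

theorem card_M12 : Nat.card ↥Spor.M12 = 95040 := by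
  rw [Helper7.M12_eq_G12]
  exact Helper7.card_G12

theorem comm_of_word {G : Type*} [Group G] (g : ℕ → G) (hinv : ∀ j, g j * g (CT2.iv j) = 1)
    (wx wy : List ℕ) (j : ℕ)
    (h : ev g (wx ++ wy ++ CT2.invw wx ++ CT2.invw wy ++ [CT2.iv j]) = 1) :
    g j ∈ commutator G := by
  rw [ev_append, ev_append, ev_append, ev_append, CT2.ev_invw g hinv, CT2.ev_invw g hinv] at h
  have h1 : ev g [CT2.iv j] = (g j)⁻¹ := by
    show g (CT2.iv j) * 1 = (g j)⁻¹
    rw [mul_one]
    exact eq_inv_of_mul_eq_one_right (hinv j)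
  rw [h1] at h
  have h2 : g j = ⁅ev g wx, ev g wy⁆ := by
    rw [commutatorElement_def]
    exact (mul_inv_eq_one.1 h).symm
  rw [h2, _root_.commutator_def]
  exact Subgroup.commutator_mem_commutator (Subgroup.mem_top _) (Subgroup.mem_top _)

/-! ### Generators of `M₁₂` -/

def cs12 : List (ℕ × ℕ) := [(0xbaecaaa68899e468960478dc268580, 0xbd6717b56939461b52507314831040), (0xbd9f328dc489c26a2d2cac94d44040, 0xbd8eba19e2ac4885152373270905a0), (0x5da8abcaa18cc702bdac3a1c2224c0, 0x9da35749ec51528bd0463856369200), (0x2de8a3a56c8cc087d450706cd34864, 0xb1555709e859c908d24c98ee00a4cd)]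

theorem cs12_ok : pairsOK cs12 = true := by decide +kernel

theorem a12_mem : Helper7.permOf 0xbaecaaa68899e468960478dc268580 ∈ Spor.M12 :=
  mem_M12_of_code (by decide +kernel) (by decide +kernel)

noncomputable def a12 : ↥Spor.M12 := ⟨Helper7.permOf 0xbaecaaa68899e468960478dc268580, a12_mem⟩

theorem b12_mem : Helper7.permOf 0xbd9f328dc489c26a2d2cac94d44040 ∈ Spor.M12 :=
  mem_M12_of_code (by decide +kernel) (by decide +kernel)

noncomputable def b12 : ↥Spor.M12 := ⟨Helper7.permOf 0xbd9f328dc489c26a2d2cac94d44040, b12_mem⟩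

theorem t12_mem : Helper7.permOf 0x5da8abcaa18cc702bdac3a1c2224c0 ∈ Spor.M12 :=
  mem_M12_of_code (by decide +kernel) (by decide +kernel)

noncomputable def t12 : ↥Spor.M12 := ⟨Helper7.permOf 0x5da8abcaa18cc702bdac3a1c2224c0, t12_mem⟩

theorem m12_mem : Helper7.permOf 0x2de8a3a56c8cc087d450706cd34864 ∈ Spor.M12 :=
  mem_M12_of_code (by decide +kernel) (by decide +kernel)

noncomputable def m12 : ↥Spor.M12 := ⟨Helper7.permOf 0x2de8a3a56c8cc087d450706cd34864, m12_mem⟩

theorem hl12 : [a12, b12, t12, m12].map (Spor.M12).subtype = permsOf cs12 := rfl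

theorem gen12 : closure (gl [a12, b12, t12, m12] '' Set.Iio 8) = ⊤ := by
  refine closure_eq_top _ _ cs12 hl12 cs12_ok 8
    {Helper7.gDbl, cubeTwist, Helper7.gU11, Helper7.gZ12} Helper7.M12_le ?_
  intro s hs
  simp only [Set.mem_insert_iff, Set.mem_singleton_iff] at hs
  rcases hs with rfl | rfl | rfl | rfl
  · refine ⟨[1], by decide, ?_⟩
    rw [show evC (flat cs12) [1] = Helper7.cDbl by decide +kernel]
    exact Helper7.isTbl_gDbl
  · refine ⟨[2, 0, 0], by decide, ?_⟩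
    rw [show evC (flat cs12) [2, 0, 0] = Helper7.cC by decide +kernel]
    exact Helper7.isTbl_cubeTwist
  · refine ⟨[1, 2, 2, 5, 2, 5], by decide, ?_⟩
    rw [show evC (flat cs12) [1, 2, 2, 5, 2, 5] = Helper7.cU11 by decide +kernel]
    exact Helper7.isTbl_gU11
  · refine ⟨[3, 6, 4, 1, 6, 2], by decide, ?_⟩
    rw [show evC (flat cs12) [3, 6, 4, 1, 6, 2] = Helper7.cZ12 by decide +kernel]
    exact Helper7.isTbl_gZ12

/-! ### The double cover -/

def ch12 : List (ℕ × ℕ) := [(0xad0e67b96a29253bd98d18a304a020, 0x5aaf6634a49c9098c062ad1ee39820), (0xad12829272bd9ac8c0e67b8625a820, 0x7baf68c16a399ac18ab44a27229020), (0x94dee5a9acbd862a55282163031c20, 0x7b94bb5ca4ad2309c92810cc76b020), (0x73d4bbd92894e30399aca5462080a4, 0x9c8c773dacb5d28a56305a82029062)]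

theorem ch12_ok : pairsOK ch12 = true := by decide +kernel

noncomputable def pa12 : ↥Spor.M12 × Equiv.Perm GolayPt := (a12, Helper7.permOf 0xad0e67b96a29253bd98d18a304a020)

noncomputable def pb12 : ↥Spor.M12 × Equiv.Perm GolayPt := (b12, Helper7.permOf 0xad12829272bd9ac8c0e67b8625a820)

noncomputable def pt12 : ↥Spor.M12 × Equiv.Perm GolayPt := (t12, Helper7.permOf 0x94dee5a9acbd862a55282163031c20)

noncomputable def pm12 : ↥Spor.M12 × Equiv.Perm GolayPt := (m12, Helper7.permOf 0x73d4bbd92894e30399aca5462080a4)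

/-- The double cover of `M₁₂`, as a subgroup of `M₁₂ × Sym(24)`. -/
noncomputable def cov : Subgroup (↥Spor.M12 × Equiv.Perm GolayPt) :=
  closure {pa12, pb12, pt12, pm12}

noncomputable def ga : ↥cov := ⟨pa12, subset_closure (by simp)⟩
noncomputable def gb : ↥cov := ⟨pb12, subset_closure (by simp)⟩
noncomputable def gt : ↥cov := ⟨pt12, subset_closure (by simp)⟩
noncomputable def gm : ↥cov := ⟨pm12, subset_closure (by simp)⟩

/-- The covering map. -/
noncomputable def covπ : ↥cov →* ↥Spor.M12 := (MonoidHom.fst _ _).comp cov.subtype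

noncomputable def φ1 : ↥cov →* Equiv.Perm GolayPt := (Spor.M12).subtype.comp covπ

noncomputable def φ2 : ↥cov →* Equiv.Perm GolayPt := (MonoidHom.snd _ _).comp cov.subtype

theorem hφ1 : [ga, gb, gt, gm].map φ1 = permsOf cs12 := rfl

theorem hφ2 : [ga, gb, gt, gm].map φ2 = permsOf ch12 := rfl

theorem hπl : [ga, gb, gt, gm].map covπ = [a12, b12, t12, m12] := rfl

theorem cov_eq_one (x : ↥cov) (h1 : φ1 x = 1) (h2 : φ2 x = 1) : x = 1 :=
  Subtype.ext (Prod.ext (Subtype.ext h1) h2)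

theorem cov_rels (ws : List (List ℕ))
    (h1 : ws.all (fun w => Nat.beq (evC (flat cs12) w) Helper7.idCode) = true)
    (h2 : ws.all (fun w => Nat.beq (evC (flat ch12) w) Helper7.idCode) = true) :
    ∀ w ∈ ws, ev (gl [ga, gb, gt, gm]) w = 1 := by
  intro w hw
  apply cov_eq_one
  · have h := isTbl_map_ev φ1 _ cs12 hφ1 cs12_ok w
    rw [Nat.eq_of_beq_eq_true (List.all_eq_true.1 h1 w hw)] at h
    exact h.eq Helper7.IsTbl.one
  · have h := isTbl_map_ev φ2 _ ch12 hφ2 ch12_ok w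
    rw [Nat.eq_of_beq_eq_true (List.all_eq_true.1 h2 w hw)] at h
    exact h.eq Helper7.IsTbl.one

theorem E11c : ∀ w ∈ M11C.ex, ev (gl [ga, gb, gt, gm]) w = 1 :=
  cov_rels M11C.ex (by decide +kernel) (by decide +kernel)

theorem W11c : ∀ w ∈ M11C.ws, ev (gl [ga, gb, gt, gm]) w = 1 :=
  cov_rels M11C.ws (by decide +kernel) (by decide +kernel)

theorem E12c : ∀ w ∈ Mathieu.E12, ev (gl [ga, gb, gt, gm]) w = 1 :=
  cov_rels Mathieu.E12 (by decide +kernel) (by decide +kernel)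

theorem W12c : ∀ w ∈ M12cC.ws, ev (gl [ga, gb, gt, gm]) w = 1 :=
  cov_rels M12cC.ws (by decide +kernel) (by decide +kernel)

theorem gen_cov : closure (gl [ga, gb, gt, gm] '' Set.Iio 8) = ⊤ := by
  have h : closure (Subtype.val ⁻¹' ({pa12, pb12, pt12, pm12} :
      Set (↥Spor.M12 × Equiv.Perm GolayPt)) : Set ↥cov) = ⊤ :=
    Subgroup.closure_closure_coe_preimage
  rw [eq_top_iff, ← h]
  apply Subgroup.closure_mono
  intro x hx
  simp only [Set.mem_preimage, Set.mem_insert_iff, Set.mem_singleton_iff] at hx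
  rcases hx with h | h | h | h
  · exact ⟨0, by norm_num, Subtype.ext h.symm⟩
  · exact ⟨2, by norm_num, Subtype.ext h.symm⟩
  · exact ⟨4, by norm_num, Subtype.ext h.symm⟩
  · exact ⟨6, by norm_num, Subtype.ext h.symm⟩

theorem covπ_surj : Function.Surjective covπ := by
  rw [← MonoidHom.range_eq_top, eq_top_iff, ← gen12, closure_le]
  rintro _ ⟨j, _, rfl⟩
  refine ⟨gl [ga, gb, gt, gm] j, ?_⟩
  rw [map_gl, hπl]

def commWords : List (List ℕ) := [[2] ++ [1, 3, 1] ++ CT2.invw [2] ++ CT2.invw [1, 3, 1] ++ [CT2.iv 0],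
  [3, 0] ++ [0, 0, 4, 4] ++ CT2.invw [3, 0] ++ CT2.invw [0, 0, 4, 4] ++ [CT2.iv 2],
  [2] ++ [6, 0, 2, 7] ++ CT2.invw [2] ++ CT2.invw [6, 0, 2, 7] ++ [CT2.iv 4],
  [0, 3, 3] ++ [0, 6, 3] ++ CT2.invw [0, 3, 3] ++ CT2.invw [0, 6, 3] ++ [CT2.iv 6]]

theorem commWords_hold : ∀ w ∈ commWords, ev (gl [ga, gb, gt, gm]) w = 1 :=
  cov_rels commWords (by decide +kernel) (by decide +kernel)

theorem cov_perfect : commutator ↥cov = ⊤ := by
  rw [eq_top_iff, ← gen_cov, closure_le]
  rintro _ ⟨j, _, rfl⟩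
  apply gl_mem
  intro x hx
  simp only [List.mem_cons, List.not_mem_nil, or_false] at hx
  rcases hx with rfl | rfl | rfl | rfl
  · exact comm_of_word (gl [ga, gb, gt, gm]) (gl_inv _) [2] [1, 3, 1] 0
      (commWords_hold _ (by simp [commWords]))
  · exact comm_of_word (gl [ga, gb, gt, gm]) (gl_inv _) [3, 0] [0, 0, 4, 4] 2
      (commWords_hold _ (by simp [commWords]))
  · exact comm_of_word (gl [ga, gb, gt, gm]) (gl_inv _) [2] [6, 0, 2, 7] 4
      (commWords_hold _ (by simp [commWords]))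
  · exact comm_of_word (gl [ga, gb, gt, gm]) (gl_inv _) [0, 3, 3] [0, 6, 3] 6
      (commWords_hold _ (by simp [commWords]))

/-- The central involution of the cover. -/
noncomputable def zc : ↥cov := ev (gl [ga, gb, gt, gm]) [0, 5, 6, 0, 5, 6]

theorem zc_ker : covπ zc = 1 := by
  apply Subtype.ext
  have h := isTbl_map_ev φ1 _ cs12 hφ1 cs12_ok [0, 5, 6, 0, 5, 6]
  rw [show evC (flat cs12) [0, 5, 6, 0, 5, 6] = Helper7.idCode by decide +kernel] at h
  exact h.eq Helper7.IsTbl.one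

theorem zc_ne : zc ≠ 1 := by
  intro h0
  have h := isTbl_map_ev φ2 _ ch12 hφ2 ch12_ok [0, 5, 6, 0, 5, 6]
  have h1 : φ2 (ev (gl [ga, gb, gt, gm]) [0, 5, 6, 0, 5, 6]) = 1 := by
    show φ2 zc = 1
    rw [h0, map_one]
  exact Helper7.ne_one_of_tbl h (j := 0) (by norm_num) (by decide +kernel) h1

theorem card_cov_dvd : Nat.card ↥cov ∣ 190080 := by
  have h := Mathieu.card12c (gl [ga, gb, gt, gm]) (gl_inv _) E11c W11c E12c W12c
  rwa [gen_cov, Subgroup.card_top] at h

theorem card_covπ_ker : Nat.card covπ.ker = 2 := by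
  have h1 := Stem.card_ker_mul covπ covπ_surj
  rw [card_M12] at h1
  have h2 : Nat.card covπ.ker * 95040 ∣ 2 * 95040 := by
    rw [h1]; exact card_cov_dvd
  have h3 : Nat.card covπ.ker ∣ 2 := Nat.dvd_of_mul_dvd_mul_right (by norm_num) h2
  rcases (Nat.dvd_prime Nat.prime_two).1 h3 with h | h
  · exfalso
    have hbot : covπ.ker = ⊥ := Subgroup.card_eq_one.1 h
    have hz : zc ∈ covπ.ker := MonoidHom.mem_ker.2 zc_ker
    rw [hbot] at hz
    exact zc_ne (Subgroup.mem_bot.1 hz)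
  · exact h

theorem card_cov : Nat.card ↥cov = 190080 := by
  have h1 := Stem.card_ker_mul covπ covπ_surj
  rw [card_M12, card_covπ_ker] at h1
  exact h1.symm

/-- The cover is 2-universal. -/
theorem cov_two (X : Type) [Group X] [Finite X] (τ : X →* ↥cov) (hτ : Function.Surjective τ)
    (hc : τ.ker ≤ center X) (hd : τ.ker ≤ commutator X) : ¬ 2 ∣ Nat.card τ.ker :=
  Stem.two_not_dvd_card_ker τ hτ hc hd (fun _ _ _ τ' hτ' hker hd' =>
    Mathieu.two12c ga gb gt gm card_cov gen_cov E11c W11c E12c W12c τ' hτ' hker hd')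

/-! ### The prime 3 -/

def ct12 : List (ℕ × ℕ) := [(0xb3e349b170ba9a2a94243a5c3448c0, 0x7dd7498ab0b15b28b8c33854823120), (0xa4deb8cac03ba04ba868ab0a61242d, 0x5c4f7b4a6dab806a2848790ac48c30), (0x5c5f49cacda9602ba8c83a5c323020, 0x5c5f49cacda9602ba8c83a5c323020)]

theorem ct12_ok : pairsOK ct12 = true := by decide +kernel

theorem x12_mem : Helper7.permOf 0xb3e349b170ba9a2a94243a5c3448c0 ∈ Spor.M12 :=
  mem_M12_of_code (by decide +kernel) (by decide +kernel)

noncomputable def x12 : ↥Spor.M12 := ⟨Helper7.permOf 0xb3e349b170ba9a2a94243a5c3448c0, x12_mem⟩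

theorem y12_mem : Helper7.permOf 0xa4deb8cac03ba04ba868ab0a61242d ∈ Spor.M12 :=
  mem_M12_of_code (by decide +kernel) (by decide +kernel)

noncomputable def y12 : ↥Spor.M12 := ⟨Helper7.permOf 0xa4deb8cac03ba04ba868ab0a61242d, y12_mem⟩

theorem s12_mem : Helper7.permOf 0x5c5f49cacda9602ba8c83a5c323020 ∈ Spor.M12 :=
  mem_M12_of_code (by decide +kernel) (by decide +kernel)

noncomputable def s12 : ↥Spor.M12 := ⟨Helper7.permOf 0x5c5f49cacda9602ba8c83a5c323020, s12_mem⟩

theorem ht12 : [x12, y12, s12].map (Spor.M12).subtype = permsOf ct12 := rfl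

theorem R12 : ∀ w ∈ ws3, ev (gl [x12, y12, s12]) w = 1 :=
  rels_hold _ _ ct12 ht12 ct12_ok ws3 (by decide +kernel)

theorem xy12_ne : x12 * y12 ≠ y12 * x12 := fun h =>
  ev_ne_ev _ [x12, y12, s12] ct12 ht12 ct12_ok [0, 2] [2, 0] 1 (by norm_num) (by decide +kernel)
    (by rw [show ev (gl [x12, y12, s12]) [0, 2] = x12 * (y12 * 1) from rfl,
      show ev (gl [x12, y12, s12]) [2, 0] = y12 * (x12 * 1) from rfl, mul_one, mul_one, h])

theorem M12_odd (Γ : Type) [Group Γ] [Finite Γ] (σ : Γ →* ↥Spor.M12) (hσ : IsStemExtension σ)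
    (p : ℕ) (hp : p.Prime) (hp2 : p ≠ 2) : ¬ p ∣ Nat.card σ.ker := by
  obtain ⟨hsurj, hc, hd⟩ := hσ
  by_cases h3 : p = 3
  · subst h3
    obtain ⟨ha, hb, hca, hcb, hna, hnb⟩ := extra_of_words x12 y12 s12 R12
    exact Stem.not_dvd_card_ker_of_extraspecial σ hsurj hc hd x12 y12 s12 ha hb xy12_ne hca hcb
      hna hnb (by rw [card_M12]; decide)
  · have : Fact p.Prime := ⟨hp⟩
    exact Stem.not_dvd_card_ker_of_sq σ hc hd p
      (not_sq_dvd (by rw [card_M12]; decide) hp hp2 h3)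

/-- The Schur multiplier of `M₁₂` is cyclic of order 2. -/
theorem schur12 : HasCyclicSchurMultiplier ↥Spor.M12 2 :=
  Stem.hasCyclicSchurMultiplier_two covπ covπ_surj card_covπ_ker cov_perfect cov_two M12_odd

end Cfsg.Agent.Helper89.MConc
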