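import Cfsg.Agent.Helper89.MConcBase
import Cfsg.Agent.Helper89.MathieuTwo
import Cfsg.Agent.Helper89.Stem
import Cfsg.Agent.Helper7.MathieuSimple

/-!
# The Mathieu group `M₂₃`: trivial Schur multiplier (helper89)

Explicit generators (by table codes) satisfying the relators of the coset-enumeration chain, and
the local data for the prime 3; then the Schur multiplier is trivial.
-/

set_option autoImplicit false

namespace Cfsg.Agent.Helper89.MConc

open Cfsg Subgroup

theorem card_stab_pt (p : GolayPt) :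
    Nat.card ↥(M24 ⊓ MulAction.stabilizer (Equiv.Perm GolayPt) p) = 10200960 := by
  obtain ⟨h, hh, rfl⟩ := Helper7.m24_trans1 (Helper7.pt 0) p
  exact (Nat.card_congr ((Helper7.conjStabEquiv M24 h hh (Helper7.pt 0)).trans
    (MulEquiv.subgroupCongr Helper7.stabilizer_pt0)).toEquiv).trans Helper7.card_M24_fix.1

theorem card_M23 : Nat.card ↥Spor.M23 = 10200960 := card_stab_pt none

def cs23 : List (ℕ × ℕ) := [(0xbd6717b56939461b52507314831040, 0xbaecaaa68899e468960478dc268580), (0xbae75734e2a3d8354606b24b222020, 0xb9e8fa914974e4db2cc28a0a364020), (0xbcd55a19638b9a82da50780ec22422, 0xbaa93b25e83b9a48d44c2c96380026), (0xb82d5a4e5183dcd62d4941cc520c41, 0xbd6939460f7358b525073148310416)]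

theorem cs23_ok : pairsOK cs23 = true := by decide +kernel

theorem a23_mem : Helper7.permOf 0xbd6717b56939461b52507314831040 ∈ Spor.M23 :=
  mem_M23_of_code (by decide +kernel) (by decide +kernel)

noncomputable def a23 : ↥Spor.M23 := ⟨Helper7.permOf 0xbd6717b56939461b52507314831040, a23_mem⟩

theorem b23_mem : Helper7.permOf 0xbae75734e2a3d8354606b24b222020 ∈ Spor.M23 :=
  mem_M23_of_code (by decide +kernel) (by decide +kernel)

noncomputable def b23 : ↥Spor.M23 := ⟨Helper7.permOf 0xbae75734e2a3d8354606b24b222020, b23_mem⟩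

theorem t23_mem : Helper7.permOf 0xbcd55a19638b9a82da50780ec22422 ∈ Spor.M23 :=
  mem_M23_of_code (by decide +kernel) (by decide +kernel)

noncomputable def t23 : ↥Spor.M23 := ⟨Helper7.permOf 0xbcd55a19638b9a82da50780ec22422, t23_mem⟩

theorem u23_mem : Helper7.permOf 0xb82d5a4e5183dcd62d4941cc520c41 ∈ Spor.M23 :=
  mem_M23_of_code (by decide +kernel) (by decide +kernel)

noncomputable def u23 : ↥Spor.M23 := ⟨Helper7.permOf 0xb82d5a4e5183dcd62d4941cc520c41, u23_mem⟩

theorem hl23 : [a23, b23, t23, u23].map (Spor.M23).subtype = permsOf cs23 := rfl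

theorem E11_23 : ∀ w ∈ M11C.ex, ev (gl [a23, b23, t23, u23]) w = 1 :=
  rels_hold _ _ cs23 hl23 cs23_ok M11C.ex (by decide +kernel)

theorem W11_23 : ∀ w ∈ M11C.ws, ev (gl [a23, b23, t23, u23]) w = 1 :=
  rels_hold _ _ cs23 hl23 cs23_ok M11C.ws (by decide +kernel)

theorem E23_23 : ∀ w ∈ Mathieu.E23, ev (gl [a23, b23, t23, u23]) w = 1 :=
  rels_hold _ _ cs23 hl23 cs23_ok Mathieu.E23 (by decide +kernel)

theorem W23_23 : ∀ w ∈ M23C.ws, ev (gl [a23, b23, t23, u23]) w = 1 :=
  rels_hold _ _ cs23 hl23 cs23_ok M23C.ws (by decide +kernel)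

theorem gen23 : closure (gl [a23, b23, t23, u23] '' Set.Iio 8) = ⊤ := by
  refine closure_eq_top _ _ cs23 hl23 cs23_ok 8
    {Helper7.gA, cubeTwist} Helper7.M23_le ?_
  intro s hs
  simp only [Set.mem_insert_iff, Set.mem_singleton_iff] at hs
  rcases hs with rfl | rfl
  · refine ⟨[6], by decide, ?_⟩
    rw [show evC (flat cs23) [6] = Helper7.cA by decide +kernel]
    exact Helper7.isTbl_gA
  · refine ⟨[2, 0, 0], by decide, ?_⟩
    rw [show evC (flat cs23) [2, 0, 0] = Helper7.cC by decide +kernel]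
    exact Helper7.isTbl_cubeTwist

/-! ### The prime 3 -/

def ct23 : List (ℕ × ℕ) := [(0xbd8aeaa222a3e0651d835a66493420, 0xbda6f28e2d750493acd2532a444020), (0xbd9535ca222d609a38c87b0e01b481, 0xbd9cba4a2d3a8469d5882a5e11c004), (0xbc66ea8ec97d18d52e08388a491820, 0xbc66ea8ec97d18d52e08388a491820)]

theorem ct23_ok : pairsOK ct23 = true := by decide +kernel

theorem x23_mem : Helper7.permOf 0xbd8aeaa222a3e0651d835a66493420 ∈ Spor.M23 :=
  mem_M23_of_code (by decide +kernel) (by decide +kernel)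

noncomputable def x23 : ↥Spor.M23 := ⟨Helper7.permOf 0xbd8aeaa222a3e0651d835a66493420, x23_mem⟩

theorem y23_mem : Helper7.permOf 0xbd9535ca222d609a38c87b0e01b481 ∈ Spor.M23 :=
  mem_M23_of_code (by decide +kernel) (by decide +kernel)

noncomputable def y23 : ↥Spor.M23 := ⟨Helper7.permOf 0xbd9535ca222d609a38c87b0e01b481, y23_mem⟩

theorem s23_mem : Helper7.permOf 0xbc66ea8ec97d18d52e08388a491820 ∈ Spor.M23 :=
  mem_M23_of_code (by decide +kernel) (by decide +kernel)

noncomputable def s23 : ↥Spor.M23 := ⟨Helper7.permOf 0xbc66ea8ec97d18d52e08388a491820, s23_mem⟩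

theorem ht23 : [x23, y23, s23].map (Spor.M23).subtype = permsOf ct23 := rfl

theorem R23 : ∀ w ∈ ws2, ev (gl [x23, y23, s23]) w = 1 :=
  rels_hold _ _ ct23 ht23 ct23_ok ws2 (by decide +kernel)

theorem x23_ne : x23 ≠ 1 := fun h =>
  ev_ne_one _ [x23, y23, s23] ct23 ht23 ct23_ok [0] 2 (by norm_num) (by decide +kernel)
    (by rw [show ev (gl [x23, y23, s23]) [0] = x23 * 1 from rfl, h, mul_one])

theorem y23_ne : y23 ≠ 1 := fun h =>
  ev_ne_one _ [x23, y23, s23] ct23 ht23 ct23_ok [2] 0 (by norm_num) (by decide +kernel)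
    (by rw [show ev (gl [x23, y23, s23]) [2] = y23 * 1 from rfl, h, mul_one])

theorem y23_ne_x : y23 ≠ x23 := fun h =>
  ev_ne_ev _ [x23, y23, s23] ct23 ht23 ct23_ok [2] [0] 0 (by norm_num) (by decide +kernel)
    (by rw [show ev (gl [x23, y23, s23]) [2] = y23 * 1 from rfl, show ev (gl [x23, y23, s23]) [0] = x23 * 1 from rfl, h])

theorem y23_ne_xinv : y23 ≠ x23⁻¹ := fun h =>
  ev_ne_ev _ [x23, y23, s23] ct23 ht23 ct23_ok [2] [1] 0 (by norm_num) (by decide +kernel)
    (by rw [show ev (gl [x23, y23, s23]) [2] = y23 * 1 from rfl, show ev (gl [x23, y23, s23]) [1] = x23⁻¹ * 1 from rfl, h])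

/-- The Schur multiplier of the group is trivial. -/
theorem schur23 : HasCyclicSchurMultiplier ↥Spor.M23 1 := by
  apply Stem.hasCyclicSchurMultiplier_one
  intro Γ _ _ σ hσ
  obtain ⟨hsurj, hc, hd⟩ := hσ
  apply Stem.ker_eq_bot_of_primes
  intro p hp
  by_cases h2 : p = 2
  · subst h2
    exact Stem.two_not_dvd_card_ker σ hsurj hc hd (fun X _ _ τ hτ hker hd' =>
      Mathieu.two23 a23 b23 t23 u23 card_M23 gen23 E11_23 W11_23 E23_23 W23_23 τ hτ hker hd')
  by_cases h3 : p = 3
  · subst h3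
    have : Fact (Nat.Prime 3) := ⟨Nat.prime_three⟩
    obtain ⟨ha, hb, hab, hta, htb⟩ := rank_two_of_words x23 y23 s23 R23
    exact Stem.not_dvd_card_ker_of_rank_two σ hsurj hc hd 3 (by decide) x23 y23 s23 ha hb x23_ne
      (not_mem_zpowers_of ha y23_ne y23_ne_x y23_ne_xinv) hab hta htb (by rw [card_M23]; decide)
  · have : Fact p.Prime := ⟨hp⟩
    exact Stem.not_dvd_card_ker_of_sq σ hc hd p
      (not_sq_dvd (by rw [card_M23]; decide) hp h2 h3)

end Cfsg.Agent.Helper89.MConc
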