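import Cfsg.Agent.Helper89.MConcBase
import Cfsg.Agent.Helper89.MathieuTwo
import Cfsg.Agent.Helper89.Stem3

/-!
# The Mathieu group `M₂₄`: trivial Schur multiplier (helper89)

Explicit generators (by table codes) satisfying the relators of the coset-enumeration chain, and
the local data for the prime 3; then the Schur multiplier is trivial.
-/

set_option autoImplicit false

namespace Cfsg.Agent.Helper89.MConc

open Cfsg Subgroup

def cs24 : List (ℕ × ℕ) := [(0xbd6717b56939461b52507314831040, 0xbaecaaa68899e468960478dc268580), (0xbae75734e2a3d8354606b24b222020, 0xb9e8fa914974e4db2cc28a0a364020), (0xbcd55a19638b9a82da50780ec22422, 0xbaa93b25e83b9a48d44c2c96380026), (0xb82d5a4e5183dcd62d4941cc520c41, 0xbd6939460f7358b525073148310416), (0x89a93bcab24d161c4d57515283017, 0x31067114391ea28168d9a62f5dae1)]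

theorem cs24_ok : pairsOK cs24 = true := by decide +kernel

theorem a24_mem : Helper7.permOf 0xbd6717b56939461b52507314831040 ∈ M24 :=
  Helper7.permOf_mem_M24 (by decide +kernel)

noncomputable def a24 : ↥M24 := ⟨Helper7.permOf 0xbd6717b56939461b52507314831040, a24_mem⟩

theorem b24_mem : Helper7.permOf 0xbae75734e2a3d8354606b24b222020 ∈ M24 :=
  Helper7.permOf_mem_M24 (by decide +kernel)

noncomputable def b24 : ↥M24 := ⟨Helper7.permOf 0xbae75734e2a3d8354606b24b222020, b24_mem⟩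

theorem t24_mem : Helper7.permOf 0xbcd55a19638b9a82da50780ec22422 ∈ M24 :=
  Helper7.permOf_mem_M24 (by decide +kernel)

noncomputable def t24 : ↥M24 := ⟨Helper7.permOf 0xbcd55a19638b9a82da50780ec22422, t24_mem⟩

theorem u24_mem : Helper7.permOf 0xb82d5a4e5183dcd62d4941cc520c41 ∈ M24 :=
  Helper7.permOf_mem_M24 (by decide +kernel)

noncomputable def u24 : ↥M24 := ⟨Helper7.permOf 0xb82d5a4e5183dcd62d4941cc520c41, u24_mem⟩

theorem v24_mem : Helper7.permOf 0x89a93bcab24d161c4d57515283017 ∈ M24 :=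
  Helper7.permOf_mem_M24 (by decide +kernel)

noncomputable def v24 : ↥M24 := ⟨Helper7.permOf 0x89a93bcab24d161c4d57515283017, v24_mem⟩

theorem hl24 : [a24, b24, t24, u24, v24].map (M24).subtype = permsOf cs24 := rfl

theorem E11_24 : ∀ w ∈ M11C.ex, ev (gl [a24, b24, t24, u24, v24]) w = 1 :=
  rels_hold _ _ cs24 hl24 cs24_ok M11C.ex (by decide +kernel)

theorem W11_24 : ∀ w ∈ M11C.ws, ev (gl [a24, b24, t24, u24, v24]) w = 1 :=
  rels_hold _ _ cs24 hl24 cs24_ok M11C.ws (by decide +kernel)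

theorem E23_24 : ∀ w ∈ Mathieu.E23, ev (gl [a24, b24, t24, u24, v24]) w = 1 :=
  rels_hold _ _ cs24 hl24 cs24_ok Mathieu.E23 (by decide +kernel)

theorem W23_24 : ∀ w ∈ M23C.ws, ev (gl [a24, b24, t24, u24, v24]) w = 1 :=
  rels_hold _ _ cs24 hl24 cs24_ok M23C.ws (by decide +kernel)

theorem E24_24 : ∀ w ∈ Mathieu.E24, ev (gl [a24, b24, t24, u24, v24]) w = 1 :=
  rels_hold _ _ cs24 hl24 cs24_ok Mathieu.E24 (by decide +kernel)

theorem W24_24 : ∀ w ∈ M24C.ws, ev (gl [a24, b24, t24, u24, v24]) w = 1 :=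
  rels_hold _ _ cs24 hl24 cs24_ok M24C.ws (by decide +kernel)

theorem gen24 : closure (gl [a24, b24, t24, u24, v24] '' Set.Iio 10) = ⊤ := by
  refine closure_eq_top _ _ cs24 hl24 cs24_ok 10
    {Helper7.gA, projInv, cubeTwist} ?_ ?_
  · have h := Helper7.G3_eq
    rw [Helper7.G3, Helper7.gens3] at h
    exact h.ge
  intro s hs
  simp only [Set.mem_insert_iff, Set.mem_singleton_iff] at hs
  rcases hs with rfl | rfl | rfl
  · refine ⟨[6], by decide, ?_⟩
    rw [show evC (flat cs24) [6] = Helper7.cA by decide +kernel]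
    exact Helper7.isTbl_gA
  · refine ⟨[7, 8], by decide, ?_⟩
    rw [show evC (flat cs24) [7, 8] = Helper7.cB by decide +kernel]
    exact Helper7.isTbl_projInv
  · refine ⟨[2, 0, 0], by decide, ?_⟩
    rw [show evC (flat cs24) [2, 0, 0] = Helper7.cC by decide +kernel]
    exact Helper7.isTbl_cubeTwist

/-! ### The prime 3 -/

def ct24 : List (ℕ × ℕ) := [(0xb3e349b170ba9a2a94243a5c3448c0, 0x7dd7498ab0b15b28b8c33854823120), (0xa4deb8cac03ba04ba868ab0a61242d, 0x5c4f7b4a6dab806a2848790ac48c30), (0x5c5f49cacda9602ba8c83a5c323020, 0x5c5f49cacda9602ba8c83a5c323020)]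

theorem ct24_ok : pairsOK ct24 = true := by decide +kernel

theorem x24_mem : Helper7.permOf 0xb3e349b170ba9a2a94243a5c3448c0 ∈ M24 :=
  Helper7.permOf_mem_M24 (by decide +kernel)

noncomputable def x24 : ↥M24 := ⟨Helper7.permOf 0xb3e349b170ba9a2a94243a5c3448c0, x24_mem⟩

theorem y24_mem : Helper7.permOf 0xa4deb8cac03ba04ba868ab0a61242d ∈ M24 :=
  Helper7.permOf_mem_M24 (by decide +kernel)

noncomputable def y24 : ↥M24 := ⟨Helper7.permOf 0xa4deb8cac03ba04ba868ab0a61242d, y24_mem⟩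

theorem s24_mem : Helper7.permOf 0x5c5f49cacda9602ba8c83a5c323020 ∈ M24 :=
  Helper7.permOf_mem_M24 (by decide +kernel)

noncomputable def s24 : ↥M24 := ⟨Helper7.permOf 0x5c5f49cacda9602ba8c83a5c323020, s24_mem⟩

theorem ht24 : [x24, y24, s24].map (M24).subtype = permsOf ct24 := rfl

theorem R24 : ∀ w ∈ ws3, ev (gl [x24, y24, s24]) w = 1 :=
  rels_hold _ _ ct24 ht24 ct24_ok ws3 (by decide +kernel)

theorem xy24_ne : x24 * y24 ≠ y24 * x24 := fun h =>
  ev_ne_ev _ [x24, y24, s24] ct24 ht24 ct24_ok [0, 2] [2, 0] 1 (by norm_num) (by decide +kernel)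
    (by rw [show ev (gl [x24, y24, s24]) [0, 2] = x24 * (y24 * 1) from rfl,
      show ev (gl [x24, y24, s24]) [2, 0] = y24 * (x24 * 1) from rfl, mul_one, mul_one, h])

/-- The Schur multiplier of the group is trivial. -/
theorem schur24 : HasCyclicSchurMultiplier ↥M24 1 := by
  apply Stem.hasCyclicSchurMultiplier_one
  intro Γ _ _ σ hσ
  obtain ⟨hsurj, hc, hd⟩ := hσ
  apply Stem.ker_eq_bot_of_primes
  intro p hp
  by_cases h2 : p = 2
  · subst h2
    exact Stem.two_not_dvd_card_ker σ hsurj hc hd (fun X _ _ τ hτ hker hd' =>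
      Mathieu.two24 a24 b24 t24 u24 v24 Helper7.card_M24 gen24 E11_24 W11_24 E23_24 W23_24
        E24_24 W24_24 τ hτ hker hd')
  by_cases h3 : p = 3
  · subst h3
    obtain ⟨ha, hb, hca, hcb, hna, hnb⟩ := extra_of_words x24 y24 s24 R24
    exact Stem.not_dvd_card_ker_of_extraspecial σ hsurj hc hd x24 y24 s24 ha hb xy24_ne hca hcb
      hna hnb (by rw [Helper7.card_M24]; decide)
  · have : Fact p.Prime := ⟨hp⟩
    exact Stem.not_dvd_card_ker_of_sq σ hc hd p
      (not_sq_dvd (by rw [Helper7.card_M24]; decide) hp h2 h3)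

end Cfsg.Agent.Helper89.MConc
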