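import Cfsg.Agent.Helper89.M11Cert
import Cfsg.Agent.Helper89.M23Cert
import Cfsg.Agent.Helper89.M24Cert
import Cfsg.Agent.Helper89.Lift

/-!
# The 2-part of the Schur multipliers of `M11`, `M23`, `M24` (helper89)

Abstract form: a finite group `G` of order `7920` (resp. `10200960`, `244823040`) generated by
elements `a, b, t` (resp. `a, b, t, u`; `a, b, t, u, v`) satisfying the relators of the
certificates `M11C` (resp. `M23C`, `M24C`) has no non-trivial central extension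
`τ : X →* G` with kernel of exponent 2 contained in the commutator subgroup of `X`.

Method: the generators have odd orders `11, 5, 5, 23, 3` and lift canonically; the exact relators
(powers, `b a b⁻¹ = a³`, `a u a⁻¹ = u²`) hold for the lifts, the other relators take central
values; the chain of labelled coset enumerations `11:5 < M11 < M23 < M24` (indices `144`, `1288`,
`24`) shows that all these central values are trivial and bounds the order of the group
generated by the lifts by `|G|`.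
-/

set_option autoImplicit false

namespace Cfsg.Agent.Helper89.Mathieu

open Subgroup

/-! ### The Frobenius group of order 55 -/

def tab55 : ℕ := 0x6a431b8120c9440
def rels55 : List (List ℕ) := [[2, 2, 2, 2, 2], [2, 0, 3, 1, 1, 1]]

theorem pre55 : CT2.preChk 5 4 (tbl 3 4 tab55) (vec 3 0x2200) (vec 2 0x3b8) [0, 1] =
    some 0x48ccf := by
  decide +kernel

theorem run55 : CT2.runSteps (tbl 3 4 tab55) 4 rels55 0x48ccf
    [(0, 0, 2), (0, 1, 1), (1, 1, 1), (3, 1, 1), (4, 1, 1)] = some (2 ^ (5 * 4) - 1) := by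
  decide +kernel

section abstract

variable {X : Type*} [Group X]

theorem g_one (g : ℕ → X) (hinv : ∀ j, g j * g (CT2.iv j) = 1) (j : ℕ) (hj : j % 2 = 0) :
    g (j + 1) = (g j)⁻¹ := by
  have h := hinv j
  rw [iv_eq, if_pos hj] at h
  exact (inv_eq_of_mul_eq_one_right h).symm

theorem card_frob55 [Finite X] (g : ℕ → X) (hinv : ∀ j, g j * g (CT2.iv j) = 1)
    (h0 : g 0 ^ 11 = 1) (hrel : ∀ ρ ∈ rels55, ev g ρ = 1) :
    Nat.card (closure (g '' Set.Iio 4)) ∣ 55 := by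
  have hle : zpowers (g 0) ≤ closure (g '' Set.Iio 4) := by
    rw [zpowers_le]
    exact subset_closure ⟨0, by simp, rfl⟩
  have h := CT2.card_closure_dvd g hinv 5 4 (tbl 3 4 tab55) (vec 3 0x2200) (vec 2 0x3b8) [0, 1]
    rels55 [(0, 0, 2), (0, 1, 1), (1, 1, 1), (3, 1, 1), (4, 1, 1)] 0x48ccf pre55 run55
    (zpowers (g 0)) ?_ hle hrel
  · have h11 : Nat.card (zpowers (g 0)) ∣ 11 := by
      rw [Nat.card_zpowers]; exact orderOf_dvd_of_pow_eq_one h0
    exact h.trans (by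
      have := Nat.mul_dvd_mul_left 5 h11
      simpa using this)
  · intro j hj
    simp only [List.mem_cons, List.not_mem_nil, or_false] at hj
    rcases hj with rfl | rfl
    · exact mem_zpowers _
    · rw [g_one g hinv 0 rfl]
      exact inv_mem (mem_zpowers _)

/-! ### The three levels -/

def E23 : List (List ℕ) := [List.replicate 23 6, [0, 6, 1, 7, 7]]
def E24 : List (List ℕ) := [List.replicate 3 8]

theorem ex11_eq : M11C.ex =
    [List.replicate 11 0, List.replicate 5 2, [2, 0, 3, 1, 1, 1], List.replicate 5 4] := by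
  decide

theorem ex23_eq : M23C.ex = M11C.ex ++ M11C.ws ++ E23 := by decide

theorem ex24_eq : M24C.ex = M11C.ex ++ M11C.ws ++ E23 ++ M23C.ws ++ E24 := by decide

theorem core11 [Finite X] (g : ℕ → X) (hinv : ∀ j, g j * g (CT2.iv j) = 1) (K : Subgroup X)
    (hKc : ∀ c ∈ K, ∀ x, c * x = x * c) (hKs : ∀ c ∈ K, c * c = 1)
    (hE : ∀ w ∈ M11C.ex, ev g w = 1) (hW : ∀ w ∈ M11C.ws, ev g w ∈ K) :
    (∀ w ∈ M11C.ws, ev g w = 1) ∧ Nat.card (closure (g '' Set.Iio 6)) ∣ 7920 := by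
  have h0 : g 0 ^ 11 = 1 := by
    rw [← ev_replicate]; exact hE _ (by decide)
  have h55 : Nat.card (closure (g '' Set.Iio 4)) ∣ 55 :=
    card_frob55 g hinv h0 (fun ρ hρ => hE ρ (by revert ρ; decide))
  have hinj : ∀ c ∈ closure (g '' Set.Iio 4), c ∈ K → c = 1 := by
    intro c hc hcK
    have h1 : orderOf c ∣ 55 := (Subgroup.orderOf_dvd_natCard _ hc).trans h55
    have h2 : orderOf c ∣ 2 := orderOf_dvd_of_pow_eq_one (by rw [sq]; exact hKs c hcK)
    have h3 : orderOf c ∣ 1 := by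
      have := Nat.dvd_gcd h1 h2
      simpa using this
    exact orderOf_eq_one_iff.1 (Nat.dvd_one.1 h3)
  obtain ⟨h1, h2⟩ := Level.level g hinv K hKc hKs 144 6 4 (tbl 8 6 M11C.tab)
    (tbl 18 6 M11C.ltab) (vec 8 M11C.par) (vec 4 M11C.gam) [0, 1, 2, 3] M11C.ex M11C.ws
    M11C.steps M11C.E₀ M11C.cl M11C.pre_ok M11C.run_ok M11C.cl_ok (by decide) (by norm_num)
    hE hW hinj
  refine ⟨h1, h2.trans ?_⟩
  have := Nat.mul_dvd_mul_left 144 h55
  simpa using this

theorem core23 [Finite X] (g : ℕ → X) (hinv : ∀ j, g j * g (CT2.iv j) = 1) (K : Subgroup X)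
    (hKc : ∀ c ∈ K, ∀ x, c * x = x * c) (hKs : ∀ c ∈ K, c * c = 1)
    (hE11 : ∀ w ∈ M11C.ex, ev g w = 1) (hW11 : ∀ w ∈ M11C.ws, ev g w ∈ K)
    (hE23 : ∀ w ∈ E23, ev g w = 1) (hW23 : ∀ w ∈ M23C.ws, ev g w ∈ K)
    (hinj : ∀ c ∈ closure (g '' Set.Iio 6), c ∈ K → c = 1) :
    (∀ w ∈ M11C.ws, ev g w = 1) ∧ (∀ w ∈ M23C.ws, ev g w = 1) ∧
      Nat.card (closure (g '' Set.Iio 8)) ∣ 1288 * Nat.card (closure (g '' Set.Iio 6)) := by
  obtain ⟨h11, _⟩ := core11 g hinv K hKc hKs hE11 hW11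
  have hE : ∀ w ∈ M23C.ex, ev g w = 1 := by
    intro w hw
    rw [ex23_eq, List.mem_append, List.mem_append] at hw
    rcases hw with (hw | hw) | hw
    · exact hE11 w hw
    · exact h11 w hw
    · exact hE23 w hw
  obtain ⟨h1, h2⟩ := Level.level g hinv K hKc hKs 1288 8 6 (tbl 11 8 M23C.tab)
    (tbl 7 8 M23C.ltab) (vec 11 M23C.par) (vec 4 M23C.gam) [0, 1, 2, 3, 4, 5] M23C.ex M23C.ws
    M23C.steps M23C.E₀ M23C.cl M23C.pre_ok M23C.run_ok M23C.cl_ok (by decide) (by norm_num)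
    hE hW23 hinj
  exact ⟨h11, h1, h2⟩

theorem core24 [Finite X] (g : ℕ → X) (hinv : ∀ j, g j * g (CT2.iv j) = 1) (K : Subgroup X)
    (hKc : ∀ c ∈ K, ∀ x, c * x = x * c) (hKs : ∀ c ∈ K, c * c = 1)
    (hE11 : ∀ w ∈ M11C.ex, ev g w = 1) (hW11 : ∀ w ∈ M11C.ws, ev g w ∈ K)
    (hE23 : ∀ w ∈ E23, ev g w = 1) (hW23 : ∀ w ∈ M23C.ws, ev g w ∈ K)
    (hE24 : ∀ w ∈ E24, ev g w = 1) (hW24 : ∀ w ∈ M24C.ws, ev g w ∈ K)
    (hinj6 : ∀ c ∈ closure (g '' Set.Iio 6), c ∈ K → c = 1)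
    (hinj8 : ∀ c ∈ closure (g '' Set.Iio 8), c ∈ K → c = 1) :
    Nat.card (closure (g '' Set.Iio 10)) ∣ 24 * Nat.card (closure (g '' Set.Iio 8)) := by
  obtain ⟨h11, h23, _⟩ := core23 g hinv K hKc hKs hE11 hW11 hE23 hW23 hinj6
  have hE : ∀ w ∈ M24C.ex, ev g w = 1 := by
    intro w hw
    rw [ex24_eq, List.mem_append, List.mem_append, List.mem_append, List.mem_append] at hw
    rcases hw with (((hw | hw) | hw) | hw) | hw
    · exact hE11 w hw
    · exact h11 w hw
    · exact hE23 w hw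
    · exact h23 w hw
    · exact hE24 w hw
  exact (Level.level g hinv K hKc hKs 24 10 8 (tbl 5 10 M24C.tab)
    (tbl 4 10 M24C.ltab) (vec 5 M24C.par) (vec 4 M24C.gam) [0, 1, 2, 3, 4, 5, 6, 7] M24C.ex
    M24C.ws M24C.steps M24C.E₀ M24C.cl M24C.pre_ok M24C.run_ok M24C.cl_ok (by decide)
    (by norm_num) hE hW24 hinj8).2

end abstract

end Cfsg.Agent.Helper89.Mathieu
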