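import Cfsg.Agent.Helper89.CovTools

/-!
# Lower bounds for the order of a permutation group from a stabiliser chain (helper89)

A level `PLB.Lvl` consists of tables `LL` (images of the points under the symbols of the level),
a base point `b`, words `U` in the symbols whose values move `b` to pairwise distinct points, and
words `W` defining the symbols of the next level, all of which fix `b`.

`PLB.card_ge`: if the tables of the first level describe the permutations `g k`, then the group
generated by them has order at least the product of the numbers of words `U` over all levels.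
-/

set_option autoImplicit false

namespace Cfsg.Agent.Helper89.PLB

open Subgroup

/-- The image of the point `x` under the symbol `k`, from the tables. -/
def tb (LL : List (List ℕ)) (k x : ℕ) : ℕ := (LL.getD k []).getD x 0

/-- The action of a word, from the tables. -/
def actW (LL : List (List ℕ)) : List ℕ → ℕ → ℕ
  | [], x => x
  | k :: w, x => tb LL k (actW LL w x)

/-- One level of a stabiliser chain. -/
structure Lvl where
  LL : List (List ℕ)
  b : ℕ
  U : List (List ℕ)
  W : List (List ℕ)

/-- Boolean test for the absence of repetitions. -/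
def nodupB : List ℕ → Bool
  | [] => true
  | a :: l => !(l.contains a) && nodupB l

theorem nodup_of_nodupB : ∀ l : List ℕ, nodupB l = true → l.Nodup
  | [], _ => List.nodup_nil
  | a :: l, h => by
    rw [nodupB, Bool.and_eq_true] at h
    refine List.nodup_cons.2 ⟨?_, nodup_of_nodupB l h.2⟩
    intro ha
    have h1 := h.1
    rw [Bool.not_eq_true', List.contains_eq_mem] at h1
    simp [ha] at h1

/-- The words are words in the first `K` symbols. -/
def symOK (K : ℕ) (ws : List (List ℕ)) : Bool := ws.all fun w => w.all fun j => decide (j < K)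

/-- The orbit check of a level. -/
def orbOK (N : ℕ) (d : Lvl) : Bool :=
  decide (d.b < N) && symOK d.LL.length d.U && nodupB (d.U.map fun u => actW d.LL u d.b)

/-- The words `W` of the level `d` have the tables of the level `d'`, and fix the base point. -/
def stepOK (N : ℕ) (d d' : Lvl) : Bool :=
  (d'.LL.length == d.W.length) && symOK d.LL.length d.W &&
    (List.range d.W.length).all fun k =>
      (tb d'.LL k d.b == d.b) &&
        (List.range N).all fun x => actW d.LL (d.W.getD k []) x == tb d'.LL k x

/-- The checks of a chain of levels. -/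
def chainOK (N : ℕ) : List Lvl → Bool
  | [] => true
  | [d] => orbOK N d
  | d :: d' :: r => orbOK N d && stepOK N d d' && chainOK N (d' :: r)

/-- The product of the orbit lengths. -/
def prodM : List Lvl → ℕ
  | [] => 1
  | d :: r => d.U.length * prodM r

variable {N : ℕ}

/-- The tables describe the permutations. -/
def IsTab (g : ℕ → Equiv.Perm (Fin N)) (LL : List (List ℕ)) : Prop :=
  ∀ k < LL.length, ∀ x : Fin N, ((g k) x).val = tb LL k x.val

theorem ev_apply (g : ℕ → Equiv.Perm (Fin N)) (LL : List (List ℕ)) (h : IsTab g LL) :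
    ∀ (w : List ℕ), (∀ j ∈ w, j < LL.length) → ∀ x : Fin N,
      ((ev g w) x).val = actW LL w x.val
  | [], _, x => rfl
  | k :: w, hw, x => by
    show ((g k * ev g w) x).val = tb LL k (actW LL w x.val)
    rw [Equiv.Perm.mul_apply, h k (hw k List.mem_cons_self),
      ev_apply g LL h w (fun j hj => hw j (List.mem_cons_of_mem _ hj))]

theorem card_ge_of_orbit {α : Type*} [Finite α] (K H : Subgroup (Equiv.Perm α)) (hHK : H ≤ K)
    (b : α) (hb : ∀ h ∈ H, h b = b) (l : List (Equiv.Perm α)) (hl : ∀ f ∈ l, f ∈ K)
    (hnd : (l.map (fun f => f b)).Nodup) : l.length * Nat.card H ≤ Nat.card K := by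
  have hinj : Function.Injective (fun p : Fin l.length × H =>
      (⟨l[p.1] * p.2.1, K.mul_mem (hl _ (List.getElem_mem _)) (hHK p.2.2)⟩ : K)) := by
    rintro ⟨i, h⟩ ⟨j, h'⟩ heq
    have heq' : l[i] * h.1 = l[j] * h'.1 := congrArg Subtype.val heq
    have h1 : l[i] b = l[j] b := by
      have h4 := congrArg (fun τ : Equiv.Perm α => τ b) heq'
      simp only [Equiv.Perm.mul_apply] at h4
      rwa [hb _ h.2, hb _ h'.2] at h4
    have hij : i = j := by
      apply Fin.ext
      have hi : i.val < (l.map (fun f => f b)).length := by rw [List.length_map]; exact i.2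
      have hj : j.val < (l.map (fun f => f b)).length := by rw [List.length_map]; exact j.2
      apply (List.Nodup.getElem_inj_iff hnd (hi := hi) (hj := hj)).1
      rw [List.getElem_map, List.getElem_map]
      exact h1
    subst hij
    have h5 : h.1 = h'.1 := mul_left_cancel heq'
    rw [Subtype.ext h5]
  have h := Nat.card_le_card_of_injective _ hinj
  rwa [Nat.card_prod, Nat.card_fin] at h

theorem symOK_mem {K : ℕ} {ws : List (List ℕ)} (h : symOK K ws = true) :
    ∀ w ∈ ws, ∀ j ∈ w, j < K := by
  intro w hw j hj
  rw [symOK, List.all_eq_true] at h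
  have h1 := h w hw
  rw [List.all_eq_true] at h1
  exact of_decide_eq_true (h1 j hj)

theorem orb_elems (g : ℕ → Equiv.Perm (Fin N)) (d : Lvl) (hT : IsTab g d.LL)
    (h : orbOK N d = true) :
    ∃ hb : d.b < N, ∃ l : List (Equiv.Perm (Fin N)), l.length = d.U.length ∧
      (∀ f ∈ l, f ∈ closure (g '' Set.Iio d.LL.length)) ∧
      (l.map (fun f => f ⟨d.b, hb⟩)).Nodup := by
  rw [orbOK, Bool.and_eq_true, Bool.and_eq_true] at h
  obtain ⟨⟨h1, h2⟩, h3⟩ := h
  have hb : d.b < N := of_decide_eq_true h1
  have hsym := symOK_mem h2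
  refine ⟨hb, d.U.map (ev g), by rw [List.length_map], ?_, ?_⟩
  · intro f hf
    obtain ⟨u, hu, rfl⟩ := List.mem_map.1 hf
    exact CT.ev_mem_closure' g _ u (hsym u hu)
  · have hnd := nodup_of_nodupB _ h3
    rw [List.map_map]
    have e : ∀ u ∈ d.U, actW d.LL u d.b = (((fun f : Equiv.Perm (Fin N) => f ⟨d.b, hb⟩) ∘ ev g) u).val := by
      intro u hu
      exact (ev_apply g d.LL hT u (hsym u hu) ⟨d.b, hb⟩).symm
    rw [List.map_congr_left e] at hnd
    have hnd2 : ((d.U.map ((fun f : Equiv.Perm (Fin N) => f ⟨d.b, hb⟩) ∘ ev g)).map Fin.val).Nodup := by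
      rw [List.map_map]
      exact hnd
    exact List.Nodup.of_map _ hnd2

/-- The group generated by the symbols of the first level has at least `prodM` elements. -/
theorem card_ge : ∀ (Ls : List Lvl) (d : Lvl) (g : ℕ → Equiv.Perm (Fin N)), IsTab g d.LL →
    chainOK N (d :: Ls) = true →
    prodM (d :: Ls) ≤ Nat.card (closure (g '' Set.Iio d.LL.length))
  | [], d, g, hT, h => by
    rw [chainOK] at h
    obtain ⟨hb, l, hlen, hl, hnd⟩ := orb_elems g d hT h
    have h1 := card_ge_of_orbit (closure (g '' Set.Iio d.LL.length)) ⊥ bot_le ⟨d.b, hb⟩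
      (by
        intro x hx
        rw [Subgroup.mem_bot] at hx
        rw [hx]; rfl) l hl hnd
    rw [Subgroup.card_bot, mul_one, hlen] at h1
    show d.U.length * 1 ≤ _
    rw [mul_one]
    exact h1
  | d' :: r, d, g, hT, h => by
    rw [chainOK, Bool.and_eq_true, Bool.and_eq_true] at h
    obtain ⟨⟨h1, h2⟩, h3⟩ := h
    obtain ⟨hb, l, hlen, hl, hnd⟩ := orb_elems g d hT h1
    rw [stepOK, Bool.and_eq_true, Bool.and_eq_true] at h2
    obtain ⟨⟨h4, h5⟩, h6⟩ := h2
    have hlen' : d'.LL.length = d.W.length := by simpa using h4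
    have hsym := symOK_mem h5
    rw [List.all_eq_true] at h6
    have hT' : IsTab (fun k => ev g (d.W.getD k [])) d'.LL := by
      intro k hk x
      have h7 := h6 k (List.mem_range.2 (hlen' ▸ hk))
      rw [Bool.and_eq_true, List.all_eq_true] at h7
      have h8 := h7.2 x.val (List.mem_range.2 x.2)
      have hmem : d.W.getD k [] ∈ d.W := by
        rw [List.getD_eq_getElem _ _ (hlen' ▸ hk)]
        exact List.getElem_mem _
      rw [ev_apply g d.LL hT _ (hsym _ hmem) x]
      simpa using h8
    have ih := card_ge r d' (fun k => ev g (d.W.getD k [])) hT' h3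
    have hHK : closure ((fun k => ev g (d.W.getD k [])) '' Set.Iio d'.LL.length) ≤
        closure (g '' Set.Iio d.LL.length) := by
      rw [closure_le]
      rintro _ ⟨k, hk, rfl⟩
      have hk' : k < d.W.length := hlen' ▸ hk
      have hmem : d.W.getD k [] ∈ d.W := by
        rw [List.getD_eq_getElem _ _ hk']
        exact List.getElem_mem _
      exact CT.ev_mem_closure' g _ _ (hsym _ hmem)
    have hfix : ∀ x ∈ closure ((fun k => ev g (d.W.getD k [])) '' Set.Iio d'.LL.length),
        x ⟨d.b, hb⟩ = ⟨d.b, hb⟩ := by
      have hle : closure ((fun k => ev g (d.W.getD k [])) '' Set.Iio d'.LL.length) ≤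
          MulAction.stabilizer (Equiv.Perm (Fin N)) (⟨d.b, hb⟩ : Fin N) := by
        rw [closure_le]
        rintro _ ⟨k, hk, rfl⟩
        have hk' : k < d.W.length := hlen' ▸ hk
        have h7 := h6 k (List.mem_range.2 hk')
        rw [Bool.and_eq_true] at h7
        have h9 : tb d'.LL k d.b = d.b := by simpa using h7.1
        show (ev g (d.W.getD k [])) ⟨d.b, hb⟩ = ⟨d.b, hb⟩
        apply Fin.ext
        have h10 := hT' k hk ⟨d.b, hb⟩
        simp only at h10
        rw [h10, h9]
      intro x hx
      exact hle hx
    have h11 := card_ge_of_orbit (closure (g '' Set.Iio d.LL.length)) _ hHK ⟨d.b, hb⟩ hfix l hl hnd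
    rw [hlen] at h11
    show d.U.length * prodM (d' :: r) ≤ _
    exact (Nat.mul_le_mul_left _ ih).trans h11

/-! ### Tables for generators, inverses and extra generators given by words -/

theorem ev_applyK (g : ℕ → Equiv.Perm (Fin N)) (LL : List (List ℕ)) (K : ℕ)
    (h : ∀ k < K, ∀ x : Fin N, ((g k) x).val = tb LL k x.val) :
    ∀ (w : List ℕ), (∀ j ∈ w, j < K) → ∀ x : Fin N, ((ev g w) x).val = actW LL w x.val
  | [], _, x => rfl
  | k :: w, hw, x => by
    show ((g k * ev g w) x).val = tb LL k (actW LL w x.val)
    rw [Equiv.Perm.mul_apply, h k (hw k List.mem_cons_self),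
      ev_applyK g LL K h w (fun j hj => hw j (List.mem_cons_of_mem _ hj))]

/-- The tables of the symbols `2 i + 1` are inverse to those of the symbols `2 i`. -/
def invOK (N : ℕ) (LL : List (List ℕ)) (n : ℕ) : Bool :=
  (List.range n).all fun i => (List.range N).all fun x => tb LL (2 * i + 1) (tb LL (2 * i) x) == x

theorem isTab_gl (gs : List (Equiv.Perm (Fin N))) (LL : List (List ℕ))
    (hlen : LL.length = 2 * gs.length)
    (h0 : ∀ i < gs.length, ∀ x : Fin N, ((gs.getD i 1) x).val = tb LL (2 * i) x.val)
    (hinv : invOK N LL gs.length = true) : IsTab (gl gs) LL := by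
  intro k hk x
  rw [hlen] at hk
  have hi : k / 2 < gs.length := by omega
  unfold gl
  by_cases hpar : k % 2 = 0
  · rw [if_pos hpar]
    have e : k = 2 * (k / 2) := by omega
    rw [h0 _ hi x, ← e]
  · rw [if_neg hpar]
    have e : k = 2 * (k / 2) + 1 := by omega
    obtain ⟨y, hy⟩ : ∃ y, y = (gs.getD (k / 2) 1)⁻¹ x := ⟨_, rfl⟩
    have hx : x = (gs.getD (k / 2) 1) y := by rw [hy, Equiv.Perm.inv_def, Equiv.apply_symm_apply]
    rw [← hy]
    have h1 := h0 _ hi y
    rw [← hx] at h1
    rw [invOK, List.all_eq_true] at hinv
    have h2 := hinv (k / 2) (List.mem_range.2 hi)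
    rw [List.all_eq_true] at h2
    have h3 := h2 y.val (List.mem_range.2 y.2)
    have h4 : tb LL (2 * (k / 2) + 1) (tb LL (2 * (k / 2)) y.val) = y.val := by simpa using h3
    rw [e, h1, h4]

/-- Checks for extra generators given by words in the first `n` generators. -/
def extOK (N n : ℕ) (ws : List (List ℕ)) (LL : List (List ℕ)) : Bool :=
  (LL.length == 2 * (n + ws.length)) && invOK N LL (n + ws.length) && symOK (2 * n) ws &&
    (List.range ws.length).all fun j =>
      (List.range N).all fun x => actW LL (ws.getD j []) x == tb LL (2 * (n + j)) x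

theorem isTab_ext (bs : List (Equiv.Perm (Fin N))) (ws : List (List ℕ)) (LL : List (List ℕ))
    (hb : ∀ i < bs.length, ∀ x : Fin N, ((bs.getD i 1) x).val = tb LL (2 * i) x.val)
    (hok : extOK N bs.length ws LL = true) :
    IsTab (gl (bs ++ ws.map (ev (gl bs)))) LL := by
  rw [extOK, Bool.and_eq_true, Bool.and_eq_true, Bool.and_eq_true] at hok
  obtain ⟨⟨⟨h1, h2⟩, h3⟩, h4⟩ := hok
  have hlen : LL.length = 2 * (bs.length + ws.length) := by simpa using h1
  have hsym := symOK_mem h3
  -- the base symbols
  have hbase : ∀ k < 2 * bs.length, ∀ x : Fin N, ((gl bs k) x).val = tb LL k x.val := by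
    intro k hk x
    have hi : k / 2 < bs.length := by omega
    unfold gl
    by_cases hpar : k % 2 = 0
    · rw [if_pos hpar]
      have e : k = 2 * (k / 2) := by omega
      rw [hb _ hi x, ← e]
    · rw [if_neg hpar]
      have e : k = 2 * (k / 2) + 1 := by omega
      obtain ⟨y, hy⟩ : ∃ y, y = (bs.getD (k / 2) 1)⁻¹ x := ⟨_, rfl⟩
      have hx : x = (bs.getD (k / 2) 1) y := by rw [hy, Equiv.Perm.inv_def, Equiv.apply_symm_apply]
      rw [← hy]
      have h5 := hb _ hi y
      rw [← hx] at h5
      rw [invOK, List.all_eq_true] at h2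
      have h6 := h2 (k / 2) (List.mem_range.2 (by omega))
      rw [List.all_eq_true] at h6
      have h7 := h6 y.val (List.mem_range.2 y.2)
      have h8 : tb LL (2 * (k / 2) + 1) (tb LL (2 * (k / 2)) y.val) = y.val := by simpa using h7
      rw [e, h5, h8]
  apply isTab_gl
  · rw [List.length_append, List.length_map]
    exact hlen
  · intro i hi x
    rw [List.length_append, List.length_map] at hi
    by_cases hib : i < bs.length
    · rw [List.getD_append _ _ _ _ hib]
      exact hb i hib x
    · have hj : i - bs.length < ws.length := by omega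
      rw [List.getD_append_right _ _ _ _ (by omega), List.getD_eq_getElem _ _ (by
        rw [List.length_map]; exact hj), List.getElem_map]
      have hmem : ws[i - bs.length] ∈ ws := List.getElem_mem _
      rw [ev_applyK (gl bs) LL (2 * bs.length) hbase _ (hsym _ hmem) x]
      rw [List.all_eq_true] at h4
      have h9 := h4 (i - bs.length) (List.mem_range.2 hj)
      rw [List.all_eq_true] at h9
      have h10 := h9 x.val (List.mem_range.2 x.2)
      rw [List.getD_eq_getElem _ _ hj] at h10
      have h11 : bs.length + (i - bs.length) = i := by omega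
      rw [h11] at h10
      simpa using h10
  · rw [List.length_append, List.length_map]
    exact h2

/-- The word acts trivially, from the tables. -/
def relOK (N : ℕ) (LL : List (List ℕ)) (w : List ℕ) : Bool :=
  w.all (fun j => decide (j < LL.length)) && (List.range N).all fun x => actW LL w x == x

theorem ev_eq_one_of_tab (g : ℕ → Equiv.Perm (Fin N)) (LL : List (List ℕ)) (h : IsTab g LL)
    (w : List ℕ) (hw : relOK N LL w = true) : ev g w = 1 := by
  rw [relOK, Bool.and_eq_true, List.all_eq_true, List.all_eq_true] at hw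
  apply Equiv.ext
  intro x
  apply Fin.ext
  rw [ev_apply g LL h w (fun j hj => of_decide_eq_true (hw.1 j hj)) x]
  have h1 := hw.2 x.val (List.mem_range.2 x.2)
  simpa using h1

/-! ### Generators in a subgroup -/

section sub
variable {G : Type*} [Group G]

theorem sub_ev (H : Subgroup G) (gs : List H) (w : List ℕ) :
    ((ev (gl gs) w : H) : G) = ev (gl (gs.map H.subtype)) w := by
  have h := map_ev H.subtype (gl gs) w
  rw [Subgroup.subtype_apply] at h
  rw [h]
  exact ev_congr (fun j => map_gl H.subtype gs j) w

theorem map_ext (H : Subgroup G) (gs : List H) (ws : List (List ℕ)) :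
    (gs ++ ws.map (ev (gl gs))).map H.subtype =
      gs.map H.subtype ++ ws.map (ev (gl (gs.map H.subtype))) := by
  rw [List.map_append, List.map_map]
  congr 1
  apply List.map_congr_left
  intro w _
  exact sub_ev H gs w

theorem sub_ev_eq_one (H : Subgroup G) (gs : List H) (w : List ℕ)
    (h : ev (gl (gs.map H.subtype)) w = 1) : ev (gl gs) w = 1 := by
  apply Subtype.ext
  rw [sub_ev, h]
  rfl

theorem sub_closure_top (H : Subgroup G) [Finite H] (gs : List H) (K : ℕ)
    (hcard : Nat.card H ≤ Nat.card (closure (gl (gs.map H.subtype) '' Set.Iio K))) :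
    closure (gl gs '' Set.Iio K) = ⊤ := by
  have hmap : (closure (gl gs '' Set.Iio K)).map H.subtype =
      closure (gl (gs.map H.subtype) '' Set.Iio K) := by
    rw [MonoidHom.map_closure, Set.image_image]
    congr 1
    apply Set.image_congr
    intro j _
    exact map_gl H.subtype gs j
  have hc : Nat.card ((closure (gl gs '' Set.Iio K)).map H.subtype) =
      Nat.card (closure (gl gs '' Set.Iio K)) :=
    Subgroup.card_map_of_injective H.subtype_injective
  apply Subgroup.eq_top_of_le_card
  rw [← hc, hmap]
  exact hcard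

end sub

end Cfsg.Agent.Helper89.PLB
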