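import Cfsg.Agent.Helper89.PermLB

/-!
# Tables for generators given by words in other permutations (helper89)

`PLB.tab_words`: if the permutations `bs` have tables `LLb`, then the values of the words `ws` in
them are described by the even columns of a table `LL` that passes the check `PLB.wordsOK`.
This is the hypothesis `hb` of `PLB.isTab_ext` for the list `ws.map (ev (gl bs))`.
-/

set_option autoImplicit false

namespace Cfsg.Agent.Helper89.PLB

open Subgroup

/-- The even columns of `LL` are the tables of the values of the words `ws` in the symbols with
tables `LLb`. -/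
def wordsOK (N : ℕ) (LLb : List (List ℕ)) (ws : List (List ℕ)) (LL : List (List ℕ)) : Bool :=
  symOK LLb.length ws &&
    (List.range ws.length).all fun j =>
      (List.range N).all fun x => actW LLb (ws.getD j []) x == tb LL (2 * j) x

theorem tab_words {N : ℕ} (bs : List (Equiv.Perm (Fin N))) (LLb : List (List ℕ))
    (hb : IsTab (gl bs) LLb) (ws : List (List ℕ)) (LL : List (List ℕ))
    (hok : wordsOK N LLb ws LL = true) :
    ∀ i < (ws.map (ev (gl bs))).length, ∀ x : Fin N,
      (((ws.map (ev (gl bs))).getD i 1) x).val = tb LL (2 * i) x.val := by
  rw [wordsOK, Bool.and_eq_true] at hok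
  obtain ⟨h1, h2⟩ := hok
  have hsym := symOK_mem h1
  intro i hi x
  rw [List.length_map] at hi
  rw [List.getD_eq_getElem _ _ (by rw [List.length_map]; exact hi), List.getElem_map]
  have hmem : ws[i] ∈ ws := List.getElem_mem _
  rw [ev_apply (gl bs) LLb hb _ (hsym _ hmem) x]
  rw [List.all_eq_true] at h2
  have h3 := h2 i (List.mem_range.2 hi)
  rw [List.all_eq_true] at h3
  have h4 := h3 x.val (List.mem_range.2 x.2)
  rw [List.getD_eq_getElem _ _ hi] at h4
  simpa using h4

/-- Words in generators of a subgroup: the underlying permutations. -/
theorem map_words {G : Type*} [Group G] (H : Subgroup G) (s : List H) (ws : List (List ℕ)) :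
    (ws.map (ev (gl s))).map H.subtype = ws.map (ev (gl (s.map H.subtype))) := by
  rw [List.map_map]
  apply List.map_congr_left
  intro w _
  exact sub_ev H s w

end Cfsg.Agent.Helper89.PLB
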