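import Cfsg.Agent.Helper89.CovTools
import Cfsg.Agent.Helper5.SympPerfect

/-!
# Computing in `Sp(6, 2)` (helper89)

Elements of `Sp(6, F)`, for a field `F` of characteristic 2, given as products of symplectic
transvections `x ↦ x + f(x, u) u` along vectors with coordinates in `{0, 1}` (6-tuples of booleans
`Sp62.B6`); strict evaluation of the action of words in such products on the six basis vectors, and
generation of `Sp(6, F)` for `|F| = 2`.
-/

set_option autoImplicit false
set_option linter.unusedSectionVars false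

namespace Cfsg.Agent.Helper89.Sp62

open Subgroup Matrix
open Cfsg.Agent.Helper5 (spTv spTv_mulVec sp_ext sp_mul_mulVec sp_coe_one spTv_mul spT spT_eq_top)

/-- Vectors of `𝔽₂⁶`: coordinates `inl 0, inl 1, inl 2, inr 0, inr 1, inr 2`. -/
structure B6 where
  a : Bool
  b : Bool
  c : Bool
  d : Bool
  e : Bool
  f : Bool
deriving DecidableEq

/-- Strict evaluation of a boolean. -/
def seqB {α : Type} (x : Bool) (k : Bool → α) : α :=
  match x with
  | true => k true
  | false => k false

theorem seqB_eq {α : Type} (x : Bool) (k : Bool → α) : seqB x k = k x := by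
  cases x <;> rfl

/-- The symplectic form. -/
def frm (x u : B6) : Bool :=
  xor (xor (xor (x.d && u.a) (x.a && u.d)) (xor (x.e && u.b) (x.b && u.e)))
    (xor (x.f && u.c) (x.c && u.f))

/-- The transvection along `u`. -/
def tvB (u x : B6) : B6 :=
  ⟨xor x.a (frm x u && u.a), xor x.b (frm x u && u.b), xor x.c (frm x u && u.c),
    xor x.d (frm x u && u.d), xor x.e (frm x u && u.e), xor x.f (frm x u && u.f)⟩

/-- Strict transvection in continuation-passing style. -/
def tvK {α : Type} (u x : B6) (k : B6 → α) : α :=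
  seqB (frm x u) fun s =>
  seqB (xor x.a (s && u.a)) fun a =>
  seqB (xor x.b (s && u.b)) fun b =>
  seqB (xor x.c (s && u.c)) fun c =>
  seqB (xor x.d (s && u.d)) fun d =>
  seqB (xor x.e (s && u.e)) fun e =>
  seqB (xor x.f (s && u.f)) fun f =>
  k ⟨a, b, c, d, e, f⟩

theorem tvK_eq {α : Type} (u x : B6) (k : B6 → α) : tvK u x k = k (tvB u x) := by
  simp only [tvK, seqB_eq, tvB]

/-- The basis vectors. -/
def bas : Fin 3 ⊕ Fin 3 → B6
  | Sum.inl 0 => ⟨true, false, false, false, false, false⟩
  | Sum.inl 1 => ⟨false, true, false, false, false, false⟩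
  | Sum.inl 2 => ⟨false, false, true, false, false, false⟩
  | Sum.inr 0 => ⟨false, false, false, true, false, false⟩
  | Sum.inr 1 => ⟨false, false, false, false, true, false⟩
  | Sum.inr 2 => ⟨false, false, false, false, false, true⟩

def basL : List B6 := [bas (Sum.inl 0), bas (Sum.inl 1), bas (Sum.inl 2), bas (Sum.inr 0),
  bas (Sum.inr 1), bas (Sum.inr 2)]

theorem bas_mem (j : Fin 3 ⊕ Fin 3) : bas j ∈ basL := by
  rcases j with j | j <;> fin_cases j <;> simp [basL]

/-- The vector with given code. -/
def ofNat (n : ℕ) : B6 :=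
  ⟨n.testBit 0, n.testBit 1, n.testBit 2, n.testBit 3, n.testBit 4, n.testBit 5⟩

/-- All vectors. -/
def allB : List B6 := (List.range 64).map ofNat

theorem mem_allB (x : B6) : x ∈ allB := by
  rcases x with ⟨a, b, c, d, e, f⟩
  cases a <;> cases b <;> cases c <;> cases d <;> cases e <;> cases f <;> decide

section words

variable (bs : List (List B6))

/-- The transvections of the symbol `j`, in the order of application. -/
def ordL (j : ℕ) : List B6 :=
  if j % 2 = 0 then (bs.getD (j / 2) []).reverse else bs.getD (j / 2) []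

/-- Apply transvections, first element first. -/
def appL : List B6 → B6 → B6
  | [], x => x
  | u :: r, x => appL r (tvB u x)

/-- The action of the symbol `j`. -/
def gB (j : ℕ) (x : B6) : B6 := appL (ordL bs j) x

/-- The action of a word (the last symbol acts first). -/
def evB : List ℕ → B6 → B6
  | [], x => x
  | j :: w, x => gB bs j (evB w x)

/-- Strict application of transvections. -/
def appK {α : Type} : List B6 → B6 → (B6 → α) → α
  | [], x, k => k x
  | u :: r, x, k => tvK u x fun x' => appK r x' k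

theorem appK_eq {α : Type} (l : List B6) (x : B6) (k : B6 → α) : appK l x k = k (appL l x) := by
  induction l generalizing x with
  | nil => rfl
  | cons u r ih =>
    show tvK u x (fun x' => appK r x' k) = k (appL r (tvB u x))
    rw [tvK_eq, ih]

/-- Strict action of a reversed word. -/
def wK {α : Type} : List ℕ → B6 → (B6 → α) → α
  | [], x, k => k x
  | j :: r, x, k => appK (ordL bs j) x fun x' => wK r x' k

/-- The action of a reversed word (the first symbol acts first). -/
def evR : List ℕ → B6 → B6
  | [], x => x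
  | j :: r, x => evR r (gB bs j x)

theorem wK_eq {α : Type} (r : List ℕ) (x : B6) (k : B6 → α) : wK bs r x k = k (evR bs r x) := by
  induction r generalizing x with
  | nil => rfl
  | cons j r ih =>
    show appK (ordL bs j) x (fun x' => wK bs r x' k) = k (evR bs r (gB bs j x))
    rw [appK_eq, ih]
    rfl

theorem evR_append (r s : List ℕ) (x : B6) : evR bs (r ++ s) x = evR bs s (evR bs r x) := by
  induction r generalizing x with
  | nil => rfl
  | cons j r ih => exact ih _

theorem evR_reverse (w : List ℕ) (x : B6) : evR bs w.reverse x = evB bs w x := by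
  induction w generalizing x with
  | nil => rfl
  | cons j w ih =>
    rw [List.reverse_cons, evR_append, ih]
    rfl

/-- Check that the words `w` and `v` act in the same way on the basis vectors. -/
def eqok (w v : List ℕ) : Bool :=
  basL.all fun b => wK bs w.reverse b fun x => wK bs v.reverse b fun y => decide (x = y)

/-- Relator check. -/
abbrev mok (w : List ℕ) : Bool := eqok bs w []

theorem eqok_spec {w v : List ℕ} (h : eqok bs w v = true) (j : Fin 3 ⊕ Fin 3) :
    evB bs w (bas j) = evB bs v (bas j) := by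
  have h1 := List.all_eq_true.1 h (bas j) (bas_mem j)
  rw [wK_eq, wK_eq, evR_reverse, evR_reverse] at h1
  exact of_decide_eq_true h1

end words

section grp

universe u

variable {F : Type u} [Field F] [CharP F 2]

/-- The element `0` or `1` of `F`. -/
def b2f (b : Bool) : F := if b then 1 else 0

theorem b2f_and (a b : Bool) : (b2f (a && b) : F) = b2f a * b2f b := by
  cases a <;> cases b <;> simp [b2f]

theorem b2f_xor (a b : Bool) : (b2f (xor a b) : F) = b2f a + b2f b := by
  cases a <;> cases b <;> simp [b2f, CharTwo.add_self_eq_zero]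

/-- The vector of `F⁶` with given coordinates. -/
def vec (x : B6) : Fin 3 ⊕ Fin 3 → F :=
  Sum.elim ![b2f x.a, b2f x.b, b2f x.c] ![b2f x.d, b2f x.e, b2f x.f]

theorem vec_bas (j : Fin 3 ⊕ Fin 3) : (vec (bas j) : Fin 3 ⊕ Fin 3 → F) = Pi.single j 1 := by
  funext i
  rcases j with j | j <;> fin_cases j <;> rcases i with i | i <;> fin_cases i <;>
    simp [vec, bas, b2f]

theorem vec_injective : Function.Injective (vec : B6 → Fin 3 ⊕ Fin 3 → F) := by
  have hb : ∀ a b : Bool, (b2f a : F) = b2f b → a = b := by
    intro a b h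
    cases a <;> cases b <;> simp [b2f] at h ⊢
  intro x y h
  rcases x with ⟨a, b, c, d, e, f⟩
  rcases y with ⟨a', b', c', d', e', f'⟩
  have h0 := hb _ _ (congrFun h (Sum.inl 0))
  have h1 := hb _ _ (congrFun h (Sum.inl 1))
  have h2 := hb _ _ (congrFun h (Sum.inl 2))
  have h3 := hb _ _ (congrFun h (Sum.inr 0))
  have h4 := hb _ _ (congrFun h (Sum.inr 1))
  have h5 := hb _ _ (congrFun h (Sum.inr 2))
  simp only at h0 h1 h2 h3 h4 h5
  subst h0 h1 h2 h3 h4 h5
  rfl

theorem form_vec (x u : B6) : Cfsg.sympForm 3 F (vec x) (vec u) = b2f (frm x u) := by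
  rw [Cfsg.Agent.Helper13.sympForm_apply, Fin.sum_univ_three]
  simp only [frm, b2f_xor, b2f_and, CharTwo.sub_eq_add]
  simp [vec]

/-- The transvection along the vector `u`. -/
noncomputable def tE (u : B6) : Matrix.symplecticGroup (Fin 3) F := spTv 3 (vec u) 1

theorem tE_mulVec (u x : B6) :
    ((tE u : Matrix.symplecticGroup (Fin 3) F) : Matrix (Fin 3 ⊕ Fin 3) (Fin 3 ⊕ Fin 3) F) *ᵥ
      vec x = vec (tvB u x) := by
  rw [tE, spTv_mulVec, one_mul, form_vec]
  funext i
  rcases i with i | i <;> fin_cases i <;>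
    simp [vec, tvB, b2f_xor, b2f_and, mul_comm]

theorem tE_sq (u : B6) : (tE u : Matrix.symplecticGroup (Fin 3) F) * tE u = 1 := by
  rw [tE, spTv_mul, CharTwo.add_self_eq_zero]
  apply sp_ext
  intro x
  rw [spTv_mulVec, zero_mul, zero_smul, add_zero, sp_coe_one, Matrix.one_mulVec]

/-- The product of the transvections of a list. -/
noncomputable def tvs (l : List B6) : Matrix.symplecticGroup (Fin 3) F :=
  (l.map fun u => (tE u : Matrix.symplecticGroup (Fin 3) F)).prod

theorem tvs_cons (u : B6) (l : List B6) :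
    (tvs (u :: l) : Matrix.symplecticGroup (Fin 3) F) = tE u * tvs l := by
  simp [tvs]

theorem tvs_append (l l' : List B6) :
    (tvs (l ++ l') : Matrix.symplecticGroup (Fin 3) F) = tvs l * tvs l' := by
  simp [tvs]

theorem tvs_reverse (l : List B6) :
    (tvs l : Matrix.symplecticGroup (Fin 3) F) * tvs l.reverse = 1 := by
  induction l with
  | nil => simp [tvs]
  | cons u l ih =>
    rw [List.reverse_cons, tvs_append, tvs_cons]
    have e : (tvs [u] : Matrix.symplecticGroup (Fin 3) F) = tE u := by simp [tvs]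
    rw [e]
    calc (tE u : Matrix.symplecticGroup (Fin 3) F) * tvs l * (tvs l.reverse * tE u)
        = tE u * (tvs l * tvs l.reverse) * tE u := by group
      _ = 1 := by rw [ih, mul_one, tE_sq]

theorem tvs_inv (l : List B6) :
    (tvs l : Matrix.symplecticGroup (Fin 3) F)⁻¹ = tvs l.reverse :=
  inv_eq_of_mul_eq_one_right (tvs_reverse l)

theorem tvs_mulVec (l : List B6) (x : B6) :
    ((tvs l : Matrix.symplecticGroup (Fin 3) F) : Matrix (Fin 3 ⊕ Fin 3) (Fin 3 ⊕ Fin 3) F) *ᵥ
      vec x = vec (appL l.reverse x) := by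
  induction l generalizing x with
  | nil =>
    show ((1 : Matrix.symplecticGroup (Fin 3) F) : Matrix (Fin 3 ⊕ Fin 3) (Fin 3 ⊕ Fin 3) F) *ᵥ
      vec x = vec x
    rw [sp_coe_one, Matrix.one_mulVec]
  | cons u l ih =>
    have happ : ∀ (r s : List B6) (y : B6), appL (r ++ s) y = appL s (appL r y) := by
      intro r s y
      induction r generalizing y with
      | nil => rfl
      | cons v r ihr => exact ihr _
    rw [tvs_cons, sp_mul_mulVec, ih, tE_mulVec, List.reverse_cons, happ]
    rfl

variable (bs : List (List B6))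

/-- The generators. -/
noncomputable def gsS : List (Matrix.symplecticGroup (Fin 3) F) := bs.map tvs

theorem length_gsS : (gsS (F := F) bs).length = bs.length := by
  simp [gsS]

theorem gl_mulVec (j : ℕ) (x : B6) :
    ((gl (gsS (F := F) bs) j : Matrix.symplecticGroup (Fin 3) F) :
      Matrix (Fin 3 ⊕ Fin 3) (Fin 3 ⊕ Fin 3) F) *ᵥ vec x = vec (gB bs j x) := by
  have hget : (gsS (F := F) bs).getD (j / 2) 1 = tvs (bs.getD (j / 2) []) := by
    have h1 : (tvs ([] : List B6) : Matrix.symplecticGroup (Fin 3) F) = 1 := by simp [tvs]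
    rw [gsS, List.getD_eq_getElem?_getD, List.getD_eq_getElem?_getD, List.getElem?_map]
    cases bs[j / 2]? <;> simp [h1]
  unfold gl gB ordL
  split
  · rw [hget, tvs_mulVec]
  · rw [hget, tvs_inv, tvs_mulVec, List.reverse_reverse]

theorem ev_mulVec (w : List ℕ) (x : B6) :
    ((ev (gl (gsS (F := F) bs)) w : Matrix.symplecticGroup (Fin 3) F) :
      Matrix (Fin 3 ⊕ Fin 3) (Fin 3 ⊕ Fin 3) F) *ᵥ vec x = vec (evB bs w x) := by
  induction w with
  | nil =>
    show ((1 : Matrix.symplecticGroup (Fin 3) F) : Matrix (Fin 3 ⊕ Fin 3) (Fin 3 ⊕ Fin 3) F) *ᵥ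
      vec x = vec x
    rw [sp_coe_one, Matrix.one_mulVec]
  | cons j w ih =>
    show ((gl (gsS (F := F) bs) j * ev (gl (gsS (F := F) bs)) w :
      Matrix.symplecticGroup (Fin 3) F) : Matrix (Fin 3 ⊕ Fin 3) (Fin 3 ⊕ Fin 3) F) *ᵥ vec x = _
    rw [sp_mul_mulVec, ih, gl_mulVec]
    rfl

/-- Two elements which agree on the basis vectors are equal. -/
theorem eq_of_bas (A B : Matrix.symplecticGroup (Fin 3) F)
    (h : ∀ j, (A : Matrix (Fin 3 ⊕ Fin 3) (Fin 3 ⊕ Fin 3) F) *ᵥ vec (bas j) =
      (B : Matrix (Fin 3 ⊕ Fin 3) (Fin 3 ⊕ Fin 3) F) *ᵥ vec (bas j)) : A = B := by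
  apply Subtype.ext
  ext i j
  have h1 := congrFun (h j) i
  rw [vec_bas, Matrix.mulVec_single_one, Matrix.mulVec_single_one] at h1
  exact h1

theorem ev_eq_ev {w v : List ℕ} (h : eqok bs w v = true) :
    ev (gl (gsS (F := F) bs)) w = ev (gl (gsS (F := F) bs)) v := by
  apply eq_of_bas
  intro j
  rw [ev_mulVec, ev_mulVec, eqok_spec bs h]

theorem ev_eq_one {w : List ℕ} (h : mok bs w = true) : ev (gl (gsS (F := F) bs)) w = 1 :=
  ev_eq_ev bs h

theorem rels_hold (ws : List (List ℕ)) (h : ws.all (mok bs) = true) :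
    ∀ w ∈ ws, ev (gl (gsS (F := F) bs)) w = 1 :=
  fun w hw => ev_eq_one bs (List.all_eq_true.1 h w hw)

theorem ev_ne_one {w : List ℕ} (h : mok bs w = false) : ev (gl (gsS (F := F) bs)) w ≠ 1 := by
  intro h1
  have h2 : ∀ b ∈ basL, evB bs w b = b := by
    intro b _
    have h3 := ev_mulVec (F := F) bs w b
    rw [h1, sp_coe_one, Matrix.one_mulVec] at h3
    exact (vec_injective h3).symm
  have h4 : mok bs w = true := by
    apply List.all_eq_true.2
    intro b hb
    rw [wK_eq, wK_eq, evR_reverse, evR_reverse]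
    exact decide_eq_true (h2 b hb)
  rw [h4] at h
  exact absurd h (by simp)

/-- An element acting on the basis vectors as the transvection along `u`. -/
theorem eq_tE_of (A : Matrix.symplecticGroup (Fin 3) F) (u : B6) (g : B6 → B6)
    (hA : ∀ x, (A : Matrix (Fin 3 ⊕ Fin 3) (Fin 3 ⊕ Fin 3) F) *ᵥ vec x = vec (g x))
    (h : ∀ b ∈ basL, g b = tvB u b) : A = tE u := by
  apply eq_of_bas
  intro j
  rw [hA, tE_mulVec, h _ (bas_mem j)]

end grp

section gen

universe u

variable {F : Type u} [Field F] [Fintype F] [CharP F 2]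

/-- Over the field with two elements, every vector has coordinates `0` or `1`. -/
theorem exists_vec (hF : Fintype.card F = 2) (v : Fin 3 ⊕ Fin 3 → F) : ∃ x : B6, vec x = v := by
  classical
  have h01 : ∀ c : F, c = 0 ∨ c = 1 := by
    intro c
    have h := FiniteField.pow_card c
    rw [hF] at h
    have h2 : c * (c - 1) = 0 := by ring_nf; rw [h]; ring
    rcases mul_eq_zero.1 h2 with h3 | h3
    · exact Or.inl h3
    · exact Or.inr (sub_eq_zero.1 h3)
  have hb : ∀ c : F, b2f (decide (c = 1)) = c := by
    intro c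
    rcases h01 c with h | h
    · subst h; simp [b2f]
    · subst h; simp [b2f]
  refine ⟨⟨decide (v (Sum.inl 0) = 1), decide (v (Sum.inl 1) = 1), decide (v (Sum.inl 2) = 1),
    decide (v (Sum.inr 0) = 1), decide (v (Sum.inr 1) = 1), decide (v (Sum.inr 2) = 1)⟩, ?_⟩
  funext i
  rcases i with i | i <;> fin_cases i <;> simp only [vec] <;> simp [hb]

/-- Generation of `Sp(6, 2)`: a subgroup containing all `tE u` is everything. -/
theorem top_of_tE (hF : Fintype.card F = 2) (K : Subgroup (Matrix.symplecticGroup (Fin 3) F))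
    (h : ∀ u : B6, (tE u : Matrix.symplecticGroup (Fin 3) F) ∈ K) : K = ⊤ := by
  rw [eq_top_iff, ← spT_eq_top, spT, closure_le]
  rintro _ ⟨v, c, rfl⟩
  have h01 : c = 0 ∨ c = 1 := by
    have h := FiniteField.pow_card c
    rw [hF] at h
    have h2 : c * (c - 1) = 0 := by ring_nf; rw [h]; ring
    rcases mul_eq_zero.1 h2 with h3 | h3
    · exact Or.inl h3
    · exact Or.inr (sub_eq_zero.1 h3)
  rcases h01 with rfl | rfl
  · have : spTv 3 v (0 : F) = 1 := by
      apply sp_ext
      intro x
      rw [spTv_mulVec, zero_mul, zero_smul, add_zero, sp_coe_one, Matrix.one_mulVec]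
    rw [SetLike.mem_coe, this]
    exact K.one_mem
  · obtain ⟨x, rfl⟩ := exists_vec hF v
    exact h x

variable (bs : List (List B6))

/-- Check of words for the 64 transvections `tE (ofNat n)`: symbols below `k`, and the action on
the basis vectors. -/
def twok (k : ℕ) (tw : ℕ → List ℕ) : Bool :=
  (List.range 64).all fun n => (tw n).all (fun j => decide (j < k)) &&
    basL.all fun b => wK bs (tw n).reverse b fun x => tvK (ofNat n) b fun y => decide (x = y)

/-- Generation by words: the group generated by the first `k` symbols is everything if every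
transvection is given by a word. -/
theorem gen_top (hF : Fintype.card F = 2) (k : ℕ) (tw : ℕ → List ℕ) (h : twok bs k tw = true) :
    closure (gl (gsS (F := F) bs) '' Set.Iio k) = ⊤ := by
  apply top_of_tE hF
  intro u
  obtain ⟨n, hn, rfl⟩ := List.mem_map.1 (mem_allB u)
  have h0 := List.all_eq_true.1 h n hn
  rw [Bool.and_eq_true] at h0
  obtain ⟨h1, h2⟩ := h0
  have e : ev (gl (gsS (F := F) bs)) (tw n) = tE (ofNat n) := by
    apply eq_tE_of _ _ (evB bs (tw n)) (ev_mulVec bs (tw n))
    intro b hb
    have h3 := List.all_eq_true.1 h2 b hb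
    rw [wK_eq, tvK_eq, evR_reverse] at h3
    exact of_decide_eq_true h3
  rw [← e]
  exact CT.ev_mem_closure' (gl (gsS (F := F) bs)) k (tw n)
    (fun j hj => of_decide_eq_true (List.all_eq_true.1 h1 j hj))

end gen

end Cfsg.Agent.Helper89.Sp62
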