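import Cfsg.Agent.Helper89.Sp62Tab
import Cfsg.Agent.Helper89.Sp62Cox
import Cfsg.Agent.Helper89.Sp62Mat
import Cfsg.Agent.Helper89.CoxP
import Cfsg.Agent.Helper5.SympCard
import Cfsg.Agent.Helper5.SympCenter

/-!
# The Schur multiplier of `Sp(6, 2)` is cyclic of order 2 (helper89)

The cover is the subgroup of `Sp(6, F) × Sym(120 × 2)` generated by four pairs, for any field `F`
with two elements; the symplectic components are products of transvections, of orders 7, 3, 3, 5.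
The chain certificate `Sp62c.Ls` gives its order `2 · |Sp(6, 2)|` and the triviality of the 2-part of
its multiplier.  For the prime 3: seven transvections of `Sp(6, 2)` satisfy the Coxeter relators of
type `E7`, and `W(E7)` has order `2 · |Sp(6, 2)|` (`Sp62x.Ls`), so that central extensions of
`Sp(6, 2)` with kernel of exponent 3 split (`Chain.p_of_chain`).  The Sylow subgroups for 5 and 7
are cyclic.
-/

set_option autoImplicit false
set_option maxRecDepth 100000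
set_option linter.unusedSectionVars false

namespace Cfsg.Agent.Helper89.Sp62c

open Cfsg Subgroup Sp62

/-- The four generators as products of transvections (orders 7, 3, 3, 5). -/
def bs : List (List B6) := [[⟨false, false, true, true, true, true⟩, ⟨true, true, false, false, false, false⟩, ⟨true, false, false, true, false, true⟩, ⟨false, true, false, false, false, false⟩, ⟨false, false, true, false, false, true⟩, ⟨true, true, false, false, false, true⟩],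
  [⟨false, true, true, true, false, false⟩, ⟨true, true, true, true, true, false⟩, ⟨true, false, false, true, true, true⟩, ⟨false, false, true, true, true, true⟩],
  [⟨true, false, false, false, true, true⟩, ⟨true, false, false, false, false, false⟩, ⟨false, false, true, true, true, false⟩, ⟨true, true, false, false, true, false⟩],
  [⟨false, true, true, true, true, false⟩, ⟨false, true, false, false, true, false⟩, ⟨true, true, true, true, false, true⟩, ⟨true, true, false, true, true, false⟩]]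

/-- Seven vectors forming a Coxeter system of type `E7`. -/
def cx : List (List B6) := [[⟨true, false, false, false, false, false⟩], [⟨false, false, false, true, false, false⟩], [⟨true, true, false, false, false, false⟩], [⟨false, false, false, false, true, false⟩], [⟨false, false, true, false, true, false⟩], [⟨false, true, false, false, false, true⟩], [⟨false, false, true, false, false, false⟩]]

/-- Words in the generators for the 64 transvections. -/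
def twL : List (List ℕ) := [[], [1, 1, 6, 4, 1, 6, 6, 4, 7], [0, 4, 6, 3, 7, 0, 5, 7, 3], [0, 2, 5, 7, 1, 6, 2, 7, 4, 2], [0, 5, 7, 0, 0, 6, 5, 7, 7], [0, 7, 2, 0, 7, 7, 2, 7, 2], [0, 6, 5, 6, 3, 4, 7, 4], [1, 5, 2, 0, 4, 7, 2, 5, 6], [3, 1, 7, 5, 3, 6, 6, 3, 5], [3, 5, 3, 1, 7, 5, 3, 6, 6], [0, 7, 2, 0, 7, 2, 4, 6, 2], [0, 2, 7, 5, 2, 6, 2, 7, 3], [1, 3, 7, 5, 2, 7, 4, 3, 6], [4, 7, 1, 1, 6, 4, 1, 6, 6], [0, 7, 4, 3, 6, 5, 1, 3, 4], [1, 3, 6, 1, 3, 7, 5, 3, 6], [0, 0, 6, 6, 3, 7, 5, 0, 6], [2, 0, 7, 2, 4, 6, 2, 0, 7], [0, 2, 4, 2, 7, 7, 2, 4, 6], [0, 0, 5, 7, 4, 3, 6, 3, 5], [0, 7, 2, 4, 6, 2, 0, 7, 2], [2, 4, 0, 0, 5, 7, 4, 2, 7], [3, 6, 1, 3, 6, 1, 3, 7, 5], [0, 6, 5, 7, 7, 0, 5, 7, 0], [0, 0, 6, 5, 7, 7, 0, 5, 7], [1, 4, 6, 2, 7, 7, 1, 1, 7], [2, 7, 4, 3, 6, 1, 3, 7, 5], [0, 6, 0, 0, 6, 6, 3, 7, 5], [1, 7, 7, 4, 7, 5, 6, 5, 7], [1, 3, 4, 0, 7, 4, 3, 6, 5], [0, 5, 7, 3,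 0, 4, 6, 3, 7], [1, 2, 6, 4, 1, 6, 2, 7, 5], [1, 7, 5, 3, 6, 6, 3, 5, 3], [0, 5, 3, 5, 6, 6, 2, 7, 3], [6, 0, 6, 4, 7, 4, 6, 5, 6], [5, 6, 3, 4, 7, 4, 0, 6], [1, 3, 6, 1, 3, 6, 3, 6, 6], [0, 4, 1, 6, 2, 4, 3, 0, 7, 4], [2, 7, 4, 7, 1, 5, 6, 5], [0, 5, 1, 1, 6, 6, 2, 7, 4], [5, 3, 7, 3, 5, 6, 5, 6, 6], [2, 0, 7, 2, 0, 7, 2, 4, 6], [2, 5, 6, 3, 4, 6, 2, 0, 7], [0, 6, 4, 7, 4, 6, 5, 6, 6], [2, 7, 1, 1, 1, 7, 5, 2, 6], [3, 4, 7, 4, 0, 6, 5, 6], [0, 0, 4, 6, 6, 0, 5, 0, 2, 6], [1, 5, 6, 5, 2, 7, 4, 7], [1, 6, 6, 4, 7, 1, 1, 6, 4], [0, 5, 7, 4, 3, 6, 3, 5, 0], [3, 4, 6, 2, 0, 7, 2, 5, 6], [0, 0, 6, 3, 7, 3, 4, 6, 0], [0, 4, 1, 5, 6, 3, 7, 7, 0], [5, 2, 7, 4, 7, 1, 5, 6], [0, 6, 1, 3, 6, 1, 5, 2, 5, 6], [1, 3, 7, 5, 3, 6, 1, 3, 6], [0, 0, 5, 7, 4, 2, 7, 2, 4], [4, 0, 6, 5, 6, 3, 4, 7], [5, 6, 6, 5, 3, 7, 3, 5, 6], [0, 3, 4, 6, 2, 4, 1, 7, 2, 4], [0, 4, 7, 2, 5, 6, 1, 5, 2], [0, 7,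 2, 5, 6, 3, 4, 6, 2], [3, 6, 1, 3, 7, 5, 2, 7, 4], [0, 6, 6, 3, 7, 5, 0, 6, 0]]

/-- Words in the Coxeter generators for the 64 transvections. -/
def cwL : List (List ℕ) := [[], [0], [6, 10, 12, 4, 6, 10, 2, 4, 8, 6, 4, 2, 0, 3, 5, 7, 9, 5, 3, 11, 7, 5, 13, 11, 7], [4], [12], [2, 4, 8, 6, 4, 2, 0, 3, 5, 7, 9, 5, 3], [10, 12, 8, 4, 6, 10, 2, 4, 8, 6, 4, 2, 0, 3, 5, 7, 9, 5, 3, 11, 7, 5, 9, 13, 11], [8, 6, 4, 7, 9], [2], [2, 0, 3], [4, 2, 0, 3, 5], [4, 2, 5], [4, 8, 6, 4, 2, 5, 7, 9, 5], [4, 8, 6, 4, 2, 0, 3, 5, 7, 9, 5], [8, 6, 4, 2, 0, 3, 5, 7, 9], [8, 6, 4, 2, 5, 7, 9], [6], [10, 12, 6, 10, 2, 4, 8, 6, 4, 2, 0, 3, 5, 7, 9, 5, 3, 11, 7, 13, 11], [10, 12, 4, 6, 10, 2, 4, 8, 6, 4, 2, 0, 3, 5, 7, 9, 5, 3, 11, 7, 5, 13, 11], [6, 4, 7], [8], [4, 6, 10, 12, 8, 4, 6, 10, 2, 4, 8, 6, 4, 2, 0, 3, 5, 7, 9, 5, 3, 11, 7, 5, 9, 13, 11, 7, 5], [6, 10, 12, 8, 4, 6, 10, 2, 4, 8, 6, 4, 2,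 0, 3, 5, 7, 9, 5, 3, 11, 7, 5, 9, 13, 11, 7], [8, 4, 9], [10, 12, 6, 10, 4, 8, 6, 4, 2, 5, 7, 9, 5, 11, 7, 13, 11], [10, 12, 6, 10, 4, 8, 6, 4, 2, 0, 3, 5, 7, 9, 5, 11, 7, 13, 11], [6, 4, 2, 0, 3, 5, 7], [6, 4, 2, 5, 7], [0, 2, 4, 6, 10, 12, 8, 4, 6, 10, 2, 4, 8, 6, 4, 2, 0, 3, 5, 7, 9, 5, 3, 11, 7, 5, 9, 13, 11, 7, 5, 3, 1], [2, 4, 6, 10, 12, 8, 4, 6, 10, 2, 4, 8, 6, 4, 2, 0, 3, 5, 7, 9, 5, 3, 11, 7, 5, 9, 13, 11, 7, 5, 3], [8, 4, 2, 0, 3, 5, 9], [8, 4, 2, 5, 9], [8, 4, 6, 10, 2, 4, 8, 6, 4, 2, 0, 3, 5, 7, 9, 5, 3, 11, 7, 5, 9], [12, 10, 8, 6, 4, 7, 9, 11, 13], [10], [12, 10, 2, 4, 8, 6, 4, 2, 0, 3, 5, 7, 9, 5, 3, 11, 13], [12, 8, 4, 6, 10, 2, 4, 8, 6, 4, 2, 0, 3, 5, 7, 9, 5, 3, 11, 7, 5, 9, 13], [10, 8, 6, 4, 7, 9, 11], [12, 10, 13], [10, 2, 4, 8, 6, 4, 2, 0, 3, 5, 7, 9, 5, 3, 11], [12, 10, 8, 6, 4, 2, 0, 3, 5, 7, 9, 11, 13], [12, 10, 8, 6, 4, 2, 5, 7, 9, 11, 13], [12, 10,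 4, 8, 6, 4, 2, 5, 7, 9, 5, 11, 13], [12, 10, 4, 8, 6, 4, 2, 0, 3, 5, 7, 9, 5, 11, 13], [10, 8, 6, 4, 2, 0, 3, 5, 7, 9, 11], [10, 8, 6, 4, 2, 5, 7, 9, 11], [10, 4, 8, 6, 4, 2, 5, 7, 9, 5, 11], [10, 4, 8, 6, 4, 2, 0, 3, 5, 7, 9, 5, 11], [12, 4, 6, 10, 2, 4, 8, 6, 4, 2, 0, 3, 5, 7, 9, 5, 3, 11, 7, 5, 13], [10, 6, 4, 7, 11], [10, 6, 11], [12, 6, 10, 2, 4, 8, 6, 4, 2, 0, 3, 5, 7, 9, 5, 3, 11, 7, 13], [4, 6, 10, 2, 4, 8, 6, 4, 2, 0, 3, 5, 7, 9, 5, 3, 11, 7, 5], [12, 10, 6, 4, 7, 11, 13], [12, 10, 6, 11, 13], [6, 10, 2, 4, 8, 6, 4, 2, 0, 3, 5, 7, 9, 5, 3, 11, 7], [10, 6, 4, 2, 0, 3, 5, 7, 11], [10, 6, 4, 2, 5, 7, 11], [12, 6, 10, 4, 8, 6, 4, 2, 5, 7, 9, 5, 11, 7, 13], [12, 6, 10, 4, 8, 6, 4, 2, 0, 3, 5, 7, 9, 5, 11, 7, 13], [12, 10, 6, 4, 2, 0, 3, 5, 7, 11, 13], [12, 10, 6, 4, 2, 5, 7, 11, 13], [6, 10, 4, 8, 6, 4, 2, 5, 7, 9, 5, 11, 7], [6, 10, 4, 8, 6, 4, 2, 0, 3, 5, 7, 9, 5, 11,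 7]]

theorem tw_ok : twok bs 8 (fun n => twL.getD n []) = true := by decide +kernel

theorem cw_ok : twok cx 14 (fun n => cwL.getD n []) = true := by decide +kernel

/-! ### The cover -/

def qs : List (Equiv.Perm (Fin 120 × Fin 2)) :=
  TP.perms 120 2 cT cL (by norm_num) (by norm_num) 8 inv_ok hk

theorem qs_length : qs.length = 4 := by
  simp [qs, TP.perms]

universe u

variable {F : Type u} [Field F] [Fintype F] [CharP F 2]

theorem genS (hF : Fintype.card F = 2) : closure (gl (gsS (F := F) bs) '' Set.Iio 8) = ⊤ :=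
  gen_top bs hF 8 _ tw_ok

theorem genC (hF : Fintype.card F = 2) : closure (gl (gsS (F := F) cx) '' Set.Iio 14) = ⊤ :=
  gen_top cx hF 14 _ cw_ok

theorem hlen : (gsS (F := F) bs).length = qs.length := by
  rw [length_gsS, qs_length]
  rfl

/-- The generators of the cover. -/
noncomputable abbrev l : List ↥(CP.cov (gsS (F := F) bs) qs) := CP.gens (gsS (F := F) bs) qs

theorem cov_rels (ws : List (List ℕ)) (h1 : ws.all (mok bs) = true) (h2 : ws.all rok = true) :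
    ∀ w ∈ ws, ev (gl (l (F := F))) w = 1 :=
  CP.rels_hold (gsS (F := F) bs) qs hlen ws (rels_hold bs ws h1)
    (TP.rels_hold 120 2 cT cL _ _ 8 inv_ok hk ws h2)

theorem hE : ∀ w ∈ Chain.powW ps, ev (gl (l (F := F))) w = 1 :=
  cov_rels _ (by decide +kernel) tab_pw

theorem hW : ∀ d ∈ Ls, ∀ w ∈ d.ws, ev (gl (l (F := F))) w = 1 := by
  intro d hd
  simp only [Ls, List.mem_cons, List.not_mem_nil, or_false] at hd
  rcases hd with rfl | rfl | rfl | rfl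
  · intro w hw
    exact absurd hw (by simp [L0])
  · exact cov_rels _ (by decide +kernel) tab_w1
  · exact cov_rels _ (by decide +kernel) tab_w2
  · exact cov_rels _ (by decide +kernel) tab_w3

theorem gen8 : closure (gl (l (F := F)) '' Set.Iio 8) = ⊤ := by
  have h := CP.gen_top (gsS (F := F) bs) qs hlen
  rw [length_gsS] at h
  exact h

theorem card_dvd : Nat.card ↥(CP.cov (gsS (F := F) bs) qs) ∣ 2903040 := by
  have h := Chain.card_dvd (l (F := F)) ps Ls valid chained hE hW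
  rw [lastK_eq, gen8, Subgroup.card_top, prodN_eq] at h
  exact h

theorem covπ_surj (hF : Fintype.card F = 2) :
    Function.Surjective (CP.covπ (gsS (F := F) bs) qs) :=
  CP.π_surj (gsS (F := F) bs) qs hlen (by rw [length_gsS]; exact genS hF)

theorem card_Sp (hF : Fintype.card F = 2) :
    Nat.card (Matrix.symplecticGroup (Fin 3) F) = 1451520 := by
  rw [Cfsg.Agent.Helper5.card_sp, hF]
  decide

/-- The generator of the kernel. -/
noncomputable def ζ : ↥(CP.cov (gsS (F := F) bs) qs) := ev (gl (l (F := F))) zw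

theorem ζ_ker : CP.covπ (gsS (F := F) bs) qs ζ = 1 := by
  rw [ζ, CP.π_ev (gsS (F := F) bs) qs hlen]
  exact ev_eq_one bs (by decide +kernel)

theorem ζ_sq : (ζ : ↥(CP.cov (gsS (F := F) bs) qs)) ^ 2 = 1 := by
  have h := cov_rels (F := F) [CT.rep zw 2] (by decide +kernel) tab_zsq
  rw [ζ, ← CT.ev_rep]
  exact h _ (by simp)

theorem ζ_ne : (ζ : ↥(CP.cov (gsS (F := F) bs) qs)) ≠ 1 :=
  CP.ev_ne_one (gsS (F := F) bs) qs hlen _
    (TP.ev_ne_one 120 2 cT cL _ _ 8 inv_ok hk _ (by decide +kernel) 0 (by norm_num) tab_z)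

theorem ζ_ord : orderOf (ζ : ↥(CP.cov (gsS (F := F) bs) qs)) = 2 :=
  orderOf_eq_prime ζ_sq ζ_ne

theorem ζ_central : ∀ x, (ζ : ↥(CP.cov (gsS (F := F) bs) qs)) * x = x * ζ :=
  CT.central_of_gens (gl (l (F := F))) 8 gen8 ζ
    (CT.comm_of_words (gl (l (F := F))) (gl_inv (l (F := F))) zw 4
      (cov_rels _ (by decide +kernel) tab_zc))

theorem card_cov (hF : Fintype.card F = 2) :
    Nat.card ↥(CP.cov (gsS (F := F) bs) qs) = 2903040 := by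
  have h := CT.card_cover (CP.covπ (gsS (F := F) bs) qs) (covπ_surj hF) 2
    (by rw [card_Sp hF]; exact card_dvd) ζ ζ_ker ζ_ord
  rw [h, card_Sp hF]

theorem perfect : commutator ↥(CP.cov (gsS (F := F) bs) qs) = ⊤ :=
  Stem.perfect_of_conj (gl (l (F := F))) (gl_inv (l (F := F))) 4 gen8 cj (by decide)
    (cov_rels _ (by decide +kernel) tab_cj) (cov_rels _ (by decide +kernel) tab_cp)

/-! ### The prime 3 -/

theorem cxE : ∀ w ∈ Sp62x.E, ev (gl (gsS (F := F) cx)) w = 1 :=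
  rels_hold cx Sp62x.E (by decide +kernel)

theorem cxN : ∀ i, ((gsS (F := F) cx).getD i 1) ^ 2 = 1 := by
  intro i
  by_cases hi : i < 7
  · have h := cxE (F := F) (List.replicate 2 (2 * i))
      (List.mem_append_left _ (List.mem_map.2 ⟨(i, 2), by
        interval_cases i <;> decide, rfl⟩))
    rwa [ev_replicate, Chain.gl_two_mul] at h
  · rw [List.getD_eq_default _ _ (by rw [length_gsS]; show 7 ≤ i; omega), one_pow]

/-- Central extensions of `Sp(6, 2)` with kernel of exponent 3 inside the commutator subgroup are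
trivial. -/
theorem three_Sp (hF : Fintype.card F = 2) (X : Type u) [Group X] [Finite X]
    (τ : X →* Matrix.symplecticGroup (Fin 3) F) (hτ : Function.Surjective τ)
    (hker : ∀ x, τ x = 1 → x ∈ center X ∧ x ^ 3 = 1) (hd : τ.ker ≤ commutator X) :
    ∀ x, τ x = 1 → x = 1 :=
  Chain.p_of_chain 3 2 2 Nat.prime_three (by decide) (by decide) (gsS (F := F) cx) Sp62x.E
    Sp62x.ps Sp62x.Ls Sp62x.ps_two cxN Sp62x.E_ok Sp62x.valid Sp62x.chained Sp62x.ws_nil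
    (by rw [Sp62x.prodN_eq, card_Sp hF])
    (by rw [Sp62x.lastK_eq]; exact genC hF) cxE τ hτ hker hd

theorem not_sq {p : ℕ} (hp : p.Prime) (h2 : p ≠ 2) (h3 : p ≠ 3) : ¬ p ^ 2 ∣ 2903040 := by
  intro h
  have hc2 : Nat.Coprime (p ^ 2) (2 ^ 10) :=
    Nat.Coprime.pow _ _ ((Nat.coprime_primes hp Nat.prime_two).2 h2)
  have hc3 : Nat.Coprime (p ^ 2) (3 ^ 4) :=
    Nat.Coprime.pow _ _ ((Nat.coprime_primes hp Nat.prime_three).2 h3)
  have h1 : p ^ 2 ∣ 2835 := hc2.dvd_of_dvd_mul_left (by norm_num; exact h)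
  have h4 : p ^ 2 ∣ 35 := hc3.dvd_of_dvd_mul_left (by norm_num; exact h1)
  have h5 : p ^ 2 ≤ 35 := Nat.le_of_dvd (by norm_num) h4
  have h6 : p ≤ 5 := by nlinarith
  interval_cases p <;>
    first | exact absurd h4 (by decide) | exact absurd hp (by decide)

/-- The cover has trivial Schur multiplier. -/
theorem univ (hF : Fintype.card F = 2) (X : Type u) [Group X] [Finite X]
    (τ : X →* ↥(CP.cov (gsS (F := F) bs) qs))
    (hτ : Function.Surjective τ) (hc : τ.ker ≤ center X) (hd : τ.ker ≤ commutator X) :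
    τ.ker = ⊥ := by
  apply Stem.ker_eq_bot_of_primes
  intro p hp
  by_cases h2 : p = 2
  · subst h2
    exact Chain.two_universal (l (F := F)) ps Ls ps_odd valid chained
      (by rw [card_cov hF, prodN_eq])
      (by rw [lastK_eq]; exact gen8) hE hW X τ hτ hc hd
  by_cases h3 : p = 3
  · subst h3
    have hπk := Stem.ker_of_cyclic (CP.covπ (gsS (F := F) bs) qs) (covπ_surj hF) 2
      (by rw [card_Sp hF]; exact card_dvd) ζ ζ_ker ζ_ord ζ_central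
    exact Stem.p_not_dvd_card_ker 3 Nat.prime_three τ hτ hc hd
      (fun X' _ _ τ' hτ' hker' hd' =>
        Stem.p_cover 3 2 Nat.prime_three (by decide) (CP.covπ (gsS (F := F) bs) qs)
          (covπ_surj hF) hπk (fun Y _ _ σ hσ hk' hd'' => three_Sp hF Y σ hσ hk' hd'')
          X' τ' hτ' hker' hd')
  · have : Fact p.Prime := ⟨hp⟩
    exact Stem.not_dvd_card_ker_of_sq τ hc hd p (by rw [card_cov hF]; exact not_sq hp h2 h3)

/-- The projection onto `PSp(6, F)`. -/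
noncomputable def π : ↥(CP.cov (gsS (F := F) bs) qs) →* PSp 3 F :=
  (QuotientGroup.mk' (center (Matrix.symplecticGroup (Fin 3) F))).comp
    (CP.covπ (gsS (F := F) bs) qs)

theorem π_surj (hF : Fintype.card F = 2) : Function.Surjective (π (F := F)) :=
  (QuotientGroup.mk'_surjective _).comp (covπ_surj hF)

instance finPSp : Finite (PSp 3 F) :=
  inferInstanceAs (Finite (Matrix.symplecticGroup (Fin 3) F ⧸
    center (Matrix.symplecticGroup (Fin 3) F)))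

theorem card_PSp (hF : Fintype.card F = 2) : Nat.card (PSp 3 F) = 1451520 := by
  have h := Subgroup.card_eq_card_quotient_mul_card_subgroup
    (center (Matrix.symplecticGroup (Fin 3) F))
  have hc : Nat.card (center (Matrix.symplecticGroup (Fin 3) F)) = 1 := by
    rw [Cfsg.Agent.Helper5.sp_center_eq_bot (CharTwo.two_eq_zero), Subgroup.card_bot]
  rw [hc, mul_one, card_Sp hF] at h
  exact h.symm

/-- The Schur multiplier of `Sp(6, 2)` is cyclic of order 2. -/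
theorem schurSp62 (hF : Fintype.card F = 2) : HasCyclicSchurMultiplier (PSp 3 F) 2 :=
  Stem.cover_cyclic π (π_surj hF) 2 (by rw [card_PSp hF]; exact card_dvd) ζ
    (by
      show QuotientGroup.mk' _ (CP.covπ (gsS (F := F) bs) qs ζ) = 1
      rw [ζ_ker, map_one])
    ζ_ord ζ_central perfect (univ hF)

end Cfsg.Agent.Helper89.Sp62c
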